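import Mathlib

set_option autoImplicit false

/-!
# CALL NP (S5989, helper13), piece COMB (helper57, double)
-/

namespace Cfsg.Agent.Helper57.NP5989

/-- a multiset with parts in `{x, 2}` has sum `count x * x + count 2 * 2` -/
theorem npcomb_sum (x : ℕ) (hx : x ≠ 2) (ν : Multiset ℕ) (h : ∀ a ∈ ν, a = x ∨ a = 2) :
    ν.sum = ν.count x * x + ν.count 2 * 2 := by
  have h1 := Finset.sum_multiset_count_of_subset ν ({x, 2} : Finset ℕ) (by
    intro a ha
    rw [Multiset.mem_toFinset] at ha
    rcases h a ha with h | h <;> simp [h])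
  rw [h1, Finset.sum_pair hx]
  simp [smul_eq_mul]

/-- COMB: no sub-type of odd size with even multiplicities of the even parts. -/
theorem np_comb (d m : ℕ) (hm : Odd m) (ν : Multiset ℕ) (hs : ν.sum = m)
    (hpar : ∀ e, Even e → Even (ν.count e)) :
    (Even d → ¬ ν ≤ Multiset.replicate d 2) ∧
    (Odd d → m % 4 = 3 → ¬ ν ≤ {1} + {1} + Multiset.replicate (d - 1) 2) ∧
    (Odd d → m % 4 = 1 → ¬ ν ≤ {3} + {3} + Multiset.replicate (d - 3) 2) := by
  obtain ⟨k, hk⟩ := hpar 2 even_two
  obtain ⟨j, hj⟩ := hm
  refine ⟨?_, ?_, ?_⟩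
  · intro _ hle
    have hall : ∀ a ∈ ν, a = 2 := fun a ha =>
      Multiset.eq_of_mem_replicate (Multiset.subset_of_le hle ha)
    have h1 := Multiset.eq_replicate_card.mpr hall
    rw [h1, Multiset.sum_replicate, smul_eq_mul] at hs
    omega
  · intro _ h3 hle
    have hall : ∀ a ∈ ν, a = 1 ∨ a = 2 := by
      intro a ha
      have h1 := Multiset.subset_of_le hle ha
      rw [Multiset.mem_add, Multiset.mem_add, Multiset.mem_singleton] at h1
      rcases h1 with (h1 | h1) | h1
      · exact Or.inl h1
      · exact Or.inl h1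
      · exact Or.inr (Multiset.eq_of_mem_replicate h1)
    have hsum := npcomb_sum 1 (by norm_num) ν hall
    have hcnt : ν.count 1 ≤ 2 := by
      have h1 := Multiset.count_le_of_le 1 hle
      rw [Multiset.count_add, Multiset.count_add, Multiset.count_singleton_self,
        Multiset.count_replicate] at h1
      simpa using h1
    rw [hs] at hsum
    omega
  · intro _ h1 hle
    have hall : ∀ a ∈ ν, a = 3 ∨ a = 2 := by
      intro a ha
      have h1 := Multiset.subset_of_le hle ha
      rw [Multiset.mem_add, Multiset.mem_add, Multiset.mem_singleton] at h1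
      rcases h1 with (h1 | h1) | h1
      · exact Or.inl h1
      · exact Or.inl h1
      · exact Or.inr (Multiset.eq_of_mem_replicate h1)
    have hsum := npcomb_sum 3 (by norm_num) ν hall
    have hcnt : ν.count 3 ≤ 2 := by
      have h1 := Multiset.count_le_of_le 3 hle
      rw [Multiset.count_add, Multiset.count_add, Multiset.count_singleton_self,
        Multiset.count_replicate] at h1
      simpa using h1
    rw [hs] at hsum
    omega

end Cfsg.Agent.Helper57.NP5989
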