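import Mathlib
import Cfsg.Agent.Helper13.TLDefs

set_option autoImplicit false

/-! # CALL S5954 (helper13), piece UZNORM: a scalar power of an isometry has norm one -/

namespace Cfsg.Agent.Helper57.TI5954

open Module Polynomial
open Cfsg.Agent.Helper13.TIu Cfsg.Agent.Helper13.TIsp

section std

variable {F : Type*} [Field F] {σ : F →+* F}

/-- UZNORM: a scalar power of an isometry has a scalar of norm one (evaluate at a basis vector). -/
theorem u_z_norm (n : ℕ) (hn : 1 ≤ n) (T : Module.End F (Fin n → F)) (hT : UPres (stdH σ n) T)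
    (k : ℕ) (z : F) (hz : T ^ k = z • (1 : Module.End F (Fin n → F))) : σ z * z = 1 := by
  have hpow : ∀ j : ℕ, UPres (stdH σ n) (T ^ j) := by
    intro j
    induction j with
    | zero => intro u v; rw [pow_zero]; rfl
    | succ j ih =>
      intro u v
      rw [pow_succ, Module.End.mul_apply, Module.End.mul_apply, ih, hT]
  obtain ⟨e, he⟩ : ∃ e : Fin n → F, stdH σ n e e = 1 := by
    refine ⟨Pi.single ⟨0, hn⟩ 1, ?_⟩
    rw [stdH_apply]
    simp [Pi.single_apply]
  have h1 := hpow k e e
  rw [hz] at h1
  have e1 : (z • (1 : Module.End F (Fin n → F))) e = z • e := rfl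
  have a1 : stdH σ n (z • e) = σ z • stdH σ n e := map_smulₛₗ (stdH σ n) z e
  have e2 : stdH σ n (z • e) (z • e) = σ z * z := by
    rw [a1, LinearMap.smul_apply, map_smul, he, smul_eq_mul, smul_eq_mul, mul_one]
  rw [e1, e2, he] at h1
  exact h1

end std

end Cfsg.Agent.Helper57.TI5954
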