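import Mathlib
import Cfsg.Agent.Helper13.TLDefs

set_option autoImplicit false

/-! # CALL S5954 (helper13), piece UDETNORM: the determinant of an isometry has norm one -/

namespace Cfsg.Agent.Helper57.TI5954

open Module Polynomial
open Cfsg.Agent.Helper13.TIu Cfsg.Agent.Helper13.TIsp

section std

variable {F : Type*} [Field F] {σ : F →+* F}

/-- UDETNORM: `Cfsg.Agent.Helper44.det_norm_g` with `G = LinearMap.toMatrix' T`. -/
theorem u_det_norm (n : ℕ) (T : Module.End F (Fin n → F)) (hT : UPres (stdH σ n) T) :
    σ (LinearMap.det T) * LinearMap.det T = 1 := by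
  have h := Cfsg.Agent.Helper44.det_norm_g σ (LinearMap.toMatrix' T) (by
    intro x y
    rw [LinearMap.toMatrix'_mulVec, LinearMap.toMatrix'_mulVec]
    have := hT y x
    rw [stdH, Cfsg.Agent.Helper44.hBg_apply, Cfsg.Agent.Helper44.hBg_apply] at this
    exact this)
  rw [LinearMap.det_toMatrix'] at h
  rw [mul_comm]
  exact h

end std

end Cfsg.Agent.Helper57.TI5954
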