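import Mathlib
import Cfsg.Agent.Helper13.TLDefs

set_option autoImplicit false

/-! # CALL S5954 (helper13), piece UMODELTWO: the swap matrix on `F²` in characteristic 2 -/

namespace Cfsg.Agent.Helper57.TI5954

open Module Polynomial
open Cfsg.Agent.Helper13.TIu Cfsg.Agent.Helper13.TIsp

section std

variable {F : Type*} [Field F] {σ : F →+* F}

theorem umodel_two_ext {f g : Fin 2 → F} (h0 : f 0 = g 0) (h1 : f 1 = g 1) : f = g := by
  ext i
  fin_cases i
  · exact h0
  · exact h1

/-- UMODELTWO (case A, char 2): the swap matrix on `F²` (`(T - 1) ^ 2 = 2 - 2 T = 0`,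
`ker (T - 1) = {(x, x)}`). -/
theorem umodel_two (h2 : (2 : F) = 0) :
    ∃ T : Module.End F (Fin 2 → F), UPres (stdH σ 2) T ∧ T ^ 2 = 1 ∧
      JT (T - 1) ⊤ (Multiset.replicate 1 2) := by
  obtain ⟨T, hT0, hT1⟩ : ∃ T : Module.End F (Fin 2 → F),
      (∀ x : Fin 2 → F, T x 0 = x 1) ∧ (∀ x : Fin 2 → F, T x 1 = x 0) :=
    ⟨LinearMap.funLeft F F (Equiv.swap (0 : Fin 2) 1), fun x => by simp [LinearMap.funLeft_apply],
      fun x => by simp [LinearMap.funLeft_apply]⟩
  have hT2 : T ^ 2 = 1 := by
    apply LinearMap.ext
    intro x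
    apply umodel_two_ext
    · rw [pow_two, Module.End.mul_apply, hT0, hT1]; rfl
    · rw [pow_two, Module.End.mul_apply, hT1, hT0]; rfl
  have hN2 : (T - 1) ^ 2 = 0 := by
    apply LinearMap.ext
    intro x
    apply umodel_two_ext
    · rw [pow_two, Module.End.mul_apply]
      simp only [LinearMap.sub_apply, Module.End.one_apply, Pi.sub_apply, hT0, hT1,
        LinearMap.zero_apply, Pi.zero_apply]
      linear_combination (x 0 - x 1) * h2
    · rw [pow_two, Module.End.mul_apply]
      simp only [LinearMap.sub_apply, Module.End.one_apply, Pi.sub_apply, hT0, hT1,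
        LinearMap.zero_apply, Pi.zero_apply]
      linear_combination (x 1 - x 0) * h2
  have hker : LinearMap.ker (T - 1) = Submodule.span F {![(1 : F), 1]} := by
    ext x
    rw [LinearMap.mem_ker, Submodule.mem_span_singleton, LinearMap.sub_apply,
      Module.End.one_apply]
    constructor
    · intro h
      have h0 := congrFun h 0
      rw [Pi.sub_apply, hT0, Pi.zero_apply] at h0
      refine ⟨x 0, umodel_two_ext ?_ ?_⟩
      · simp
      · simp
        linear_combination -h0
    · rintro ⟨c, rfl⟩
      apply umodel_two_ext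
      · rw [Pi.sub_apply, hT0]; simp
      · rw [Pi.sub_apply, hT1]; simp
  refine ⟨T, ?_, hT2, ?_⟩
  · intro u v
    rw [stdH_apply, stdH_apply, Fin.sum_univ_two, Fin.sum_univ_two]
    simp only [hT0, hT1]
    ring
  · intro k
    rw [top_inf_eq]
    have hsum : ((Multiset.replicate 1 2).map (fun a => min a k)).sum = min 2 k := by simp
    rw [hsum]
    rcases Nat.lt_or_ge k 2 with hk | hk
    · interval_cases k
      · rw [pow_zero]
        have : LinearMap.ker (1 : Module.End F (Fin 2 → F)) = ⊥ := by
          rw [LinearMap.ker_eq_bot]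
          exact fun a b h => h
        rw [this, finrank_bot]
        rfl
      · rw [pow_one, hker, finrank_span_singleton]
        · rfl
        · intro h
          have := congrFun h 0
          simp at this
    · have hz : (T - 1) ^ k = 0 := by
        obtain ⟨j, rfl⟩ : ∃ j, k = 2 + j := ⟨k - 2, by omega⟩
        rw [pow_add, hN2, zero_mul]
      rw [hz, LinearMap.ker_zero, finrank_top, Module.finrank_fin_fun, Nat.min_eq_left hk]

end std

end Cfsg.Agent.Helper57.TI5954
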