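import Mathlib
import Cfsg.Agent.Helper13.TLDefs

set_option autoImplicit false

/-! # CALL S5954 (helper13), piece UROOT: a primitive `r`-th root of unity when `r ∣ q + 1` -/

namespace Cfsg.Agent.Helper57.TI5954

open Module Polynomial
open Cfsg.Agent.Helper13.TIu Cfsg.Agent.Helper13.TIsp

section field

variable {F : Type*} [Field F] [Fintype F]

/-- UROOT: a primitive `r`-th root of unity when `r ∣ q + 1`. -/
theorem u_root_exists (q : ℕ) (hq : Fintype.card F = q ^ 2) (r : ℕ) [Fact r.Prime]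
    (hr : r ∣ q + 1) : ∃ ω : F, ω ^ r = 1 ∧ ω ≠ 1 := by
  have hcard : Nat.card Fˣ = q ^ 2 - 1 := by
    rw [Nat.card_units, Nat.card_eq_fintype_card, hq]
  have hfac : q ^ 2 - 1 = (q + 1) * (q - 1) := by
    rcases Nat.eq_zero_or_pos q with rfl | hpos
    · simp
    · obtain ⟨k, rfl⟩ : ∃ k, q = k + 1 := ⟨q - 1, by omega⟩
      have : (k + 1) ^ 2 = (k + 1 + 1) * k + 1 := by ring
      rw [this]
      simp
  have hdvd : r ∣ Nat.card Fˣ := by
    rw [hcard, hfac]
    exact Dvd.dvd.mul_right hr _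
  obtain ⟨x, hx⟩ := exists_prime_orderOf_dvd_card' r hdvd
  refine ⟨(x : F), ?_, ?_⟩
  · rw [← Units.val_pow_eq_pow_val, ← hx, pow_orderOf_eq_one, Units.val_one]
  · intro h1
    have hx1 : x = 1 := Units.ext h1
    rw [hx1, orderOf_one] at hx
    exact (Fact.out : r.Prime).one_lt.ne hx

end field

end Cfsg.Agent.Helper57.TI5954
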