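import Mathlib

set_option autoImplicit false

/-!
# Shared definitions and small tools for CALL S4274 (helper57)

* `J1oSylData` : the statement of piece P8 (numerical Sylow data of a simple group at a prime
  `p` exactly dividing its order), as a `Prop` so that consumers can take it as a hypothesis.
* `j1oOpts N p` : the list of all triples `(n, e, c)` with `N = p * n * e * c`,
  `n % p = 1`, `n ≠ 1`, `e ∣ p - 1`, `1 < e`; `j1o_mem_opts` is the membership lemma.
* `j1o_count4` : four pairwise disjoint predicates missing a point.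
* `j1o_exists_orderOf_mul` : an element whose order is divisible by two distinct primes has a
  power of order `p * q`.
-/

namespace Cfsg.Agent.Helper57

universe u

/-- Statement of piece P8 of CALL S4274: for a simple group `H` and a prime `p` exactly dividing
`|H|` with `p < |H|` there are `n = n_p`, `e = |N(P) : C(P)|`, `c = |C(P)| / p` with the listed
properties. -/
def J1oSylData : Prop :=
  ∀ (H : Type u) [Group H] [Finite H] [IsSimpleGroup H] (p : ℕ) [Fact p.Prime],
    p ∣ Nat.card H → ¬ p ^ 2 ∣ Nat.card H → p < Nat.card H →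
    ∃ n e c : ℕ, Nat.card H = p * n * e * c ∧ n % p = 1 ∧ n ≠ 1 ∧
      (∀ q : ℕ, q.Prime → q ∣ Nat.card H → q ≤ n) ∧
      e ∣ p - 1 ∧ 1 < e ∧
      (∀ q : ℕ, q.Prime → q ∣ c → p * q + 1 ≤ n) ∧
      (n = p + 1 → p % 4 = 3 → 2 ∣ e * c → False) ∧
      n * (p - 1) * c ≤ Nat.card {g : H // p ∣ orderOf g} ∧
      n * (p - 1) ≤ Nat.card {g : H // orderOf g = p} ∧
      (∀ q : ℕ, q.Prime → q ≠ p → (q ∣ c ↔ ∃ g : H, orderOf g = p * q))

/-- all `(n, e, c)` with `N = p * n * e * c`, `n % p = 1`, `n ≠ 1`, `e ∣ p - 1`, `1 < e`. -/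
def j1oOpts (N p : ℕ) : List (ℕ × ℕ × ℕ) :=
  ((List.range (N / p + 1)).filter (fun n => n ∣ N / p ∧ n % p = 1 ∧ n ≠ 1)).flatMap (fun n =>
    ((List.range p).filter (fun e => e ∣ p - 1 ∧ 1 < e ∧ e ∣ N / (p * n))).map
      (fun e => (n, e, N / (p * n * e))))

theorem j1o_mem_opts {N p n e c : ℕ} (hN : 0 < N) (h : N = p * n * e * c) (h1 : n % p = 1)
    (h2 : n ≠ 1) (h3 : e ∣ p - 1) (h4 : 1 < e) : (n, e, c) ∈ j1oOpts N p := by
  have hp : 0 < p := by
    rcases Nat.eq_zero_or_pos p with h0 | h0
    · subst h0; simp at h; omega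
    · exact h0
  have hp2 : 2 ≤ p := by
    by_contra hcon
    have hp1 : p = 1 := by omega
    subst hp1
    rw [Nat.mod_one] at h1
    exact absurd h1 (by norm_num)
  have hn : 0 < n := by
    rcases Nat.eq_zero_or_pos n with h0 | h0
    · subst h0; simp at h; omega
    · exact h0
  have he : 0 < e := by omega
  have hc : 0 < c := by
    rcases Nat.eq_zero_or_pos c with h0 | h0
    · subst h0; simp at h; omega
    · exact h0
  have hNp : N / p = n * e * c := by
    rw [h, mul_assoc p n e, mul_assoc p (n * e) c, Nat.mul_div_cancel_left _ hp]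
  have hNpn : N / (p * n) = e * c := by
    rw [h, mul_assoc (p * n) e c, Nat.mul_div_cancel_left _ (Nat.mul_pos hp hn)]
  have hNpne : N / (p * n * e) = c := by
    rw [h, Nat.mul_div_cancel_left _ (Nat.mul_pos (Nat.mul_pos hp hn) he)]
  unfold j1oOpts
  rw [List.mem_flatMap]
  refine ⟨n, ?_, ?_⟩
  · rw [List.mem_filter]
    refine ⟨?_, ?_⟩
    · rw [List.mem_range, hNp]
      have : n * 1 ≤ n * (e * c) := Nat.mul_le_mul_left n (Nat.mul_pos he hc)
      rw [← mul_assoc] at this
      omega
    · simp only [decide_eq_true_eq]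
      exact ⟨hNp ▸ ⟨e * c, by ring⟩, h1, h2⟩
  · rw [List.mem_map]
    refine ⟨e, ?_, ?_⟩
    · rw [List.mem_filter]
      refine ⟨?_, ?_⟩
      · rw [List.mem_range]
        have hle := Nat.le_of_dvd (by omega) h3
        omega
      · simp only [decide_eq_true_eq]
        exact ⟨h3, h4, hNpn ▸ ⟨c, rfl⟩⟩
    · rw [hNpne]

/-- four pairwise disjoint predicates, all failing at `a`. -/
theorem j1o_count4 {α : Type*} [Finite α] (A B C D : α → Prop) (a : α)
    (hA : ¬ A a) (hB : ¬ B a) (hC : ¬ C a) (hD : ¬ D a)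
    (hAB : ∀ g, A g → B g → False) (hAC : ∀ g, A g → C g → False)
    (hAD : ∀ g, A g → D g → False) (hBC : ∀ g, B g → C g → False)
    (hBD : ∀ g, B g → D g → False) (hCD : ∀ g, C g → D g → False) :
    Nat.card {g // A g} + Nat.card {g // B g} + Nat.card {g // C g} + Nat.card {g // D g} + 1
      ≤ Nat.card α := by
  classical
  have : Fintype α := Fintype.ofFinite α
  simp only [Nat.card_eq_fintype_card, Fintype.card_subtype]
  have hdis1 : Disjoint (Finset.univ.filter A) (Finset.univ.filter B) := by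
    rw [Finset.disjoint_filter]; intro g _ h1 h2; exact hAB g h1 h2
  have hdis2 : Disjoint (Finset.univ.filter A ∪ Finset.univ.filter B) (Finset.univ.filter C) := by
    rw [Finset.disjoint_union_left, Finset.disjoint_filter, Finset.disjoint_filter]
    exact ⟨fun g _ h1 h2 => hAC g h1 h2, fun g _ h1 h2 => hBC g h1 h2⟩
  have hdis3 : Disjoint (Finset.univ.filter A ∪ Finset.univ.filter B ∪ Finset.univ.filter C)
      (Finset.univ.filter D) := by
    rw [Finset.disjoint_union_left, Finset.disjoint_union_left, Finset.disjoint_filter,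
      Finset.disjoint_filter, Finset.disjoint_filter]
    exact ⟨⟨fun g _ h1 h2 => hAD g h1 h2, fun g _ h1 h2 => hBD g h1 h2⟩,
      fun g _ h1 h2 => hCD g h1 h2⟩
  have hdis4 : Disjoint (Finset.univ.filter A ∪ Finset.univ.filter B ∪ Finset.univ.filter C ∪
      Finset.univ.filter D) {a} := by
    rw [Finset.disjoint_singleton_right]
    simp only [Finset.mem_union, Finset.mem_filter, Finset.mem_univ, true_and]
    tauto
  rw [← Finset.card_union_of_disjoint hdis1, ← Finset.card_union_of_disjoint hdis2,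
    ← Finset.card_union_of_disjoint hdis3, ← Finset.card_singleton a,
    ← Finset.card_union_of_disjoint hdis4]
  exact Finset.card_le_univ _

/-- an element whose order is divisible by the distinct primes `p`, `q` has a power of order
`p * q`. -/
theorem j1o_exists_orderOf_mul {G : Type*} [Group G] [Finite G] {p q : ℕ} (hp : p.Prime)
    (hq : q.Prime) (hpq : p ≠ q) (g : G) (h1 : p ∣ orderOf g) (h2 : q ∣ orderOf g) :
    ∃ g' : G, orderOf g' = p * q := by
  have hdvd : p * q ∣ orderOf g :=
    Nat.Coprime.mul_dvd_of_dvd_of_dvd ((Nat.coprime_primes hp hq).mpr hpq) h1 h2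
  refine ⟨g ^ (orderOf g / (p * q)), ?_⟩
  exact orderOf_pow_orderOf_div (orderOf_pos g).ne' hdvd

end Cfsg.Agent.Helper57
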