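import Mathlib
import Cfsg.Prelude.Def_GeometricClasses
import Cfsg.Prelude.Def_Classical
import Cfsg.Agent.Helper13.NPDefs
import Cfsg.Agent.Helper96.OHDefs
import Cfsg.Agent.Helper31.NPSUBATOM
import Cfsg.Agent.Helper33.NPEMB2
import Cfsg.Agent.Helper84.NPISOND
import Cfsg.Agent.Helper31.OHOFIX
import Cfsg.Agent.Helper26.OHOCDVD

set_option autoImplicit false

/-!
# CALL NP (S5989, helper13), piece GOODCORE (helper57, double)
-/

namespace Cfsg.Agent.Helper57.NP5989

open Module Cfsg Cfsg.Geo Cfsg.Agent.Helper13.NP Cfsg.Agent.Helper96.OH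
open scoped MatrixGroups

universe u

section C

variable {ι : Type} [Fintype ι] [DecidableEq ι] {F : Type*} [Field F] [Fintype F]
  (Q : (ι → F) → F)

/-- GOODCORE -/
theorem np_good_core (hQ : IsNondegenerateQuadraticForm Q) (h2 : (2 : F) ≠ 0)
    (T : Module.End F (ι → F)) (hT : OPres Q T) (r : ℕ) [Fact r.Prime] (hr2 : 2 < r)
    (hrF : (r : F) ≠ 0) (hTr : T ^ r = 1) (i c : ℕ)
    (hi : i = orderOf ((Fintype.card F : ℕ) : ZMod r)) (hc : c = if Even i then i else 2 * i)
    (W₀ : Submodule F (ι → F)) (hW₀ : ONd Q W₀) (m : ℕ) (hm : finrank F W₀ = m) (hmo : Odd m)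
    (hmn : m + 1 ≤ Fintype.card ι)
    (hC : m % c < finrank F (LinearMap.ker (T - 1)) ∨
      Fintype.card ι - finrank F (LinearMap.ker (T - 1)) ≤ c * (m / c)) :
    ∃ W : Submodule F (ι → F), NPX Q W₀ m W ∧ W.map T ≤ W := by
  have hr : r.Prime := Fact.out
  have hceven : Even c := by
    rw [hc]
    split_ifs with h
    · exact h
    · exact even_two_mul i
  obtain ⟨hCnd, P, -, hPT, hPnd, hPk, hsup, horth, hdim⟩ :=
    Cfsg.Agent.Helper31.OH5992.o_fix Q hQ T hT r hr.pos hrF hTr ⊤ le_top (ond_top Q hQ)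
  have hcd := Cfsg.Agent.Helper26.OH5992.o_cdvd Q hQ h2 T hT r hr2 hrF hTr i c hi hc ⊤ le_top
    (ond_top Q hQ)
  rw [top_inf_eq] at hCnd hsup horth hdim hcd
  rw [finrank_top, Module.finrank_fintype_fun_eq_card] at hdim hcd
  -- the invariant nondegenerate part `U ≤ P`
  have hmdiv : c * (m / c) + m % c = m := Nat.div_add_mod m c
  have hne : c * (m / c) ≠ m := by
    intro h
    have h1 : Even m := by
      rw [← h]
      exact hceven.mul_right _
    exact (Nat.not_even_iff_odd.mpr hmo) h1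
  obtain ⟨U, hUP, hUT, hUnd, hUlt, hUdim⟩ : ∃ U : Submodule F (ι → F), U ≤ P ∧ U.map T ≤ U ∧
      ONd Q U ∧ finrank F U < m ∧ m - finrank F U + 1 ≤ finrank F (LinearMap.ker (T - 1)) := by
    by_cases hcase : finrank F P ≤ c * (m / c)
    · refine ⟨P, le_rfl, hPT, hPnd, ?_, ?_⟩
      · obtain ⟨a, ha⟩ := hcd
        have h1 : finrank F P = c * a := by omega
        have h2' : c * a ≠ m := by
          intro h
          have h3 : Even m := by
            rw [← h]
            exact hceven.mul_right _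
          exact (Nat.not_even_iff_odd.mpr hmo) h3
        omega
      · omega
    · have hleft : m % c < finrank F (LinearMap.ker (T - 1)) := by
        rcases hC with h | h
        · exact h
        · omega
      obtain ⟨E, hEP, hET, hEnd, hEdim⟩ := Cfsg.Agent.Helper31.NP5989.np_sub_atom Q hQ h2 T hT r
        hr2 hrF hTr i c hi hc P hPT hPnd hPk (m / c) (by omega)
      exact ⟨E, hEP, hET, hEnd, by omega, by omega⟩
  have horthU : OOrth Q U (LinearMap.ker (T - 1)) := by
    apply oorth_symm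
    intro u hu v hv
    exact horth u hu v (hUP hv)
  obtain ⟨W', hW'K, hiso⟩ := Cfsg.Agent.Helper33.NP5989.np_emb_two Q hQ h2 U
    (LinearMap.ker (T - 1)) W₀ hUnd hCnd hW₀ horthU (by rw [hm]; exact hUlt)
    (by rw [hm]; exact hUdim)
  obtain ⟨hWnd, hWdim⟩ := Cfsg.Agent.Helper84.NP5989.np_iso_nd Q (U ⊔ W') W₀ hiso hW₀
  refine ⟨U ⊔ W', ⟨by rw [hWdim, hm], hWnd, hiso⟩, ?_⟩
  rw [Submodule.map_sup]
  apply sup_le_sup hUT
  rintro _ ⟨w, hw, rfl⟩
  have h1 : T w = w := by
    have h3 := hW'K hw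
    rw [LinearMap.mem_ker, LinearMap.sub_apply, sub_eq_zero] at h3
    exact h3
  rw [h1]
  exact hw

end C

end Cfsg.Agent.Helper57.NP5989
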