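import Mathlib
import Cfsg.Agent.Helper44.UCDefs

set_option autoImplicit false
set_option linter.unusedVariables false

/-!
# CALL S2646 (helper44), piece BLKA: the `PP`-part in terms of the diagonal blocks
-/

namespace Cfsg.Agent.Helper57.UCBLKA

open Matrix Cfsg.Agent.Helper21.JCent Cfsg.Agent.Helper44.UC

/-- the symmetry of the `PP`-part read on the diagonal blocks -/
theorem blk_sym_iff {K : Type*} [Field K] {q : ℕ} {t : ℕ} (d : Fin t → ℕ) (hd : ∀ k, 1 ≤ d k)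
    (u : {a // PP d a} → K) :
    (∀ a : {a // PP d a}, u a = (-1) ^ sOf d a.1 * (u ⟨theta d a.1, theta_PP d a.1 a.2⟩) ^ q) ↔
      ∀ i : Fin (Finset.univ.sup d + 1),
        blk d hd u i = (-1 : K) ^ ((i : ℕ) - 1) • hT q (blk d hd u i) := by
  have key : ∀ a b : {a // PP d a}, a.1 = b.1 → u a = u b := fun a b h => by
    rw [Subtype.ext h]
  -- the basic computation at a position `((l, 0), k)` with `d l = d k`
  have hth : ∀ (l k : Fin t) (hlk : d l = d k),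
      theta d ((⟨l, ⟨0, hd l⟩⟩ : (k : Fin t) × Fin (d k)), k)
        = ((⟨k, ⟨0, hd k⟩⟩ : (k : Fin t) × Fin (d k)), l) := by
    intro l k hlk
    have hadm : d ((⟨l, ⟨0, hd l⟩⟩ : (k : Fin t) × Fin (d k)), k).1.1
        ≤ ((((⟨l, ⟨0, hd l⟩⟩ : (k : Fin t) × Fin (d k)), k).1.2 : Fin (d l)) : ℕ)
          + d ((⟨l, ⟨0, hd l⟩⟩ : (k : Fin t) × Fin (d k)), k).2 := by
      show d l ≤ 0 + d k
      omega
    rw [theta_eq d _ hadm]
    refine Prod.ext (Sigma.ext rfl (heq_of_eq (Fin.ext ?_))) rfl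
    show 0 + d k - d l = 0
    omega
  have hs : ∀ (l k : Fin t), sOf d ((⟨l, ⟨0, hd l⟩⟩ : (k : Fin t) × Fin (d k)), k) = d l - 1 := by
    intro l k
    show d l - 1 - 0 = d l - 1
    omega
  constructor
  · intro h i
    ext ⟨l, hl⟩ ⟨k, hk⟩
    subst hl
    have hlk : d l = d k := (congrArg Fin.val hk).symm
    have h1 := h ⟨((⟨l, ⟨0, hd l⟩⟩ : (k : Fin t) × Fin (d k)), k), ⟨rfl, hlk⟩⟩
    rw [Matrix.smul_apply, hT_apply, smul_eq_mul]
    show u ⟨((⟨l, ⟨0, hd l⟩⟩ : (k : Fin t) × Fin (d k)), k), _⟩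
      = (-1 : K) ^ (d l - 1) * (u ⟨((⟨k, ⟨0, hd k⟩⟩ : (k : Fin t) × Fin (d k)), l), _⟩) ^ q
    rw [h1, hs l k]
    congr 2
    exact key _ _ (hth l k hlk)
  · intro h a
    obtain ⟨⟨⟨l, ⟨s, hs'⟩⟩, k⟩, hs0, hlk⟩ := a
    have hs0' : s = 0 := hs0
    subst hs0'
    have hlk' : d l = d k := hlk
    have h1 := congrFun (congrFun (h (dd d l)) ⟨l, rfl⟩) ⟨k, Fin.ext hlk'.symm⟩
    rw [Matrix.smul_apply, hT_apply, smul_eq_mul] at h1
    have h2 : u ⟨((⟨l, ⟨0, hs'⟩⟩ : (k : Fin t) × Fin (d k)), k), ⟨hs0, hlk⟩⟩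
        = (-1 : K) ^ (d l - 1) * (u ⟨((⟨k, ⟨0, hd k⟩⟩ : (k : Fin t) × Fin (d k)), l),
            ⟨rfl, hlk'.symm⟩⟩) ^ q := h1
    rw [h2]
    have e1 : sOf d ((⟨l, ⟨0, hs'⟩⟩ : (k : Fin t) × Fin (d k)), k) = d l - 1 := hs l k
    rw [e1]
    congr 2
    exact key _ _ (hth l k hlk').symm

/-- BLKA: the `PP`-part in terms of the diagonal blocks. -/
theorem uc_blka {K : Type*} [Field K] [Fintype K] {q : ℕ} (hK : Fintype.card K = q ^ 2)
    {t : ℕ} (d : Fin t → ℕ) (hd : ∀ k, 1 ≤ d k) :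
    Nat.card {u : {a // PP d a} → K // Good d hd u ∧
        ∀ a : {a // PP d a}, u a = (-1) ^ sOf d a.1 * (u ⟨theta d a.1, theta_PP d a.1 a.2⟩) ^ q}
      = ∏ i : Fin (Finset.univ.sup d + 1),
          Nat.card {M : Matrix {x : Fin t // dd d x = i} {x : Fin t // dd d x = i} K //
            IsUnit M.det ∧ M = (-1 : K) ^ ((i : ℕ) - 1) • hT q M} := by
  classical
  let e1 : {u : {a // PP d a} → K // Good d hd u ∧
        ∀ a : {a // PP d a}, u a = (-1) ^ sOf d a.1 * (u ⟨theta d a.1, theta_PP d a.1 a.2⟩) ^ q}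
      ≃ {U : {u : {a // PP d a} → K // Good d hd u} //
        ∀ a : {a // PP d a}, U.1 a = (-1) ^ sOf d a.1 *
          (U.1 ⟨theta d a.1, theta_PP d a.1 a.2⟩) ^ q} :=
    { toFun := fun u => ⟨⟨u.1, u.2.1⟩, u.2.2⟩
      invFun := fun U => ⟨U.1.1, U.1.2, U.2⟩
      left_inv := fun _ => rfl
      right_inv := fun _ => rfl }
  let e2 : {U : {u : {a // PP d a} → K // Good d hd u} //
        ∀ a : {a // PP d a}, U.1 a = (-1) ^ sOf d a.1 *
          (U.1 ⟨theta d a.1, theta_PP d a.1 a.2⟩) ^ q}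
      ≃ {B : ∀ i : Fin (Finset.univ.sup d + 1),
          {M : Matrix {x : Fin t // dd d x = i} {x : Fin t // dd d x = i} K // IsUnit M.det} //
        ∀ i, (B i).1 = (-1 : K) ^ ((i : ℕ) - 1) • hT q (B i).1} :=
    (equivBlk d hd).subtypeEquiv (fun U => blk_sym_iff d hd U.1)
  let e3 : {B : ∀ i : Fin (Finset.univ.sup d + 1),
          {M : Matrix {x : Fin t // dd d x = i} {x : Fin t // dd d x = i} K // IsUnit M.det} //
        ∀ i, (B i).1 = (-1 : K) ^ ((i : ℕ) - 1) • hT q (B i).1}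
      ≃ ∀ i : Fin (Finset.univ.sup d + 1),
          {M : Matrix {x : Fin t // dd d x = i} {x : Fin t // dd d x = i} K //
            IsUnit M.det ∧ M = (-1 : K) ^ ((i : ℕ) - 1) • hT q M} :=
    { toFun := fun B i => ⟨(B.1 i).1, (B.1 i).2, B.2 i⟩
      invFun := fun C => ⟨fun i => ⟨(C i).1, (C i).2.1⟩, fun i => (C i).2.2⟩
      left_inv := fun _ => rfl
      right_inv := fun _ => rfl }
  rw [Nat.card_congr (e1.trans (e2.trans e3)), Nat.card_pi]

end Cfsg.Agent.Helper57.UCBLKA
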