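import Mathlib
import Cfsg.Agent.Helper44.UCDefs

set_option autoImplicit false

/-!
# CALL S2646 (helper44), piece BLKB: invertible `±`-hermitian matrices
-/

namespace Cfsg.Agent.Helper57.UCBLKB

open Matrix Cfsg.Agent.Helper21.JCent Cfsg.Agent.Helper44.UC

/-- BLKB: invertible `±`-hermitian matrices. -/
theorem uc_blkb {K : Type*} [Field K] [Fintype K] {q : ℕ} (hK : Fintype.card K = q ^ 2)
    {β : Type*} [Fintype β] [DecidableEq β] (e : ℕ) :
    Nat.card {M : Matrix β β K // IsUnit M.det ∧ M = (-1 : K) ^ e • hT q M}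
      = hermCount K q (Fintype.card β) := by
  classical
  -- a scalar `c ≠ 0` with `c ^ q = (-1)^e * c`
  obtain ⟨c, hc0, hcq⟩ : ∃ c : K, c ≠ 0 ∧ c ^ q = (-1 : K) ^ e * c := by
    rcases Nat.even_or_odd e with he | he
    · exact ⟨1, one_ne_zero, by rw [he.neg_one_pow, one_pow, one_mul]⟩
    · obtain ⟨ε, hε0, hε⟩ := Cfsg.Agent.Helper43.NormH90.exists_eps hK
      exact ⟨ε, hε0, by rw [he.neg_one_pow, hε]; ring⟩
  let eq : β ≃ Fin (Fintype.card β) := Fintype.equivFin β
  let Φ : Matrix β β K ≃ Matrix (Fin (Fintype.card β)) (Fin (Fintype.card β)) K :=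
    { toFun := fun M => c • Matrix.reindex eq eq M
      invFun := fun H => c⁻¹ • Matrix.reindex eq.symm eq.symm H
      left_inv := by
        intro M
        ext i j
        simp [Matrix.reindex_apply, Matrix.submatrix_apply, hc0]
      right_inv := by
        intro H
        ext i j
        simp [Matrix.reindex_apply, Matrix.submatrix_apply, hc0] }
  unfold hermCount
  refine Nat.card_congr (Φ.subtypeEquiv ?_)
  intro M
  have hΦ : Φ M = c • Matrix.reindex eq eq M := rfl
  have hdet : (Φ M).det = c ^ Fintype.card (Fin (Fintype.card β)) * M.det := by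
    rw [hΦ, Matrix.det_smul, Matrix.det_reindex_self]
  have hhT : hT q (Φ M) = c • Matrix.reindex eq eq ((-1 : K) ^ e • hT q M) := by
    rw [hΦ, hT_smul hK, hT_reindex hK, hcq]
    ext i j
    simp only [Matrix.reindex_apply, Matrix.submatrix_apply, Matrix.smul_apply, smul_eq_mul]
    ring
  constructor
  · rintro ⟨hu, hM⟩
    refine ⟨?_, ?_⟩
    · rw [hdet]
      exact (isUnit_iff_ne_zero.mpr (pow_ne_zero _ hc0)).mul hu
    · rw [hhT, ← hM, hΦ]
  · rintro ⟨hu, hH⟩
    refine ⟨?_, ?_⟩
    · rw [hdet] at hu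
      rw [isUnit_iff_ne_zero] at hu ⊢
      exact right_ne_zero_of_mul hu
    · rw [hhT, hΦ] at hH
      have h1 := smul_right_injective _ hc0 hH
      exact ((Matrix.reindex eq eq).injective h1).symm

end Cfsg.Agent.Helper57.UCBLKB
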