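import Mathlib
import Cfsg.Agent.Helper44.UCDefs

set_option autoImplicit false
set_option linter.unusedVariables false

/-!
# CALL S2646 (helper44), piece SPLIT: the symmetric parameter families split into the `PP`-part
and the `RR`-part
-/

namespace Cfsg.Agent.Helper57.UCSPLIT

open Matrix Cfsg.Agent.Helper21.JCent Cfsg.Agent.Helper44.UC

/-- restriction to two disjoint predicates (functions vanishing outside both) -/
def splitEquiv {α : Type*} {F : Type*} [Zero F] (P R : α → Prop) [DecidablePred P]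
    [DecidablePred R] (hPR : ∀ a, P a → ¬ R a) :
    {c : α → F // ∀ a, ¬ P a → ¬ R a → c a = 0} ≃ ({a // P a} → F) × ({a // R a} → F) where
  toFun c := (fun a => c.1 a.1, fun a => c.1 a.1)
  invFun x := ⟨fun a => if h : P a then x.1 ⟨a, h⟩ else if h' : R a then x.2 ⟨a, h'⟩ else 0,
    fun a h1 h2 => by simp [h1, h2]⟩
  left_inv := by
    rintro ⟨c, hc⟩
    apply Subtype.ext
    funext a
    by_cases h : P a
    · simp [h]
    · by_cases h' : R a
      · simp [h, h']
      · simp [h, h', hc a h h']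
  right_inv := by
    rintro ⟨u, r⟩
    apply Prod.ext
    · funext a
      simp [a.2]
    · funext a
      have hnP : ¬ P a.1 := fun h => hPR a.1 h a.2
      simp [a.2, hnP]

/-- SPLIT: the symmetric parameter families split into the `PP`-part and the `RR`-part. -/
theorem uc_split {K : Type*} [Field K] [Fintype K] {q : ℕ} (hK : Fintype.card K = q ^ 2)
    {t : ℕ} (d : Fin t → ℕ) (hd : ∀ k, 1 ≤ d k) :
    Nat.card {c : ((k : Fin t) × Fin (d k)) × Fin t → K //
        (∀ a, ¬ PP d a → ¬ RR d a → c a = 0) ∧ Good d hd (fun a => c a.1) ∧ SymC q d c}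
      = Nat.card {u : {a // PP d a} → K // Good d hd u ∧
          ∀ a : {a // PP d a}, u a = (-1) ^ sOf d a.1 * (u ⟨theta d a.1, theta_PP d a.1 a.2⟩) ^ q}
        * Nat.card {r : {a // RR d a} → K //
          ∀ a : {a // RR d a}, r a = (-1) ^ sOf d a.1 * (r ⟨theta d a.1, theta_RR d a.1 a.2⟩) ^ q} := by
  classical
  have hPR : ∀ a, PP d a → ¬ RR d a := fun a h h' => h'.2 h
  let e1 : {c : ((k : Fin t) × Fin (d k)) × Fin t → K //
        (∀ a, ¬ PP d a → ¬ RR d a → c a = 0) ∧ Good d hd (fun a => c a.1) ∧ SymC q d c}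
      ≃ {C : {c : ((k : Fin t) × Fin (d k)) × Fin t → K // ∀ a, ¬ PP d a → ¬ RR d a → c a = 0} //
          Good d hd (fun a => C.1 a.1) ∧ SymC q d C.1} :=
    { toFun := fun c => ⟨⟨c.1, c.2.1⟩, c.2.2⟩
      invFun := fun C => ⟨C.1.1, C.1.2, C.2⟩
      left_inv := fun _ => rfl
      right_inv := fun _ => rfl }
  let e2 : {C : {c : ((k : Fin t) × Fin (d k)) × Fin t → K // ∀ a, ¬ PP d a → ¬ RR d a → c a = 0} //
          Good d hd (fun a => C.1 a.1) ∧ SymC q d C.1}
      ≃ {x : ({a // PP d a} → K) × ({a // RR d a} → K) //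
          (Good d hd x.1 ∧ ∀ a : {a // PP d a}, x.1 a = (-1) ^ sOf d a.1 *
            (x.1 ⟨theta d a.1, theta_PP d a.1 a.2⟩) ^ q) ∧
          ∀ a : {a // RR d a}, x.2 a = (-1) ^ sOf d a.1 *
            (x.2 ⟨theta d a.1, theta_RR d a.1 a.2⟩) ^ q} :=
    (splitEquiv (F := K) (PP d) (RR d) hPR).subtypeEquiv (fun C => by
      show (Good d hd (fun a => C.1 a.1) ∧ SymC q d C.1) ↔
        ((Good d hd (fun a : {a // PP d a} => C.1 a.1) ∧ ∀ a : {a // PP d a},
            C.1 a.1 = (-1) ^ sOf d a.1 * (C.1 (theta d a.1)) ^ q) ∧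
          ∀ a : {a // RR d a}, C.1 a.1 = (-1) ^ sOf d a.1 * (C.1 (theta d a.1)) ^ q)
      constructor
      · rintro ⟨hG, hS⟩
        refine ⟨⟨hG, fun a => hS a.1 ?_⟩, fun a => hS a.1 a.2.1⟩
        have := a.2.2
        omega
      · rintro ⟨⟨hG, hP⟩, hR⟩
        refine ⟨hG, fun a hadm => ?_⟩
        by_cases h : PP d a
        · exact hP ⟨a, h⟩
        · exact hR ⟨a, ⟨hadm, h⟩⟩)
  let e3 : {x : ({a // PP d a} → K) × ({a // RR d a} → K) //
          (Good d hd x.1 ∧ ∀ a : {a // PP d a}, x.1 a = (-1) ^ sOf d a.1 *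
            (x.1 ⟨theta d a.1, theta_PP d a.1 a.2⟩) ^ q) ∧
          ∀ a : {a // RR d a}, x.2 a = (-1) ^ sOf d a.1 *
            (x.2 ⟨theta d a.1, theta_RR d a.1 a.2⟩) ^ q}
      ≃ {u : {a // PP d a} → K // Good d hd u ∧
          ∀ a : {a // PP d a}, u a = (-1) ^ sOf d a.1 * (u ⟨theta d a.1, theta_PP d a.1 a.2⟩) ^ q}
        × {r : {a // RR d a} → K //
          ∀ a : {a // RR d a}, r a = (-1) ^ sOf d a.1 * (r ⟨theta d a.1, theta_RR d a.1 a.2⟩) ^ q} :=
    { toFun := fun x => (⟨x.1.1, x.2.1⟩, ⟨x.1.2, x.2.2⟩)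
      invFun := fun y => ⟨(y.1.1, y.2.1), y.1.2, y.2.2⟩
      left_inv := fun _ => rfl
      right_inv := fun _ => rfl }
  rw [Nat.card_congr (e1.trans (e2.trans e3)), Nat.card_prod]

end Cfsg.Agent.Helper57.UCSPLIT
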