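import Cfsg.Agent.Helper57.A5Emb

/-!
# The subgroups `A₅` of `PSL(2, 11)` up to conjugacy (seat helper57)

* `IsCopy L X`: the subgroup `X` of `PSL(2, 11)` is described by the list `L`;
* `exists_copies`: the two copies `H`, `K` (of order 60, isomorphic to `A₅`);
* `conj_involution`, `conj_order3`: the conjugation certificates of `Psl211c`, at the level of the group;
* `tv_conj_ne`: a transvection does not conjugate one copy into another;
* `exists_tv_mul`: a subgroup of order 60 of `PSL(2, 11)` has the transvections as coset representatives;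
* `a5_class`: every subgroup of `PSL(2, 11)` isomorphic to `A₅` is conjugate to one of the two copies.
-/

set_option autoImplicit false

namespace Cfsg.Agent.Helper57

open Cfsg.Agent.S2542 Matrix
open scoped Pointwise

/-- The subgroup `X` of `PSL(2, 11)` consists of the images of the matrices of the list `L`. -/
def IsCopy (L : List C211) (X : Subgroup P11) : Prop :=
  (∀ m : S11, (QuotientGroup.mk m : P11) ∈ X → ∃ x ∈ L, Q2.toMat x.2 = m.1) ∧
    (∀ x ∈ L, ∃ m : S11, m.1 = Q2.toMat x.2 ∧ (QuotientGroup.mk m : P11) ∈ X)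

theorem IsCopy.mem_of_inL {L : List C211} {X : Subgroup P11} (h : IsCopy L X) (m : S11)
    (hm : inL L (qOf m) = true) : (QuotientGroup.mk m : P11) ∈ X := by
  simp only [inL, List.any_eq_true, decide_eq_true_eq] at hm
  obtain ⟨x, hx, hxm⟩ := hm
  obtain ⟨m', hm', hmem⟩ := h.2 x hx
  have : m' = m := Subtype.ext (by rw [hm', hxm, toMat_qOf])
  rwa [← this]

theorem IsCopy.inL_of_mem {L : List C211} {X : Subgroup P11} (h : IsCopy L X) (m : S11)
    (hm : (QuotientGroup.mk m : P11) ∈ X) : inL L (qOf m) = true := by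
  simp only [inL, List.any_eq_true, decide_eq_true_eq]
  obtain ⟨x, hx, hxm⟩ := h.1 m hm
  exact ⟨x, hx, Q2.toMat_injective (by rw [hxm, toMat_qOf])⟩

/-- the second generator of the second copy -/
def gb' : S11 := slQ g211B'.2 (by decide)

theorem exists_copies : ∃ H K : Subgroup P11, Nonempty (H ≃* A5) ∧ Nonempty (K ≃* A5) ∧
    IsCopy g211L H ∧ IsCopy g211K K := by
  obtain ⟨φ, hφ, h1, h2⟩ := a5emb g211L g211A g211B g211Ai g211Bi ga gb rfl rfl rfl rfl (by decide)
    g211L_one g211L_mulA g211L_mulB g211L_fst_one g211Ai_mul g211Bi_mul g211L_bfs g211L_neg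
  obtain ⟨φ', hφ', h1', h2'⟩ := a5emb g211K g211A g211B' g211Ai g211Bi' ga gb' rfl rfl rfl rfl
    (by decide) g211K_one g211K_mulA g211K_mulB g211K_fst_one g211Ai_mul g211Bi'_mul g211K_bfs
    g211K_neg
  exact ⟨φ.range, φ'.range, ⟨(MonoidHom.ofInjective hφ).symm⟩, ⟨(MonoidHom.ofInjective hφ').symm⟩,
    ⟨h1, h2⟩, ⟨h1', h2'⟩⟩

theorem mem_conj_smul {G : Type*} [Group G] (g x : G) (H : Subgroup G) :
    x ∈ MulAut.conj g • H ↔ g⁻¹ * x * g ∈ H := by
  rw [Subgroup.mem_pointwise_smul_iff_inv_smul_mem, MulAut.smul_def, MulAut.conj_inv_apply]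

theorem card_of_equiv_A5 (L : Subgroup P11) (h : Nonempty (L ≃* A5)) : Nat.card L = 60 := by
  obtain ⟨ψ⟩ := h
  rw [Nat.card_congr ψ.toEquiv, card_A5]

theorem qOf_mul (m n : S11) : qOf (m * n) = Q2.mul (qOf m) (qOf n) := by
  apply Q2.toMat_injective
  rw [Q2.toMat_mul, toMat_qOf, toMat_qOf, toMat_qOf]
  rfl

theorem qOf_ga : qOf ga = g211A.2 := by
  apply Q2.toMat_injective
  rw [toMat_qOf]
  rfl

theorem qOf_slQ (q : Q2 (ZMod 11)) (h : Q2.det q = 1) : qOf (slQ q h) = q := by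
  apply Q2.toMat_injective
  rw [toMat_qOf]
  rfl

theorem qOf_inv_slQ (q : Q2 (ZMod 11)) (h : Q2.det q = 1) : qOf (slQ q h)⁻¹ = Q2.adj q := by
  apply Q2.toMat_injective
  rw [toMat_qOf, slQ_inv_val]

theorem qOf_ne_one {m : S11} (h : (QuotientGroup.mk m : P11) ≠ 1) :
    qOf m ≠ Q2.one ∧ qOf m ≠ ⟨10, 0, 0, 10⟩ := by
  constructor
  · intro h1
    apply h
    rw [mk_eq_one_iff]
    left
    rw [← toMat_qOf, h1, Q2.toMat_one]
  · intro h1
    apply h
    rw [mk_eq_one_iff]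
    right
    rw [← toMat_qOf, h1, toMat_negone]

/-- Every involution of `PSL(2, 11)` is conjugate to the image of `a`. -/
theorem conj_involution (x : P11) (hx2 : x ^ 2 = 1) (hx1 : x ≠ 1) :
    ∃ γ : P11, γ * x * γ⁻¹ = QuotientGroup.mk ga := by
  obtain ⟨m, rfl⟩ := QuotientGroup.mk_surjective x
  have h2 := (mk_pow_eq_one_iff m 2).1 hx2
  have hpow : Q2.pow (qOf m) 2 = Q2.mul (qOf m) (qOf m) := by
    apply Q2.toMat_injective
    rw [Q2.toMat_pow, Q2.toMat_mul, pow_two]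
  rw [hpow] at h2
  obtain ⟨hne1, hne2⟩ := qOf_ne_one hx1
  obtain ⟨g, hg, hdet, hconj'⟩ := g211S_spec _ _ _ _ (det_qOf m) h2 hne1 hne2
  have hconj : Q2.mul g (qOf m) = Q2.mul g211A.2 g ∨
      Q2.mul g (qOf m) = Q2.mul (Q2.neg g211A.2) g := hconj'
  refine ⟨QuotientGroup.mk (slQ g hdet), ?_⟩
  have key : (QuotientGroup.mk (slQ g hdet * m) : P11) = QuotientGroup.mk (ga * slQ g hdet) := by
    rw [mk_eq_mk_iff]
    rcases hconj with h | h
    · left
      rw [← toMat_qOf, ← toMat_qOf (ga * slQ g hdet), qOf_mul, qOf_mul, qOf_slQ, qOf_ga]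
      exact congrArg Q2.toMat h
    · right
      rw [← toMat_qOf, ← toMat_qOf (ga * slQ g hdet), qOf_mul, qOf_mul, qOf_slQ, qOf_ga]
      have h' := congrArg Q2.toMat h
      rw [h', Q2.toMat_mul, Q2.toMat_mul, Q2.toMat_neg, Matrix.neg_mul]
  rw [← QuotientGroup.mk_mul, key, QuotientGroup.mk_mul, mul_inv_cancel_right]

/-- Every `y` of order 3 with `a · y` of order 5 is conjugate, together with `a`, into one of the two
copies. -/
theorem conj_order3 (H K : Subgroup P11) (hH : IsCopy g211L H) (hK : IsCopy g211K K) (y : P11)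
    (hy3 : y ^ 3 = 1) (hy1 : y ≠ 1) (hxy : ((QuotientGroup.mk ga : P11) * y) ^ 5 = 1) :
    ∃ γ : P11, (γ * QuotientGroup.mk ga * γ⁻¹ ∈ H ∧ γ * y * γ⁻¹ ∈ H) ∨
      (γ * QuotientGroup.mk ga * γ⁻¹ ∈ K ∧ γ * y * γ⁻¹ ∈ K) := by
  obtain ⟨n, rfl⟩ := QuotientGroup.mk_surjective y
  have h3 := (mk_pow_eq_one_iff n 3).1 hy3
  obtain ⟨hne1, hne2⟩ := qOf_ne_one hy1
  have h5 := (mk_pow_eq_one_iff (ga * n) 5).1 (by rw [QuotientGroup.mk_mul]; exact hxy)
  rw [qOf_mul, qOf_ga] at h5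
  obtain ⟨p, hp, hp1, hdet, hmem⟩ := g211Y_spec _ _ _ _ (det_qOf n) h3 hne1 hne2 h5
  refine ⟨QuotientGroup.mk (slQ p.2 hdet), ?_⟩
  have e1 : (QuotientGroup.mk (slQ p.2 hdet) : P11) * QuotientGroup.mk ga *
      (QuotientGroup.mk (slQ p.2 hdet))⁻¹ = QuotientGroup.mk (slQ p.2 hdet * ga * (slQ p.2 hdet)⁻¹) :=
    rfl
  have e2 : (QuotientGroup.mk (slQ p.2 hdet) : P11) * QuotientGroup.mk n *
      (QuotientGroup.mk (slQ p.2 hdet))⁻¹ = QuotientGroup.mk (slQ p.2 hdet * n * (slQ p.2 hdet)⁻¹) :=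
    rfl
  have q1 : qOf (slQ p.2 hdet * ga * (slQ p.2 hdet)⁻¹) = Q2.conj p.2 g211A.2 := by
    rw [qOf_mul, qOf_mul, qOf_slQ, qOf_inv_slQ, qOf_ga]
    rfl
  have q2 : qOf (slQ p.2 hdet * n * (slQ p.2 hdet)⁻¹) = Q2.conj p.2 (qOf n) := by
    rw [qOf_mul, qOf_mul, qOf_slQ, qOf_inv_slQ]
    rfl
  rw [e1, e2]
  rcases hmem with ⟨m1, m2⟩ | ⟨m1, m2⟩
  · left
    exact ⟨hH.mem_of_inL _ (by rw [q1]; exact m1), hH.mem_of_inL _ (by rw [q2]; exact m2)⟩
  · right
    exact ⟨hK.mem_of_inL _ (by rw [q1]; exact m1), hK.mem_of_inL _ (by rw [q2]; exact m2)⟩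

theorem qOf_tv0 (t : ZMod 11) : qOf (tv0 (Multiplicative.ofAdd t)) = ⟨1, t, 0, 1⟩ := by
  apply Q2.toMat_injective
  rw [toMat_qOf]
  rfl

/-- A transvection does not conjugate `X` into `Y`, given a witness in the lists. -/
theorem tv_conj_ne (X Y : Subgroup P11) (LX LY : List C211) (hX : IsCopy LX X) (hY : IsCopy LY Y)
    (t : ZMod 11)
    (hc : ∃ c ∈ LX, inL LY (Q2.mul (Q2.mul ⟨1, t, 0, 1⟩ c.2) ⟨1, -t, 0, 1⟩) = false) :
    MulAut.conj (tv (Multiplicative.ofAdd t)) • X ≠ Y := by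
  intro h
  obtain ⟨c, hcL, hcf⟩ := hc
  obtain ⟨mc, hmc, hmem⟩ := hX.2 c hcL
  have hz : (QuotientGroup.mk (tv0 (Multiplicative.ofAdd t) * mc * tv0 (Multiplicative.ofAdd (-t))) : P11)
      ∈ Y := by
    rw [← h, mem_conj_smul]
    have : (tv (Multiplicative.ofAdd t))⁻¹ *
        (QuotientGroup.mk (tv0 (Multiplicative.ofAdd t) * mc * tv0 (Multiplicative.ofAdd (-t))) : P11) *
        tv (Multiplicative.ofAdd t) = QuotientGroup.mk mc := by
      show (QuotientGroup.mk (tv0 (Multiplicative.ofAdd t)) : P11)⁻¹ *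
        (QuotientGroup.mk (tv0 (Multiplicative.ofAdd t) * mc * tv0 (Multiplicative.ofAdd (-t))) : P11) *
        QuotientGroup.mk (tv0 (Multiplicative.ofAdd t)) = QuotientGroup.mk mc
      rw [← QuotientGroup.mk_inv, ← QuotientGroup.mk_mul, ← QuotientGroup.mk_mul]
      congr 1
      have h0 : tv0 (Multiplicative.ofAdd (-t)) * tv0 (Multiplicative.ofAdd t) = 1 := by
        rw [← map_mul, ← ofAdd_add, neg_add_cancel, ofAdd_zero, map_one]
      rw [mul_assoc, mul_assoc, h0, mul_one, inv_mul_cancel_left]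
    rw [this]
    exact hmem
  have hin := hY.inL_of_mem _ hz
  rw [qOf_mul, qOf_mul, qOf_tv0, qOf_tv0] at hin
  have hq : qOf mc = c.2 := by
    apply Q2.toMat_injective
    rw [toMat_qOf, hmc]
  rw [hq, hcf] at hin
  exact Bool.false_ne_true hin

/-- The transvections are coset representatives of every subgroup of order 60. -/
theorem exists_tv_mul (X : Subgroup P11) (hX : Nat.card X = 60) (g : P11) :
    ∃ t : ZMod 11, ∃ h ∈ X, g = tv (Multiplicative.ofAdd t) * h := by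
  classical
  have hidx : X.index = 11 := by
    have := X.card_mul_index
    rw [hX, card_P11] at this
    omega
  have htvH : ∀ x : Multiplicative (ZMod 11), tv x ∈ X → x = 1 := by
    intro x hx
    by_contra hne
    have hc11 : Nat.card (Multiplicative (ZMod 11)) = 11 := by
      rw [Nat.card_eq_fintype_card, Fintype.card_multiplicative, ZMod.card]
    have ho : orderOf x = 11 := by
      have hd := orderOf_dvd_natCard x
      rw [hc11] at hd
      rcases (Nat.dvd_prime (by norm_num)).1 hd with h | h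
      · exact absurd (orderOf_eq_one_iff.1 h) hne
      · exact h
    have ho' : orderOf (tv x) = 11 := by rw [orderOf_injective tv tv_injective, ho]
    have hd : 11 ∣ 60 := by
      rw [← ho', ← hX]
      exact Subgroup.orderOf_dvd_natCard X hx
    omega
  let f : Multiplicative (ZMod 11) → P11 ⧸ X := fun x => QuotientGroup.mk (tv x)
  have hf : Function.Injective f := by
    intro x y hxy
    have h1 : (tv x)⁻¹ * tv y ∈ X := QuotientGroup.eq.1 hxy
    rw [← map_inv, ← map_mul] at h1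
    have := htvH _ h1
    exact inv_mul_eq_one.1 this
  have hfb : Function.Bijective f := by
    refine (Nat.bijective_iff_injective_and_card f).2 ⟨hf, ?_⟩
    rw [Nat.card_eq_fintype_card, Fintype.card_multiplicative, ZMod.card]
    exact hidx.symm
  obtain ⟨x, hx⟩ := hfb.2 (QuotientGroup.mk g)
  have h1 : (tv x)⁻¹ * g ∈ X := QuotientGroup.eq.1 hx
  exact ⟨Multiplicative.toAdd x, (tv x)⁻¹ * g, h1, by
    show g = tv x * ((tv x)⁻¹ * g)
    group⟩

/-- Every subgroup of `PSL(2, 11)` isomorphic to `A₅` is conjugate to one of the two copies. -/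
theorem a5_class (H K : Subgroup P11) (hH : IsCopy g211L H) (hK : IsCopy g211K K)
    (hHc : Nat.card H = 60) (hKc : Nat.card K = 60) (L : Subgroup P11) (ψ : L ≃* A5) :
    ∃ γ : P11, MulAut.conj γ • L = H ∨ MulAut.conj γ • L = K := by
  classical
  have hLc : Nat.card L = 60 := card_of_equiv_A5 L ⟨ψ⟩
  set x : P11 := ((ψ.symm gα : L) : P11) with hx
  set y : P11 := ((ψ.symm gβ : L) : P11) with hy
  have hα2 : gα ^ 2 = 1 := by decide
  have hα1 : gα ≠ 1 := by decide
  have hβ3 : gβ ^ 3 = 1 := by decide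
  have hβ1 : gβ ≠ 1 := by decide
  have hαβ5 : (gα * gβ) ^ 5 = 1 := by decide
  have hx2 : x ^ 2 = 1 := by
    rw [hx, ← Subgroup.coe_pow, ← map_pow, hα2, map_one]
    rfl
  have hx1 : x ≠ 1 := by
    intro h
    apply hα1
    have : ψ.symm gα = 1 := Subtype.ext h
    simpa using this
  have hy3 : y ^ 3 = 1 := by
    rw [hy, ← Subgroup.coe_pow, ← map_pow, hβ3, map_one]
    rfl
  have hy1 : y ≠ 1 := by
    intro h
    apply hβ1
    have : ψ.symm gβ = 1 := Subtype.ext h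
    simpa using this
  have hxy5 : (x * y) ^ 5 = 1 := by
    rw [hx, hy, ← Subgroup.coe_mul, ← map_mul, ← Subgroup.coe_pow, ← map_pow, hαβ5, map_one]
    rfl
  have hLle : L ≤ Subgroup.closure ({x, y} : Set P11) := by
    have h1 : Subgroup.closure ({gα, gβ} : Set A5) ≤
        (Subgroup.closure ({x, y} : Set P11)).comap (L.subtype.comp ψ.symm.toMonoidHom) := by
      rw [Subgroup.closure_le]
      rintro z (rfl | rfl)
      · exact Subgroup.subset_closure (by simp [hx])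
      · exact Subgroup.subset_closure (by simp [hy])
    intro l hl
    have h2 : ψ ⟨l, hl⟩ ∈ Subgroup.closure ({gα, gβ} : Set A5) := by rw [closure_αβ]; trivial
    have h3 := h1 h2
    simpa using h3
  obtain ⟨γ1, hγ1⟩ := conj_involution x hx2 hx1
  have hy'3 : (γ1 * y * γ1⁻¹) ^ 3 = 1 := by rw [conj_pow, hy3]; group
  have hy'1 : γ1 * y * γ1⁻¹ ≠ 1 := by
    intro h
    apply hy1
    have : y = γ1⁻¹ * (γ1 * y * γ1⁻¹) * γ1 := by group
    rw [this, h]
    group
  have hxy' : ((QuotientGroup.mk ga : P11) * (γ1 * y * γ1⁻¹)) ^ 5 = 1 := by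
    have : (QuotientGroup.mk ga : P11) * (γ1 * y * γ1⁻¹) = γ1 * (x * y) * γ1⁻¹ := by
      rw [← hγ1]; group
    rw [this, conj_pow, hxy5]
    group
  obtain ⟨γ2, hγ2⟩ := conj_order3 H K hH hK _ hy'3 hy'1 hxy'
  have hxg : (γ2 * γ1) * x * (γ2 * γ1)⁻¹ = γ2 * QuotientGroup.mk ga * γ2⁻¹ := by
    rw [← hγ1]; group
  have hyg : (γ2 * γ1) * y * (γ2 * γ1)⁻¹ = γ2 * (γ1 * y * γ1⁻¹) * γ2⁻¹ := by group
  have final : ∀ Z : Subgroup P11, Nat.card Z = 60 → (γ2 * γ1) * x * (γ2 * γ1)⁻¹ ∈ Z →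
      (γ2 * γ1) * y * (γ2 * γ1)⁻¹ ∈ Z → MulAut.conj (γ2 * γ1) • L = Z := by
    intro Z hZc hxZ hyZ
    have hle : MulAut.conj (γ2 * γ1) • L ≤ Z := by
      intro z hz
      rw [mem_conj_smul] at hz
      have h1 : Subgroup.closure ({x, y} : Set P11) ≤
          Z.comap (MulAut.conj (γ2 * γ1)).toMonoidHom := by
        rw [Subgroup.closure_le]
        rintro w (rfl | rfl)
        · exact hxZ
        · exact hyZ
      have h2 := h1 (hLle hz)
      have h3 : (γ2 * γ1) * ((γ2 * γ1)⁻¹ * z * (γ2 * γ1)) * (γ2 * γ1)⁻¹ ∈ Z := h2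
      have h4 : (γ2 * γ1) * ((γ2 * γ1)⁻¹ * z * (γ2 * γ1)) * (γ2 * γ1)⁻¹ = z := by group
      rwa [h4] at h3
    have hfin : Finite Z := Nat.finite_of_card_ne_zero (by rw [hZc]; norm_num)
    apply Subgroup.eq_of_le_of_card_ge hle
    rw [hZc, ← hLc]
    exact le_of_eq (Nat.card_congr (Subgroup.equivSMul (MulAut.conj (γ2 * γ1)) L).toEquiv)
  refine ⟨γ2 * γ1, ?_⟩
  rcases hγ2 with ⟨m1, m2⟩ | ⟨m1, m2⟩
  · left
    exact final H hHc (by rw [hxg]; exact m1) (by rw [hyg]; exact m2)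
  · right
    exact final K hKc (by rw [hxg]; exact m1) (by rw [hyg]; exact m2)

end Cfsg.Agent.Helper57
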