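import Cfsg.Agent.S2542
import Cfsg.Agent.Helper57.Psl211c

/-!
# Copies of `A₅` in `PSL(2, 11)` from lists of pairs (seat helper57)

* `a5emb`: a list of 120 pairs with the right certificates gives an injective hom `A₅ →* PSL(2, 11)`
  whose range is described by the list;
* `conj_involution`, `conj_order3`: the conjugation certificates of `Psl211c`, at the level of the group;
* `tv_conj_ne`: a transvection does not conjugate one copy into another;
* `exists_tv_mul`: a subgroup of order 60 of `PSL(2, 11)` has the transvections as coset representatives;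
* `a5_class`: every subgroup of `PSL(2, 11)` isomorphic to `A₅` is conjugate to one of the two copies.
-/

set_option autoImplicit false

namespace Cfsg.Agent.Helper57

open Cfsg.Agent.S2542 Matrix

namespace Q2

variable {R : Type*} [CommRing R]

theorem toMat_neg (x : Q2 R) : toMat (neg x) = -toMat x := by
  ext i j
  fin_cases i <;> fin_cases j <;> simp [toMat, neg]

theorem toMat_pow (x : Q2 R) (k : ℕ) : toMat (pow x k) = toMat x ^ k := by
  induction k with
  | zero => simpa [pow] using (toMat_one : toMat (one : Q2 R) = 1)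
  | succ k ih =>
    rw [pow_succ, ← ih]
    exact toMat_mul _ _

theorem toMat_adj (x : Q2 R) : toMat (adj x) = (toMat x).adjugate := by
  rw [Matrix.adjugate_fin_two]
  ext i j
  fin_cases i <;> fin_cases j <;> simp [toMat, adj]

end Q2

/-- the code of a matrix of `SL(2, 11)` -/
def qOf (m : S11) : Q2 (ZMod 11) := ⟨m.1 0 0, m.1 0 1, m.1 1 0, m.1 1 1⟩

theorem toMat_qOf (m : S11) : Q2.toMat (qOf m) = m.1 := by
  ext i j
  fin_cases i <;> fin_cases j <;> rfl

theorem det_qOf (m : S11) : m.1 0 0 * m.1 1 1 - m.1 0 1 * m.1 1 0 = 1 := by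
  have := m.2
  rw [Matrix.det_fin_two] at this
  exact this

/-- the matrix of `SL(2, 11)` with a given code -/
def slQ (q : Q2 (ZMod 11)) (h : Q2.det q = 1) : S11 :=
  ⟨Q2.toMat q, by rw [Q2.det_toMat]; exact h⟩

theorem slQ_inv_val (q : Q2 (ZMod 11)) (h : Q2.det q = 1) :
    ((slQ q h)⁻¹).1 = Q2.toMat (Q2.adj q) := by
  rw [Matrix.SpecialLinearGroup.coe_inv, Q2.toMat_adj]
  rfl

theorem toMat_negone : Q2.toMat (⟨10, 0, 0, 10⟩ : Q2 (ZMod 11)) = -1 := by
  ext i j
  fin_cases i <;> fin_cases j <;> simp [Q2.toMat, ten_eq]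

theorem center_cases {z : S11} (hz : z ∈ Subgroup.center S11) : z.1 = 1 ∨ z.1 = -1 := by
  rw [Matrix.SpecialLinearGroup.mem_center_iff] at hz
  obtain ⟨r, hr, hrz⟩ := hz
  simp only [Fintype.card_fin] at hr
  have h0 : (r - 1) * (r + 1) = 0 := by linear_combination hr
  rcases mul_eq_zero.1 h0 with h | h
  · left
    have hr1 : r = 1 := by linear_combination h
    rw [← hrz, hr1]
    simp
  · right
    have hr1 : r = -1 := by linear_combination h
    rw [← hrz, hr1]
    ext i j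
    fin_cases i <;> fin_cases j <;> simp

theorem mk_eq_one_iff (m : S11) : (QuotientGroup.mk m : P11) = 1 ↔ m.1 = 1 ∨ m.1 = -1 := by
  rw [QuotientGroup.eq_one_iff]
  constructor
  · exact center_cases
  · rintro (h | h)
    · have : m = 1 := Subtype.ext h
      rw [this]
      exact Subgroup.one_mem _
    · exact mem_center_of_neg m h

theorem mk_eq_mk_iff (m m' : S11) :
    (QuotientGroup.mk m : P11) = QuotientGroup.mk m' ↔ m.1 = m'.1 ∨ m.1 = -m'.1 := by
  constructor
  · intro h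
    have h1 : m'⁻¹ * m ∈ Subgroup.center S11 := QuotientGroup.eq.1 h.symm
    have h2 : m.1 = m'.1 * (m'⁻¹ * m).1 := by
      have : m = m' * (m'⁻¹ * m) := by group
      exact congrArg Subtype.val this
    rcases center_cases h1 with h3 | h3
    · left
      rw [h2, h3, mul_one]
    · right
      rw [h2, h3, mul_neg, mul_one]
  · rintro (h | h)
    · rw [Subtype.ext h]
    · exact mk_eq_of_neg _ _ h

theorem mk_pow_eq_one_iff (m : S11) (k : ℕ) : (QuotientGroup.mk m : P11) ^ k = 1 ↔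
    Q2.pow (qOf m) k = Q2.one ∨ Q2.pow (qOf m) k = ⟨10, 0, 0, 10⟩ := by
  rw [← QuotientGroup.mk_pow, mk_eq_one_iff]
  have h : (m ^ k).1 = Q2.toMat (Q2.pow (qOf m) k) := by
    rw [Q2.toMat_pow, toMat_qOf]
    rfl
  rw [h]
  constructor
  · rintro (h1 | h1)
    · left
      exact Q2.toMat_injective (h1.trans Q2.toMat_one.symm)
    · right
      exact Q2.toMat_injective (h1.trans toMat_negone.symm)
  · rintro (h1 | h1)
    · left
      rw [h1, Q2.toMat_one]
    · right
      rw [h1, toMat_negone]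

theorem card_P11 : Nat.card P11 = 660 := by
  have h2ne : (2 : ZMod 11) ≠ 0 := by decide
  have h1 : Nat.card P11 * Nat.card (Subgroup.center S11) =
      Fintype.card (ZMod 11) * (Fintype.card (ZMod 11) ^ 2 - 1) :=
    Helper5.card_PSL2_mul (F := ZMod 11)
  rw [Helper5.card_center_SL2 h2ne, ZMod.card] at h1
  have h3 : (11 : ℕ) * (11 ^ 2 - 1) = 1320 := by norm_num
  rw [h3] at h1
  omega

/-- A list of 120 pairs with the right certificates gives a copy of `A₅` in `PSL(2, 11)`. -/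
theorem a5emb (L : List C211) (cA cB cAi cBi : C211) (a b : S11)
    (ha : a.1 = Q2.toMat cA.2) (hb : b.1 = Q2.toMat cB.2)
    (hcA : cA.1 = g211A.1) (hcB : cB.1 = g211B.1) (hna : cA.2.b ≠ 0)
    (h1 : ((P5.one, Q2.one) : C211) ∈ L)
    (hA : ∀ x ∈ L, c211mul x cA ∈ L) (hB : ∀ x ∈ L, c211mul x cB ∈ L)
    (hfst : ∀ x ∈ L, x.1 = P5.one → x.2 = Q2.one ∨ x.2 = ⟨10, 0, 0, 10⟩)
    (hAi : c211mul cAi cA = (P5.one, Q2.one)) (hBi : c211mul cBi cB = (P5.one, Q2.one))
    (hbfs : bfsCheckC c211mul (P5.one, Q2.one) [cAi, cBi] L.reverse = true)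
    (hneg : ∀ x ∈ L, (x.1, Q2.neg x.2) ∈ L) :
    ∃ φ : A5 →* P11, Function.Injective φ ∧
      (∀ m : S11, (QuotientGroup.mk m : P11) ∈ φ.range → ∃ x ∈ L, Q2.toMat x.2 = m.1) ∧
      (∀ x ∈ L, ∃ m : S11, m.1 = Q2.toMat x.2 ∧ (QuotientGroup.mk m : P11) ∈ φ.range) := by
  classical
  have hc1 : dec211 (P5.one, Q2.one) = 1 := Prod.ext P5.app_one Q2.toMat_one
  have hdA : dec211 cA = coe211 (gα, a) := by
    refine Prod.ext ?_ ha.symm
    show P5.app cA.1 = _
    rw [hcA]
    rfl
  have hdB : dec211 cB = coe211 (gβ, b) := by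
    refine Prod.ext ?_ hb.symm
    show P5.app cB.1 = _
    rw [hcB]
    rfl
  let Γ' : Subgroup (A5 × S11) := Subgroup.closure {(gα, a), (gβ, b)}
  have Γ_sub : ∀ g ∈ Γ', ∃ x ∈ L, dec211 x = coe211 g :=
    closure_pair_subset_codes coe211 coe211_injective dec211 c211mul dec211_mul (gα, a) (gβ, b)
      cA cB (P5.one, Q2.one) hdA hdB hc1 L h1 hA hB
  have Γ_sup : ∀ x ∈ L, ∃ g ∈ Γ', coe211 g = dec211 x := by
    intro x hx
    refine mem_of_bfsCheckC coe211 Γ' dec211 c211mul dec211_mul (P5.one, Q2.one) hc1 [cAi, cBi] ?_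
      L.reverse hbfs x (List.mem_reverse.2 hx)
    intro t ht
    simp only [List.mem_cons, List.not_mem_nil, or_false] at ht
    rcases ht with rfl | rfl
    · refine ⟨(gα, a), Subgroup.subset_closure (by simp), ?_⟩
      rw [← hdA, ← dec211_mul, hAi, hc1]
    · refine ⟨(gβ, b), Subgroup.subset_closure (by simp), ?_⟩
      rw [← hdB, ← dec211_mul, hBi, hc1]
  have Γ_fst : ∀ g : A5, ∃ m : S11, (g, m) ∈ Γ' := by
    intro g
    have h : Subgroup.closure ({gα, gβ} : Set A5) ≤ Γ'.map (MonoidHom.fst A5 S11) := by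
      rw [Subgroup.closure_le]
      rintro x (rfl | rfl)
      · exact ⟨(gα, a), Subgroup.subset_closure (by simp), rfl⟩
      · exact ⟨(gβ, b), Subgroup.subset_closure (by simp), rfl⟩
    have hg : g ∈ Γ'.map (MonoidHom.fst A5 S11) := h (by rw [closure_αβ]; trivial)
    obtain ⟨⟨g', m⟩, hm, rfl⟩ := hg
    exact ⟨m, hm⟩
  let K : Subgroup (A5 × P11) :=
    Γ'.map (MonoidHom.prodMap (MonoidHom.id A5) (QuotientGroup.mk' (Subgroup.center S11)))
  have K_surj : ∀ g : A5, ∃ h : P11, (g, h) ∈ K := by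
    intro g
    obtain ⟨m, hm⟩ := Γ_fst g
    exact ⟨QuotientGroup.mk m, ⟨(g, m), hm, rfl⟩⟩
  have K_inj : ∀ h : P11, ((1 : A5), h) ∈ K → h = 1 := by
    rintro h ⟨⟨g, m⟩, hgm, heq⟩
    have hg : g = 1 := congrArg Prod.fst heq
    have hm : (QuotientGroup.mk m : P11) = h := congrArg Prod.snd heq
    obtain ⟨x, hx, hxg⟩ := Γ_sub _ hgm
    have h1 : P5.app x.1 = ⇑(g.1 : Equiv.Perm (Fin 5)) := congrArg Prod.fst hxg
    have h2 : Q2.toMat x.2 = m.1 := congrArg Prod.snd hxg
    have h3 : x.1 = P5.one := by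
      apply P5.app_injective
      rw [h1, hg, P5.app_one]
      rfl
    rw [← hm, mk_eq_one_iff]
    rcases hfst x hx h3 with h4 | h4
    · left
      rw [← h2, h4, Q2.toMat_one]
    · right
      rw [← h2, h4, toMat_negone]
  obtain ⟨φ, hφ⟩ := exists_hom_of_graph K K_surj K_inj
  have hφα : φ gα = QuotientGroup.mk a :=
    (hφ _ _).1 ⟨(gα, a), Subgroup.subset_closure (by simp), rfl⟩
  have hinj : Function.Injective φ := by
    rw [← MonoidHom.ker_eq_bot_iff]
    rcases (MonoidHom.normal_ker φ).eq_bot_or_eq_top with h | h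
    · exact h
    · exfalso
      have hg : gα ∈ φ.ker := by rw [h]; trivial
      have h1 : (QuotientGroup.mk a : P11) = 1 := by rw [← hφα]; exact hg
      have h2 := scalar_entry ((QuotientGroup.eq_one_iff _).1 h1)
      rw [ha] at h2
      apply hna
      simpa [Q2.toMat] using h2
  refine ⟨φ, hinj, ?_, ?_⟩
  · rintro m ⟨g, hg⟩
    obtain ⟨⟨g', m'⟩, hm', heq⟩ := (hφ g (QuotientGroup.mk m)).2 hg
    have hmk : (QuotientGroup.mk m' : P11) = QuotientGroup.mk m := congrArg Prod.snd heq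
    obtain ⟨x, hx, hxg⟩ := Γ_sub _ hm'
    have h2 : Q2.toMat x.2 = m'.1 := congrArg Prod.snd hxg
    rcases (mk_eq_mk_iff m m').1 hmk.symm with h | h
    · exact ⟨x, hx, by rw [h2, h]⟩
    · exact ⟨(x.1, Q2.neg x.2), hneg x hx, by rw [Q2.toMat_neg, h2, h]⟩
  · intro x hx
    obtain ⟨g, hg, hgx⟩ := Γ_sup x hx
    have h2 : g.2.1 = Q2.toMat x.2 := congrArg Prod.snd hgx
    refine ⟨g.2, h2, g.1, ?_⟩
    exact (hφ g.1 (QuotientGroup.mk g.2)).1 ⟨g, hg, rfl⟩

end Cfsg.Agent.Helper57
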