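import Mathlib
import Cfsg.Prelude.Def_Solvable
import Cfsg.Agent.Helper22.Fitting

set_option autoImplicit false

namespace Cfsg.Agent.Helper57

open Cfsg Subgroup

universe u

variable {G : Type u} [Group G] [Finite G]

/-- PPC (pure). (`pPrimeCore p ↥H` has order prime to `p`; a nilpotent group whose Sylow
subgroups are all cyclic is cyclic.) -/
theorem bg83_pPrimeCore_cyclic (H : Subgroup G) (hnil : Group.IsNilpotent ↥H) (p : ℕ)
    (hp : p.Prime)
    (hcyc : ∀ q : ℕ, q.Prime → q ≠ p → ∀ Q : Subgroup G, Q ≤ H → IsPGroup q Q → IsCyclic ↥Q) :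
    IsCyclic ↥(pPrimeCore p ↥H) := by
  have : Group.IsNilpotent ↥(pPrimeCore p ↥H) := Subgroup.isNilpotent (pPrimeCore p ↥H)
  have hcop : (Nat.card ↥(pPrimeCore p ↥H)).Coprime p :=
    Cfsg.Agent.Helper22.card_pPrimeCore_coprime p ↥H
  have : IsZGroup ↥(pPrimeCore p ↥H) := by
    refine ⟨fun q hq S => ?_⟩
    by_cases hqp : q = p
    · subst hqp
      -- the Sylow subgroup is trivial
      have hS : IsPGroup q (S : Subgroup ↥(pPrimeCore q ↥H)) := S.isPGroup'
      have : Fact q.Prime := ⟨hq⟩
      obtain ⟨n, hn⟩ := (IsPGroup.iff_card (p := q)).mp hS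
      have hdvd : Nat.card ↥(S : Subgroup ↥(pPrimeCore q ↥H)) ∣ Nat.card ↥(pPrimeCore q ↥H) :=
        Subgroup.card_subgroup_dvd_card _
      have hn0 : n = 0 := by
        by_contra hne
        have hqd : q ∣ Nat.card ↥(S : Subgroup ↥(pPrimeCore q ↥H)) := by
          rw [hn]
          exact dvd_pow_self q hne
        have hq1 : q ∣ Nat.gcd (Nat.card ↥(pPrimeCore q ↥H)) q :=
          Nat.dvd_gcd (hqd.trans hdvd) dvd_rfl
        rw [hcop] at hq1
        exact hq.one_lt.ne' (Nat.dvd_one.mp hq1)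
      rw [hn0, pow_zero] at hn
      have : Subsingleton ↥(S : Subgroup ↥(pPrimeCore q ↥H)) :=
        (Nat.card_eq_one_iff_unique.mp hn).1
      infer_instance
    · -- embed the Sylow subgroup into `G`
      let f : ↥(pPrimeCore p ↥H) →* G := H.subtype.comp (pPrimeCore p ↥H).subtype
      have hf : Function.Injective f := by
        intro a b hab
        exact Subtype.ext (Subtype.ext hab)
      let Q : Subgroup G := (S : Subgroup ↥(pPrimeCore p ↥H)).map f
      have hQH : Q ≤ H := by
        rintro _ ⟨a, -, rfl⟩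
        exact (a : ↥H).2
      have hQ : IsPGroup q Q := S.isPGroup'.map f
      have : IsCyclic ↥Q := hcyc q hq hqp Q hQH hQ
      let e : ↥(S : Subgroup ↥(pPrimeCore p ↥H)) ≃* ↥Q :=
        (S : Subgroup ↥(pPrimeCore p ↥H)).equivMapOfInjective f hf
      exact isCyclic_of_surjective e.symm e.symm.surjective
  infer_instance

end Cfsg.Agent.Helper57
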