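import Mathlib
import Cfsg.Agent.Helper69.E4STRUCT

set_option autoImplicit false

/-!
# Piece STRUCT2 of CALL S6002 (helper69), tripled by helper57

A group of order 32 and exponent 4 with centre of order 2 in which every characteristic abelian
subgroup is cyclic has central squares and central commutators (it is extraspecial).
-/

namespace Cfsg.Agent.Helper57

open Cfsg.Agent.Helper69

theorem e5s_two_le {d n : ℕ} (h : d ∣ n) (hn : 0 < n) (hne : d ≠ n) : 2 * d ≤ n := by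
  obtain ⟨k, rfl⟩ := h
  rcases k with _ | _ | k
  · simp at hn
  · simp at hne
  · nlinarith [Nat.zero_le (d * k)]

/-- the core: if the centre of the second centre is the centre, squares and commutators are
central (the argument of `Helper69.e4_struct`) -/
theorem e5s_core {G : Type*} [Group G] [Finite G] (hp : IsPGroup 2 G)
    (hexp4 : ∀ g : G, g ^ 4 = 1)
    (hAZ : Subgroup.upperCentralSeries G 2 ⊓
      Subgroup.centralizer (Subgroup.upperCentralSeries G 2 : Set G) = Subgroup.center G)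
    (g h : G) :
    g ^ 2 ∈ Subgroup.center G ∧ g * h * g⁻¹ * h⁻¹ ∈ Subgroup.center G := by
  classical
  haveI : Fact (Nat.Prime 2) := ⟨Nat.prime_two⟩
  set Z2 : Subgroup G := Subgroup.upperCentralSeries G 2 with hZ2
  have hZ2mem : ∀ u : G, u ∈ Z2 ↔ ∀ y : G, u * y * u⁻¹ * y⁻¹ ∈ Subgroup.center G := by
    intro u
    rw [hZ2, show (2 : ℕ) = 1 + 1 from rfl, Subgroup.mem_upperCentralSeries_succ_iff,
      Subgroup.upperCentralSeries_one]
    rfl
  have hCnormal : (Subgroup.centralizer (Z2 : Set G)).Normal := by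
    rw [hZ2]
    infer_instance
  have hnil : Group.IsNilpotent G := hp.isNilpotent
  have hC : ∀ k : ℕ, ∀ c ∈ Subgroup.centralizer (Z2 : Set G),
      c ∈ Subgroup.upperCentralSeries G (k + 1) → c ∈ Subgroup.center G := by
    intro k
    induction k with
    | zero =>
      intro c _ hc
      rw [zero_add, Subgroup.upperCentralSeries_one] at hc
      exact hc
    | succ k ih =>
      intro c hcC hc
      have h1 : ∀ y : G, c * y * c⁻¹ * y⁻¹ ∈ Subgroup.center G := by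
        intro y
        apply ih
        · have h2 : c * y * c⁻¹ * y⁻¹ = c * (y * c⁻¹ * y⁻¹) := by group
          rw [h2]
          exact Subgroup.mul_mem _ hcC
            (hCnormal.conj_mem _ (Subgroup.inv_mem _ hcC) y)
        · exact (Subgroup.mem_upperCentralSeries_succ_iff.mp hc) y
      have h3 : c ∈ Z2 ⊓ Subgroup.centralizer (Z2 : Set G) := ⟨(hZ2mem c).mpr h1, hcC⟩
      rw [hAZ] at h3
      exact h3
  have hCZ : ∀ c ∈ Subgroup.centralizer (Z2 : Set G), c ∈ Subgroup.center G := by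
    intro c hc
    obtain ⟨n, hn⟩ := hnil.nilpotent
    apply hC n c hc
    have : Subgroup.upperCentralSeries G n ≤ Subgroup.upperCentralSeries G (n + 1) :=
      Subgroup.upperCentralSeries_mono G (Nat.le_succ n)
    apply this
    rw [hn]
    exact Subgroup.mem_top c
  have hmul : ∀ u ∈ Z2, ∀ a b : G, u * (a * b) * u⁻¹ * (a * b)⁻¹ =
      (u * a * u⁻¹ * a⁻¹) * (u * b * u⁻¹ * b⁻¹) := by
    intro u hu a b
    have hb : u * b * u⁻¹ * b⁻¹ ∈ Subgroup.center G := (hZ2mem u).mp hu b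
    have hc := Subgroup.mem_center_iff.mp hb a⁻¹
    calc u * (a * b) * u⁻¹ * (a * b)⁻¹ = (u * a * u⁻¹) * ((u * b * u⁻¹ * b⁻¹) * a⁻¹) := by group
      _ = (u * a * u⁻¹) * (a⁻¹ * (u * b * u⁻¹ * b⁻¹)) := by rw [hc]
      _ = (u * a * u⁻¹ * a⁻¹) * (u * b * u⁻¹ * b⁻¹) := by group
  have hcomm_of : ∀ u x : G, u * x * u⁻¹ * x⁻¹ = 1 → u * x = x * u := by
    intro u x h1
    have : u * x = (u * x * u⁻¹ * x⁻¹) * (x * u) := by group
    rw [this, h1, one_mul]
  have hsq : ∀ x : G, x ^ 2 ∈ Subgroup.centralizer (Z2 : Set G) := by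
    intro x
    rw [Subgroup.mem_centralizer_iff]
    intro u hu
    apply hcomm_of
    rw [pow_two, hmul u hu x x, ← pow_two]
    exact e4s_comm_sq hexp4 u x ((hZ2mem u).mp hu x)
  have hcm : ∀ x y : G, x * y * x⁻¹ * y⁻¹ ∈ Subgroup.centralizer (Z2 : Set G) := by
    intro x y
    rw [Subgroup.mem_centralizer_iff]
    intro u hu
    apply hcomm_of
    have hx : u * x * u⁻¹ * x⁻¹ ∈ Subgroup.center G := (hZ2mem u).mp hu x
    have hy : u * y * u⁻¹ * y⁻¹ ∈ Subgroup.center G := (hZ2mem u).mp hu y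
    have hxi : u * x⁻¹ * u⁻¹ * x⁻¹⁻¹ = (u * x * u⁻¹ * x⁻¹)⁻¹ := by
      have h1 := hmul u hu x x⁻¹
      rw [mul_inv_cancel] at h1
      have h2 : u * 1 * u⁻¹ * (1 : G)⁻¹ = 1 := by group
      rw [h2] at h1
      exact (inv_eq_of_mul_eq_one_right h1.symm).symm
    have hyi : u * y⁻¹ * u⁻¹ * y⁻¹⁻¹ = (u * y * u⁻¹ * y⁻¹)⁻¹ := by
      have h1 := hmul u hu y y⁻¹
      rw [mul_inv_cancel] at h1
      have h2 : u * 1 * u⁻¹ * (1 : G)⁻¹ = 1 := by group
      rw [h2] at h1
      exact (inv_eq_of_mul_eq_one_right h1.symm).symm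
    rw [hmul u hu (x * y * x⁻¹) y⁻¹, hmul u hu (x * y) x⁻¹, hmul u hu x y, hxi, hyi]
    have hc := Subgroup.mem_center_iff.mp hy (u * x * u⁻¹ * x⁻¹)
    calc (u * x * u⁻¹ * x⁻¹) * (u * y * u⁻¹ * y⁻¹) * (u * x * u⁻¹ * x⁻¹)⁻¹ *
          (u * y * u⁻¹ * y⁻¹)⁻¹
        = ((u * x * u⁻¹ * x⁻¹) * (u * y * u⁻¹ * y⁻¹)) * (u * x * u⁻¹ * x⁻¹)⁻¹ *
          (u * y * u⁻¹ * y⁻¹)⁻¹ := by group
      _ = ((u * y * u⁻¹ * y⁻¹) * (u * x * u⁻¹ * x⁻¹)) * (u * x * u⁻¹ * x⁻¹)⁻¹ *
          (u * y * u⁻¹ * y⁻¹)⁻¹ := by rw [hc]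
      _ = 1 := by group
  exact ⟨hCZ _ (hsq g), hCZ _ (hcm g h)⟩

/-- the centre of the second centre is the centre -/
theorem e5s_AZ {G : Type*} [Group G] [Finite G]
    (hexp4 : ∀ g : G, g ^ 4 = 1) (hcard : Nat.card G = 32)
    (hZ : Nat.card (Subgroup.center G) = 2)
    (hchar : ∀ A : Subgroup G, A.Characteristic → IsMulCommutative A → IsCyclic A) :
    Subgroup.upperCentralSeries G 2 ⊓
      Subgroup.centralizer (Subgroup.upperCentralSeries G 2 : Set G) = Subgroup.center G := by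
  classical
  haveI : Fact (Nat.Prime 2) := ⟨Nat.prime_two⟩
  set U : Subgroup G := Subgroup.upperCentralSeries G 2 with hU
  have hUmem : ∀ u : G, u ∈ U ↔ ∀ y : G, u * y * u⁻¹ * y⁻¹ ∈ Subgroup.center G := by
    intro u
    rw [hU, show (2 : ℕ) = 1 + 1 from rfl, Subgroup.mem_upperCentralSeries_succ_iff,
      Subgroup.upperCentralSeries_one]
    rfl
  have hZle : Subgroup.center G ≤ U := by
    rw [hU, ← Subgroup.upperCentralSeries_one]
    exact Subgroup.upperCentralSeries_mono G (by norm_num)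
  set A : Subgroup G := U ⊓ Subgroup.centralizer (U : Set G) with hA
  have hAchar : A.Characteristic := by
    rw [hA, hU]
    infer_instance
  have hAcomm : IsMulCommutative A := by
    refine ⟨⟨fun a b => ?_⟩⟩
    apply Subtype.ext
    have ha' := Subgroup.mem_inf.mp (show (a : G) ∈ U ⊓ Subgroup.centralizer (U : Set G) from a.2)
    have hb' := Subgroup.mem_inf.mp (show (b : G) ∈ U ⊓ Subgroup.centralizer (U : Set G) from b.2)
    have := (Subgroup.mem_centralizer_iff.mp hb'.2) (a : G) ha'.1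
    show (a : G) * (b : G) = (b : G) * (a : G)
    exact this
  have hAcyc : IsCyclic A := hchar A hAchar hAcomm
  have hAdvd : Nat.card A ∣ 4 := by
    have h1 : Monoid.exponent A = Nat.card A := IsCyclic.exponent_eq_card
    have h2 : Monoid.exponent A ∣ 4 := by
      apply Monoid.exponent_dvd_of_forall_pow_eq_one
      intro a
      apply Subtype.ext
      rw [Subgroup.coe_pow, hexp4]
      rfl
    rw [h1] at h2
    exact h2
  have hZA : Subgroup.center G ≤ A := by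
    rw [hA]
    refine le_inf hZle ?_
    intro z hz
    rw [Subgroup.mem_centralizer_iff]
    intro k _
    exact Subgroup.mem_center_iff.mp hz k
  by_cases hA2 : Nat.card A ≤ 2
  · exact (Subgroup.eq_of_le_of_card_ge hZA (by rw [hZ]; exact hA2)).symm
  exfalso
  have hA4 : Nat.card A = 4 := by
    have h1 := Nat.le_of_dvd (by norm_num) hAdvd
    have h3 : Nat.card A ≠ 3 := by
      intro h
      rw [h] at hAdvd
      omega
    omega
  -- a generator of `A`
  obtain ⟨ga, hga⟩ := hAcyc.exists_generator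
  have hord : orderOf ga = 4 := by rw [orderOf_eq_card_of_forall_mem_zpowers hga, hA4]
  obtain ⟨a, ha⟩ : ∃ a : G, a = (ga : G) := ⟨_, rfl⟩
  have haA : a ∈ A := by rw [ha]; exact ga.2
  have horda : orderOf a = 4 := by rw [ha, Subgroup.orderOf_coe, hord]
  have hApow : ∀ x ∈ A, ∃ k : ℤ, x = a ^ k := by
    intro x hx
    obtain ⟨k, hk⟩ := Subgroup.mem_zpowers_iff.mp (hga ⟨x, hx⟩)
    refine ⟨k, ?_⟩
    have h1 := congrArg (Subtype.val) hk
    rw [Subgroup.coe_zpow] at h1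
    rw [ha]
    exact h1.symm
  have haU : a ∈ U := (Subgroup.mem_inf.mp haA).1
  have ha4 : a ^ 4 = 1 := hexp4 a
  have ha2 : a ^ 2 ≠ 1 := by
    intro h
    have := orderOf_dvd_of_pow_eq_one h
    rw [horda] at this
    omega
  -- the commutator with an element of `U` is a homomorphism
  have hmul : ∀ u ∈ U, ∀ x y : G, u * (x * y) * u⁻¹ * (x * y)⁻¹ =
      (u * x * u⁻¹ * x⁻¹) * (u * y * u⁻¹ * y⁻¹) := by
    intro u hu x y
    have hb : u * y * u⁻¹ * y⁻¹ ∈ Subgroup.center G := (hUmem u).mp hu y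
    have hc := Subgroup.mem_center_iff.mp hb x⁻¹
    calc u * (x * y) * u⁻¹ * (x * y)⁻¹ = (u * x * u⁻¹) * ((u * y * u⁻¹ * y⁻¹) * x⁻¹) := by group
      _ = (u * x * u⁻¹) * (x⁻¹ * (u * y * u⁻¹ * y⁻¹)) := by rw [hc]
      _ = (u * x * u⁻¹ * x⁻¹) * (u * y * u⁻¹ * y⁻¹) := by group
  -- `a ^ 2` is central
  have ha2Z : a ^ 2 ∈ Subgroup.center G := by
    rw [Subgroup.mem_center_iff]
    intro y
    have hk : a * y * a⁻¹ * y⁻¹ ∈ Subgroup.center G := (hUmem a).mp haU y
    have hk2 : (a * y * a⁻¹ * y⁻¹) ^ 2 = 1 := e4s_comm_sq hexp4 a y hk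
    obtain ⟨k, hkdef⟩ : ∃ k : G, k = a * y * a⁻¹ * y⁻¹ := ⟨_, rfl⟩
    rw [← hkdef] at hk hk2
    have hkc : ∀ x : G, x * k = k * x := fun x => Subgroup.mem_center_iff.mp hk x
    have hay : a * y = k * (y * a) := by rw [hkdef]; simp [mul_assoc]
    calc y * a ^ 2 = k ^ 2 * (y * a ^ 2) := by rw [hk2, one_mul]
      _ = k * (k * (y * a)) * a := by rw [pow_two, pow_two]; simp only [mul_assoc]
      _ = k * (a * y) * a := by rw [← hay]
      _ = a * (k * (y * a)) := by
        simp only [mul_assoc]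
        rw [← mul_assoc k a, ← mul_assoc a k, hkc a]
      _ = a * (a * y) := by rw [← hay]
      _ = a ^ 2 * y := by rw [pow_two, mul_assoc]
  -- the centre is `{1, a ^ 2}`
  have hZelts : ∀ x ∈ Subgroup.center G, x = 1 ∨ x = a ^ 2 := by
    intro x hx
    obtain ⟨w, -, hw2⟩ := (Nat.card_eq_two_iff' (1 : Subgroup.center G)).mp hZ
    by_cases hx1 : x = 1
    · exact Or.inl hx1
    · right
      have h1 : (⟨x, hx⟩ : Subgroup.center G) = w := hw2 _ (fun h => hx1 (congrArg Subtype.val h))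
      have h2 : (⟨a ^ 2, ha2Z⟩ : Subgroup.center G) = w :=
        hw2 _ (fun h => ha2 (congrArg Subtype.val h))
      exact congrArg Subtype.val (h1.trans h2.symm)
  -- elements of `A` of order at most 2 are central
  have hA2Z : ∀ x ∈ A, x ^ 2 = 1 → x ∈ Subgroup.center G := by
    intro x hx hx2
    obtain ⟨k, rfl⟩ := hApow x hx
    have h1 : a ^ (k * 2) = 1 := by
      rw [zpow_mul]
      exact_mod_cast hx2
    have h2 : ((orderOf a : ℕ) : ℤ) ∣ k * 2 := orderOf_dvd_iff_zpow_eq_one.mpr h1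
    rw [horda] at h2
    obtain ⟨j, hj⟩ : ∃ j : ℤ, k = 2 * j := ⟨k / 2, by push_cast at h2; omega⟩
    rw [hj, zpow_mul]
    exact Subgroup.zpow_mem _ (by exact_mod_cast ha2Z) j
  -- `a` is not central
  have haZ : a ∉ Subgroup.center G := by
    intro h
    rcases hZelts a h with h1 | h1
    · rw [h1] at ha2
      exact ha2 (one_pow 2)
    · have : a = 1 := by
        have h2 : a * 1 = a * a := by rw [mul_one, ← pow_two]; exact h1
        exact (mul_left_cancel h2).symm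
      rw [this] at ha2
      exact ha2 (one_pow 2)
  obtain ⟨g₀, hg₀⟩ : ∃ g₀ : G, g₀ * a ≠ a * g₀ := by
    by_contra hcon
    push Not at hcon
    exact haZ (Subgroup.mem_center_iff.mpr hcon)
  -- the centraliser `C` of `A`
  set C : Subgroup G := Subgroup.centralizer (A : Set G) with hC
  have hCa : ∀ y : G, y ∈ C ↔ a * y = y * a := by
    intro y
    constructor
    · intro hy
      exact (Subgroup.mem_centralizer_iff.mp hy) a haA
    · intro hy
      rw [hC, Subgroup.mem_centralizer_iff]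
      intro x hx
      obtain ⟨k, rfl⟩ := hApow x hx
      exact (Commute.zpow_left (show Commute a y from hy) k).eq
  have hCa' : ∀ y : G, y ∈ C ↔ a * y * a⁻¹ * y⁻¹ = 1 := by
    intro y
    rw [hCa]
    constructor
    · intro h
      rw [h]
      group
    · intro h
      have : a * y = (a * y * a⁻¹ * y⁻¹) * (y * a) := by group
      rw [this, h, one_mul]
  have hnot : ∀ y : G, y ∉ C → a * y * a⁻¹ * y⁻¹ = a ^ 2 := by
    intro y hy
    rcases hZelts _ ((hUmem a).mp haU y) with h | h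
    · exact absurd ((hCa' y).mpr h) hy
    · exact h
  have hg₀C : g₀ ∉ C := fun h => hg₀ ((hCa g₀).mp h).symm
  have hxor : ∀ b : G, b ∉ C → b * g₀ ∈ C := by
    intro b hb
    rw [hCa', hmul a haU, hnot b hb, hnot g₀ hg₀C, ← pow_add]
    exact ha4
  have hCidx : C.index = 2 := by
    rw [Subgroup.index_eq_two_iff]
    refine ⟨g₀, fun b => ?_⟩
    by_cases hb : b ∈ C
    · right
      refine ⟨hb, fun h => hg₀C ?_⟩
      have : g₀ = b⁻¹ * (b * g₀) := by group
      rw [this]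
      exact C.mul_mem (C.inv_mem hb) h
    · left
      exact ⟨hxor b hb, hb⟩
  have hCcard : Nat.card C = 16 := by
    have := Subgroup.card_mul_index C
    rw [hCidx, hcard] at this
    omega
  have hCcases : ∀ y : G, y ∈ C ∨ ∃ y' ∈ C, y = g₀ * y' := by
    intro y
    by_cases hy : y ∈ C
    · exact Or.inl hy
    · right
      have h1 : y⁻¹ ∉ C := fun h => hy (by simpa using C.inv_mem h)
      have h2 := C.inv_mem (hxor y⁻¹ h1)
      refine ⟨g₀⁻¹ * y, by simpa using h2, by group⟩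
  haveI := hAchar
  have hCchar : C.Characteristic := by
    rw [hC]
    infer_instance
  haveI := hCchar
  have hCn : C.Normal := inferInstance
  have hAn : A.Normal := inferInstance
  have hAC : A ≤ C := by
    intro x hx
    rw [hC, Subgroup.mem_centralizer_iff]
    intro y hy
    have hx' := Subgroup.mem_inf.mp hx
    have hy' := Subgroup.mem_inf.mp hy
    exact (Subgroup.mem_centralizer_iff.mp hx'.2 y hy'.1)
  have hAcent : ∀ x ∈ A, ∀ y ∈ C, x * y = y * x := by
    intro x hx y hy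
    exact Subgroup.mem_centralizer_iff.mp hy x hx
  -- `C` is not abelian
  have hCnc : ¬ (∀ x ∈ C, ∀ y ∈ C, x * y = y * x) := by
    intro hcomm
    have hCcomm : IsMulCommutative C :=
      ⟨⟨fun x y => Subtype.ext (hcomm x x.2 y y.2)⟩⟩
    have hCcyc : IsCyclic C := hchar C hCchar hCcomm
    have h1 : Monoid.exponent C = Nat.card C := IsCyclic.exponent_eq_card
    have h2 : Monoid.exponent C ∣ 4 := by
      apply Monoid.exponent_dvd_of_forall_pow_eq_one
      intro c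
      apply Subtype.ext
      rw [Subgroup.coe_pow, hexp4]
      rfl
    rw [h1, hCcard] at h2
    omega
  -- the quotient `C / A` has order 4
  have hQcard : Nat.card (C ⧸ A.subgroupOf C) = 4 := by
    have h1 := Subgroup.card_mul_index (A.subgroupOf C)
    have h2 : Nat.card (A.subgroupOf C) = Nat.card A :=
      Nat.card_congr (Subgroup.subgroupOfEquivOfLe hAC).toEquiv
    rw [h2, hA4, hCcard] at h1
    have h3 : (A.subgroupOf C).index = Nat.card (C ⧸ A.subgroupOf C) := rfl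
    omega
  -- (F-a) commutators of `C` lie in `A`
  have hFa : ∀ x ∈ C, ∀ y ∈ C, x * y * x⁻¹ * y⁻¹ ∈ A := by
    intro x hx y hy
    have hQcomm := IsPGroup.commutative_of_card_eq_prime_sq (p := 2)
      (G := C ⧸ A.subgroupOf C) (by rw [hQcard]; norm_num)
    have h1 : ((⟨x, hx⟩ * ⟨y, hy⟩ * (⟨x, hx⟩ : C)⁻¹ * (⟨y, hy⟩ : C)⁻¹ : C) :
        C ⧸ A.subgroupOf C) = 1 := by
      rw [QuotientGroup.mk_mul, QuotientGroup.mk_mul, QuotientGroup.mk_mul,
        QuotientGroup.mk_inv, QuotientGroup.mk_inv,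
        hQcomm (QuotientGroup.mk ⟨x, hx⟩) (QuotientGroup.mk ⟨y, hy⟩)]
      group
    have h2 := (QuotientGroup.eq_one_iff _).mp h1
    rw [Subgroup.mem_subgroupOf] at h2
    exact h2
  -- (F-b) squares of `C` lie in `A`
  have hFb : ∀ c ∈ C, c ^ 2 ∈ A := by
    intro c hc
    by_contra hc2
    have hq2 : ((⟨c, hc⟩ : C) : C ⧸ A.subgroupOf C) ^ 2 ≠ 1 := by
      intro h
      rw [← QuotientGroup.mk_pow, QuotientGroup.eq_one_iff, Subgroup.mem_subgroupOf] at h
      exact hc2 h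
    have hq4 : orderOf ((⟨c, hc⟩ : C) : C ⧸ A.subgroupOf C) ∣ 4 := by
      rw [← hQcard]
      exact orderOf_dvd_natCard _
    have hq2' : ¬ orderOf ((⟨c, hc⟩ : C) : C ⧸ A.subgroupOf C) ∣ 2 :=
      fun h => hq2 (orderOf_dvd_iff_pow_eq_one.mp h)
    have hq : orderOf ((⟨c, hc⟩ : C) : C ⧸ A.subgroupOf C) = 4 := by
      have h1 := Nat.le_of_dvd (by norm_num) hq4
      obtain ⟨n, hn⟩ : ∃ n : ℕ, n = orderOf ((⟨c, hc⟩ : C) : C ⧸ A.subgroupOf C) := ⟨_, rfl⟩
      rw [← hn] at h1 hq4 hq2' ⊢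
      interval_cases n <;> omega
    haveI : IsCyclic (C ⧸ A.subgroupOf C) :=
      isCyclic_of_orderOf_eq_card _ (by rw [hq, hQcard])
    have hker : (QuotientGroup.mk' (A.subgroupOf C)).ker ≤ Subgroup.center C := by
      rw [QuotientGroup.ker_mk']
      intro x hx
      rw [Subgroup.mem_subgroupOf] at hx
      rw [Subgroup.mem_center_iff]
      intro y
      apply Subtype.ext
      exact (hAcent x hx y y.2).symm
    have hcomm := commutative_of_cyclic_center_quotient (QuotientGroup.mk' (A.subgroupOf C)) hker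
    exact hCnc (fun x hx y hy => congrArg Subtype.val (hcomm ⟨x, hx⟩ ⟨y, hy⟩))
  -- an element of `C` outside `A`
  obtain ⟨c₁, hc₁C, hc₁A⟩ : ∃ c₁ ∈ C, c₁ ∉ A := by
    by_contra hcon
    push Not at hcon
    have := Subgroup.card_le_of_le (show C ≤ A from hcon)
    omega
  have hg₀sq : g₀ ^ 2 ∈ C := Subgroup.sq_mem_of_index_two hCidx g₀
  -- an element `c` of `C` outside `A` with `[g₀, c] ∈ A`
  obtain ⟨c, hcC, hcA, hcg⟩ : ∃ c ∈ C, c ∉ A ∧ g₀ * c * g₀⁻¹ * c⁻¹ ∈ A := by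
    by_cases hd : g₀ * c₁ * g₀⁻¹ * c₁⁻¹ ∈ A
    · exact ⟨c₁, hc₁C, hc₁A, hd⟩
    · have hs : g₀ * c₁ * g₀⁻¹ ∈ C := hCn.conj_mem c₁ hc₁C g₀
      have hdC : g₀ * c₁ * g₀⁻¹ * c₁⁻¹ ∈ C := C.mul_mem hs (C.inv_mem hc₁C)
      refine ⟨_, hdC, hd, ?_⟩
      have hα : g₀ ^ 2 * c₁ * (g₀ ^ 2)⁻¹ * c₁⁻¹ ∈ A := hFa _ hg₀sq _ hc₁C
      have hw : (c₁ * (g₀ * c₁ * g₀⁻¹)⁻¹) ^ 2 ∈ A := hFb _ (C.mul_mem hc₁C (C.inv_mem hs))
      rw [pow_two] at hα hw
      have e : g₀ * (g₀ * c₁ * g₀⁻¹ * c₁⁻¹) * g₀⁻¹ * (g₀ * c₁ * g₀⁻¹ * c₁⁻¹)⁻¹ =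
          (g₀ * g₀ * c₁ * (g₀ * g₀)⁻¹ * c₁⁻¹) *
            ((c₁ * (g₀ * c₁ * g₀⁻¹)⁻¹) * (c₁ * (g₀ * c₁ * g₀⁻¹)⁻¹)) := by group
      rw [e]
      exact A.mul_mem hα hw
  -- `c ^ 2` is central
  have hc2Z : c ^ 2 ∈ Subgroup.center G := by
    apply hA2Z _ (hFb c hcC)
    rw [← pow_mul]
    exact hexp4 c
  -- `[g₀, c]` is central
  have heZ : g₀ * c * g₀⁻¹ * c⁻¹ ∈ Subgroup.center G := by
    apply hA2Z _ hcg
    obtain ⟨e, he⟩ : ∃ e : G, e = g₀ * c * g₀⁻¹ * c⁻¹ := ⟨_, rfl⟩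
    rw [← he] at hcg ⊢
    have h1 : g₀ * c * g₀⁻¹ = e * c := by rw [he]; group
    have h2 : (g₀ * c * g₀⁻¹) ^ 2 = c ^ 2 := by
      rw [conj_pow]
      have := Subgroup.mem_center_iff.mp hc2Z g₀
      rw [this]
      group
    have h3 : (e * c) ^ 2 = e ^ 2 * c ^ 2 :=
      Commute.mul_pow (show Commute e c from hAcent e hcg c hcC) 2
    rw [h1, h3] at h2
    exact mul_eq_right.mp h2
  -- commutators of `c` with `C` are central
  have hcC' : ∀ y ∈ C, c * y * c⁻¹ * y⁻¹ ∈ Subgroup.center G := by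
    intro y hy
    have hk := hFa c hcC y hy
    apply hA2Z _ hk
    obtain ⟨k, hkdef⟩ : ∃ k : G, k = c * y * c⁻¹ * y⁻¹ := ⟨_, rfl⟩
    rw [← hkdef] at hk ⊢
    have hcc : c * c ∈ Subgroup.center G := by rw [← pow_two]; exact hc2Z
    have e1 : c * c * y * (c * c)⁻¹ * y⁻¹ = c * k * c⁻¹ * k := by rw [hkdef]; group
    have e2 : c * k * c⁻¹ = k := by
      rw [← hAcent k hk c hcC]
      group
    have e3 : c * c * y * (c * c)⁻¹ * y⁻¹ = 1 := by
      rw [← Subgroup.mem_center_iff.mp hcc y]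
      group
    rw [e3, e2] at e1
    rw [pow_two]
    exact e1.symm
  -- `c ∈ U`
  have hcU : c ∈ U := by
    rw [hUmem]
    intro y
    rcases hCcases y with hy | ⟨y', hy', rfl⟩
    · exact hcC' y hy
    · have e : c * (g₀ * y') * c⁻¹ * (g₀ * y')⁻¹ =
          (g₀ * c * g₀⁻¹ * c⁻¹)⁻¹ * (g₀ * (c * y' * c⁻¹ * y'⁻¹) * g₀⁻¹) := by group
      rw [e]
      exact Subgroup.mul_mem _ (Subgroup.inv_mem _ heZ)
        (Subgroup.Normal.conj_mem inferInstance _ (hcC' y' hy') g₀)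
  -- `c` does not centralise `U`
  obtain ⟨u, huU, huc⟩ : ∃ u ∈ U, u * c ≠ c * u := by
    by_contra hcon
    push Not at hcon
    exact hcA ⟨hcU, Subgroup.mem_centralizer_iff.mpr hcon⟩
  -- `U = C` by counting
  have hUC : U ≤ C := by
    intro x hx
    rw [hC, Subgroup.mem_centralizer_iff]
    intro y hy
    have hy' := Subgroup.mem_inf.mp hy
    exact (Subgroup.mem_centralizer_iff.mp hy'.2 x hx).symm
  have hAB : A ≤ U ⊓ Subgroup.centralizer ({c} : Set G) := by
    intro x hx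
    have hx' := Subgroup.mem_inf.mp hx
    refine Subgroup.mem_inf.mpr ⟨hx'.1, Subgroup.mem_centralizer_iff.mpr ?_⟩
    intro y hy
    rw [Set.mem_singleton_iff] at hy
    rw [hy]
    exact Subgroup.mem_centralizer_iff.mp hx'.2 c hcU
  have hcB : c ∈ U ⊓ Subgroup.centralizer ({c} : Set G) := by
    refine Subgroup.mem_inf.mpr ⟨hcU, Subgroup.mem_centralizer_iff.mpr ?_⟩
    intro y hy
    rw [Set.mem_singleton_iff] at hy
    rw [hy]
  have huB : u ∉ U ⊓ Subgroup.centralizer ({c} : Set G) := by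
    intro h
    have h1 := Subgroup.mem_centralizer_iff.mp (Subgroup.mem_inf.mp h).2 c rfl
    exact huc h1.symm
  have hB8 : 8 ≤ Nat.card (U ⊓ Subgroup.centralizer ({c} : Set G) : Subgroup G) := by
    have h1 := e5s_two_le (Subgroup.card_dvd_of_le hAB) Nat.card_pos (fun h => hcA (by
      have := Subgroup.eq_of_le_of_card_ge hAB h.symm.le
      rw [this]
      exact hcB))
    omega
  have hU16 : 16 ≤ Nat.card U := by
    have h1 := e5s_two_le (Subgroup.card_dvd_of_le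
      (inf_le_left : U ⊓ Subgroup.centralizer ({c} : Set G) ≤ U)) Nat.card_pos (fun h => huB (by
      have := Subgroup.eq_of_le_of_card_ge
        (inf_le_left : U ⊓ Subgroup.centralizer ({c} : Set G) ≤ U) h.symm.le
      rw [this]
      exact huU))
    omega
  have hUeq : U = C := Subgroup.eq_of_le_of_card_ge hUC (by omega)
  -- `g₀ ∈ U`, a contradiction
  apply hg₀C
  rw [← hUeq, hUmem]
  intro y
  rcases hCcases y with hy | ⟨y', hy', rfl⟩
  · rw [← hUeq] at hy
    have h1 := (hUmem y).mp hy g₀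
    have e : g₀ * y * g₀⁻¹ * y⁻¹ = (y * g₀ * y⁻¹ * g₀⁻¹)⁻¹ := by group
    rw [e]
    exact Subgroup.inv_mem _ h1
  · rw [← hUeq] at hy'
    have h1 := (hUmem y').mp hy' g₀
    have e : g₀ * (g₀ * y') * g₀⁻¹ * (g₀ * y')⁻¹ =
        g₀ * (y' * g₀ * y'⁻¹ * g₀⁻¹)⁻¹ * g₀⁻¹ := by group
    rw [e]
    exact Subgroup.Normal.conj_mem inferInstance _ (Subgroup.inv_mem _ h1) g₀

/-- STRUCT2 -/
theorem e5_struct {G : Type*} [Group G] [Finite G] (hp : IsPGroup 2 G)
    (hexp : Monoid.exponent G = 4) (hcard : Nat.card G = 32)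
    (hZ : Nat.card (Subgroup.center G) = 2)
    (hchar : ∀ A : Subgroup G, A.Characteristic → IsMulCommutative A → IsCyclic A) (g h : G) :
    g ^ 2 ∈ Subgroup.center G ∧ g * h * g⁻¹ * h⁻¹ ∈ Subgroup.center G := by
  have hexp4 : ∀ g : G, g ^ 4 = 1 := by
    intro g
    rw [← hexp]
    exact Monoid.pow_exponent_eq_one g
  exact e5s_core hp hexp4 (e5s_AZ hexp4 hcard hZ hchar) g h

end Cfsg.Agent.Helper57
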