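import Mathlib
import Cfsg.Agent.Helper57.IcoJ2c
import Cfsg.Agent.Helper57.IcoKey

/-!
# Counting the roots and the reflections of the icosian Leech lattice (seat helper57)

`icoS_injective`: the reflections in the 315 canonical roots are distinct, so there are 315 reflections
(`ico_refl_count`).  `ico_root_count`: the lattice has `315 * 120 = 37800` roots.
-/

set_option autoImplicit false

namespace Cfsg.Agent.Helper57

open Cfsg.Spor Quaternion

theorem qrefl_self (r : Fin 3 → ℍ[ℝ]) (h4 : qip r r = 4) : qrefl r r = -r := by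
  funext t
  unfold qrefl
  rw [h4]
  have h5 : (4 : ℍ[ℝ]) = ((4 : ℝ) : ℍ[ℝ]) := by norm_cast
  rw [h5]
  show r t - ((1 / 2 : ℝ) • ((4 : ℝ) : ℍ[ℝ])) * r t = -(r t)
  have h6 : ((1 / 2 : ℝ) • ((4 : ℝ) : ℍ[ℝ])) = ((2 : ℝ) : ℍ[ℝ]) := by
    ext <;> simp
    norm_num
  have h7 : ((2 : ℝ) : ℍ[ℝ]) = 2 := by norm_cast
  rw [h6, h7]
  noncomm_ring

theorem icoEmb_eq_zero (x : IcoQ) : icoEmb x = 0 ↔ x = 0 := by
  constructor
  · intro h
    apply icoEmb_injective
    rw [h, icoEmb_zero']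
  · rintro rfl
    exact icoEmb_zero'

theorem icoRt_line_key (k k' : Fin 315) (q : ℍ[ℝ]) (hq : star q * q = 1)
    (h : ∀ t, icoRt k t = q * icoRt k' t) : k = k' := by
  apply ico_key_inj
  have hx : icoEmb (icoRho k).x = q * icoEmb (icoRho k').x := h 0
  have hy : icoEmb (icoRho k).y = q * icoEmb (icoRho k').y := h 1
  have hz : icoEmb (icoRho k).z = q * icoEmb (icoRho k').z := h 2
  have key : ∀ a b a' b' : IcoQ, icoEmb a = q * icoEmb a' → icoEmb b = q * icoEmb b' →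
      a.conj.mul b = a'.conj.mul b' := by
    intro a b a' b' ha hb
    apply icoEmb_injective
    rw [icoEmb_mul, icoEmb_mul, icoEmb_conj, icoEmb_conj, ha, hb, star_mul, mul_assoc,
      ← mul_assoc (star q), hq, one_mul]
  have hz0 : ∀ a a' : IcoQ, icoEmb a = q * icoEmb a' → (a = 0 ↔ a' = 0) := by
    intro a a' ha
    rw [← icoEmb_eq_zero a, ← icoEmb_eq_zero a', ha]
    constructor
    · intro h0
      have : star q * (q * icoEmb a') = 0 := by rw [h0, mul_zero]
      rwa [← mul_assoc, hq, one_mul] at this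
    · intro h0
      rw [h0, mul_zero]
  unfold icoKey
  rw [key _ _ _ _ hx hy, key _ _ _ _ hx hz, key _ _ _ _ hy hz,
    decide_eq_decide.2 (hz0 _ _ hx), decide_eq_decide.2 (hz0 _ _ hy)]

theorem icoS_injective : Function.Injective icoS := by
  intro k k' h
  have e1 := icoS_apply k ⟨icoRt k, icoRt_mem k⟩
  have e2 := icoS_apply k' ⟨icoRt k, icoRt_mem k⟩
  rw [h, e2] at e1
  have e3 : qrefl (icoRt k) (icoRt k) = -icoRt k := qrefl_self _ (icoRt_qip k)
  rw [e3] at e1
  -- `e1 : qrefl (icoRt k') (icoRt k) = -icoRt k`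
  have hq : ∀ t, icoRt k t = ((1 / 2 : ℝ) • ((1 / 2 : ℝ) • qip (icoRt k) (icoRt k'))) * icoRt k' t := by
    intro t
    have e4 := congrFun e1 t
    have e5 : icoRt k t - ((1 / 2 : ℝ) • qip (icoRt k) (icoRt k')) * icoRt k' t = -(icoRt k t) := e4
    have e6 : ((1 / 2 : ℝ) • qip (icoRt k) (icoRt k')) * icoRt k' t = (2 : ℝ) • icoRt k t := by
      rw [two_smul]
      have := congrArg (fun z => icoRt k t - z) e5
      simp only [sub_sub_cancel, sub_neg_eq_add] at this
      exact this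
    rw [smul_mul_assoc, e6, smul_smul]
    norm_num
  have huu := ico_unit_of_root _ _ _ (icoRt_qip k) (icoRt_qip k') hq
  exact icoRt_line_key k k' _ (Cfsg.Agent.Helper33.icoH_star_mul_self huu) hq

theorem ico_refl_count : {f : Equiv.Perm icoLeech | IsIcoReflection f}.ncard = 315 := by
  have h : {f : Equiv.Perm icoLeech | IsIcoReflection f} = Set.range icoS := by
    ext f
    constructor
    · intro hf
      obtain ⟨k, rfl⟩ := ico_refl_eq_S f hf
      exact ⟨k, rfl⟩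
    · rintro ⟨k, rfl⟩
      exact icoS_refl k
  rw [h, Set.ncard_range_of_injective icoS_injective, Nat.card_fin]

/-- The roots, from a canonical root and a unit. -/
noncomputable def icoRootOf (p : Fin 315 × IcoQ) : Fin 3 → ℍ[ℝ] := fun t => icoEmb p.2 * icoRt p.1 t

theorem ico_smul_mem {r : Fin 3 → ℍ[ℝ]} {c : ℍ[ℝ]} (hr : r ∈ icoLeech) (hc : c ∈ icosians) :
    (fun t => c * r t) ∈ icoLeech := by
  have h := Cfsg.Agent.Helper31.icoLeech_sub_mul hr hr
    (Subring.sub_mem _ (Subring.one_mem _) hc : (1 - c) ∈ icosians)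
  have e : (fun t => r t - (1 - c) * r t) = fun t => c * r t := by
    funext t
    noncomm_ring
  rwa [e] at h

theorem ico_root_set : {r : Fin 3 → ℍ[ℝ] | r ∈ icoLeech ∧ qip r r = 4} =
    icoRootOf '' ((Set.univ : Set (Fin 315)) ×ˢ {u : IcoQ | u.InL ∧ u.A = 16 ∧ u.B = 0}) := by
  ext r
  constructor
  · rintro ⟨hr, h4⟩
    obtain ⟨k, u, hu, huu, hru⟩ := icoRt_h1 r hr h4
    obtain ⟨um, huL, rfl⟩ := ico_le hu
    have hn : Quaternion.normSq (icoEmb um) = 1 := by
      have h1 := huu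
      rw [Quaternion.self_mul_star] at h1
      have h2 := congrArg (fun q : ℍ[ℝ] => q.re) h1
      simpa using h2
    rw [icoEmb_normSq] at hn
    have hAB : ((um.A - 16 : ℤ) : ℝ) + (um.B : ℤ) * Real.sqrt 5 = 0 := by
      push_cast
      linarith
    obtain ⟨hA, hB⟩ := ico_int_sqrt _ _ hAB
    refine ⟨(k, um), ⟨Set.mem_univ _, huL, sub_eq_zero.1 hA, hB⟩, ?_⟩
    funext t
    exact (hru t).symm
  · rintro ⟨⟨k, u⟩, ⟨-, huL, huA, huB⟩, rfl⟩
    refine ⟨ico_smul_mem (icoRt_mem k) (ico_mem huL), ?_⟩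
    show qip (fun t => icoEmb u * icoRt k t) (fun t => icoEmb u * icoRt k t) = 4
    rw [ico_qip_unit, Cfsg.Agent.Helper33.icoH_qip_smul_left, icoRt_qip]
    have h5 : (4 : ℍ[ℝ]) = ((4 : ℝ) : ℍ[ℝ]) := by norm_cast
    rw [h5, ← Quaternion.coe_commutes, mul_assoc, icoEmb_unit u huA huB, mul_one]

theorem icoRt_ne_zero (k : Fin 315) : ∃ t, icoRt k t ≠ 0 := by
  by_contra h
  push Not at h
  have h4 := icoRt_qip k
  have h0 : icoRt k = 0 := funext h
  rw [h0] at h4
  have h5 : (4 : ℍ[ℝ]) = ((4 : ℝ) : ℍ[ℝ]) := by norm_cast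
  rw [h5] at h4
  have h6 := congrArg (fun q : ℍ[ℝ] => q.re) h4
  simp [qip] at h6

theorem ico_rootOf_injOn : Set.InjOn icoRootOf
    ((Set.univ : Set (Fin 315)) ×ˢ {u : IcoQ | u.InL ∧ u.A = 16 ∧ u.B = 0}) := by
  rintro ⟨k, u⟩ ⟨-, huL, huA, huB⟩ ⟨k', u'⟩ ⟨-, huL', huA', huB'⟩ h
  have ht : ∀ t, icoEmb u * icoRt k t = icoEmb u' * icoRt k' t := fun t => congrFun h t
  have hu1 := icoEmb_unit u huA huB
  have hu1' := icoEmb_unit u' huA' huB'
  have hs1 : star (icoEmb u) * icoEmb u = 1 := Cfsg.Agent.Helper33.icoH_star_mul_self hu1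
  have hs1' : star (icoEmb u') * icoEmb u' = 1 := Cfsg.Agent.Helper33.icoH_star_mul_self hu1'
  have hk : k = k' := by
    apply icoRt_h2 k k' (star (icoEmb u') * icoEmb u)
      (Subring.mul_mem _ (Cfsg.Agent.Helper31.ico_star_mem (ico_mem huL')) (ico_mem huL))
    intro t
    rw [mul_assoc, ht t, ← mul_assoc, hs1', one_mul]
  subst hk
  obtain ⟨t, hne⟩ := icoRt_ne_zero k
  have hu : icoEmb u = icoEmb u' := mul_right_cancel₀ hne (ht t)
  rw [icoEmb_injective hu]

theorem ico_root_count : {r : Fin 3 → ℍ[ℝ] | r ∈ icoLeech ∧ qip r r = 4}.ncard = 37800 := by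
  rw [ico_root_set, ico_rootOf_injOn.ncard_image, Set.ncard_prod, Set.ncard_univ, Nat.card_fin,
    Cfsg.Agent.Helper73.ico_unit_count]

end Cfsg.Agent.Helper57
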