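import Mathlib
import Cfsg.Agent.Helper9.OrdTools
import Cfsg.Agent.Helper9.OrdTools2
import Cfsg.Agent.Helper78.J1oP1
import Cfsg.Agent.Helper31.J1oP2

set_option autoImplicit false

namespace Cfsg.Agent.Helper57

open Subgroup

universe u

/-- P18 of CALL S4274: the inductive step (a non-simple group of order `19 m`, `m ∣ 9240`, has a
normal Sylow 19-subgroup if all groups of order `19 m'`, `m' < m`, `m' ∣ 9240`, do). -/
theorem j1o_step (m : ℕ) (hm : m ∣ 9240)
    (IH : ∀ m' : ℕ, m' < m → m' ∣ 9240 → ∀ (K : Type u) [Group K] [Finite K],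
      Nat.card K = 19 * m' → ∀ Q : Sylow 19 K, (Q : Subgroup K).Normal)
    (H : Type u) [Group H] [Finite H] (hH : Nat.card H = 19 * m) (hns : ¬ IsSimpleGroup H) :
    ∀ P : Sylow 19 H, (P : Subgroup H).Normal := by
  intro P
  have h19 : Fact (Nat.Prime 19) := ⟨by norm_num⟩
  have hm0 : 0 < m := Nat.pos_of_dvd_of_pos hm (by norm_num)
  have h19m : ¬ 19 ∣ m := fun h => absurd (h.trans hm) (by norm_num)
  have hS : ∀ Q : Sylow 19 H, Nat.card (Q : Subgroup H) = 19 := fun Q => by
    have := Cfsg.Agent.Helper9.OrdTools.sylow_card 1 m (by rw [hH, pow_one]) h19m Q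
    rwa [pow_one] at this
  have hnt : Nontrivial H := by
    rw [← Finite.one_lt_card_iff_nontrivial, hH]
    omega
  obtain ⟨N, hNn, hNbot, hNtop⟩ : ∃ N : Subgroup H, N.Normal ∧ N ≠ ⊥ ∧ N ≠ ⊤ := by
    by_contra hcon
    push Not at hcon
    exact hns (@IsSimpleGroup.mk H _ hnt (fun N hN => by
      by_contra h
      push Not at h
      exact h.2 (hcon N hN h.1)))
  have hk1 : 1 < Nat.card N := by
    rw [Subgroup.one_lt_card_iff_ne_bot]
    exact hNbot
  have hkdvd : Nat.card N ∣ 19 * m := hH ▸ Subgroup.card_subgroup_dvd_card N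
  have hklt : Nat.card N < 19 * m := by
    rcases lt_or_eq_of_le (Nat.le_of_dvd (by omega) hkdvd) with h | h
    · exact h
    · exact absurd (Subgroup.eq_top_of_card_eq N (by rw [h, hH])) hNtop
  by_cases hd : 19 ∣ Nat.card N
  · -- the Sylow 19-subgroups lie in `N`
    obtain ⟨m1, hm1⟩ := hd
    have hm1m : m1 ∣ m := by
      rw [hm1] at hkdvd
      exact (Nat.mul_dvd_mul_iff_left (by norm_num)).mp hkdvd
    have hm1lt : m1 < m := by rw [hm1] at hklt; omega
    have hPN : (P : Subgroup H) ≤ N := by
      obtain ⟨y, hy⟩ := exists_prime_orderOf_dvd_card' (G := ↥N) 19 ⟨m1, hm1⟩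
      have hy' : orderOf (y : H) = 19 := by rw [Subgroup.orderOf_coe, hy]
      obtain ⟨P', hP'⟩ := Cfsg.Agent.Helper9.OrdTools.exists_sylow_of_orderOf hS hy'
      have hP'N : (P' : Subgroup H) ≤ N := by
        rw [← hP', Subgroup.zpowers_le]
        exact y.2
      obtain ⟨g, rfl⟩ := MulAction.exists_smul_eq H P' P
      intro x hx
      rw [Sylow.coe_subgroup_smul, Subgroup.mem_pointwise_smul_iff_inv_smul_mem] at hx
      have h1 := hP'N hx
      have h2 := hNn.conj_mem _ h1 g
      have h3 : g * ((MulAut.conj g)⁻¹ • x) * g⁻¹ = x := by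
        rw [MulAut.smul_def, ← map_inv, MulAut.conj_apply]
        group
      rwa [h3] at h2
    have := hNn
    exact Cfsg.Agent.Helper31.j1o_normal_of_le N P hPN
      (fun Q => IH m1 hm1lt (hm1m.trans hm) ↥N hm1 Q)
  · -- `19 ∤ |N|`
    have hcop : Nat.Coprime (Nat.card N) 19 :=
      (Nat.Coprime.symm ((Nat.Prime.coprime_iff_not_dvd (by norm_num)).mpr hd))
    have hkm : Nat.card N ∣ m := hcop.dvd_of_dvd_mul_left hkdvd
    obtain ⟨m2, hm2⟩ := hkm
    have hm2lt : m2 < m := by
      rw [hm2]
      have : 0 < m2 := by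
        rcases Nat.eq_zero_or_pos m2 with h | h
        · rw [h] at hm2; omega
        · exact h
      nlinarith
    have hm2dvd : m2 ∣ m := ⟨Nat.card N, by rw [hm2, mul_comm]⟩
    have := hNn
    have hq : Nat.card (H ⧸ N) = 19 * m2 := by
      have h1 := Subgroup.card_eq_card_quotient_mul_card_subgroup N
      rw [hH, hm2] at h1
      have hpos : 0 < Nat.card N := Nat.card_pos
      have : Nat.card (H ⧸ N) * Nat.card N = (19 * m2) * Nat.card N := by rw [← h1]; ring
      exact Nat.eq_of_mul_eq_mul_right hpos this
    have hsup : ((P : Subgroup H) ⊔ N).Normal :=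
      Cfsg.Agent.Helper31.j1o_sup_normal N (fun Q => IH m2 hm2lt (hm2dvd.trans hm) (H ⧸ N) hq Q) P
    have hinf : (P : Subgroup H) ⊓ N = ⊥ :=
      (Subgroup.disjoint_of_coprime_natCard (by rw [hS P]; exact hcop.symm)).eq_bot
    have hcard : Nat.card ((P : Subgroup H) ⊔ N : Subgroup H) = 19 * Nat.card N := by
      have h1 : N.relIndex ((P : Subgroup H) ⊔ N) = 19 := by
        rw [Subgroup.relIndex_sup_right, ← Subgroup.inf_relIndex_left, hinf,
          Subgroup.relIndex_bot_left, hS P]
      have h2 := Subgroup.card_mul_index (N.subgroupOf ((P : Subgroup H) ⊔ N))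
      have h3 : Nat.card (N.subgroupOf ((P : Subgroup H) ⊔ N)) = Nat.card N :=
        Nat.card_congr (Subgroup.subgroupOfEquivOfLe le_sup_right).toEquiv
      have h1' : (N.subgroupOf ((P : Subgroup H) ⊔ N)).index = 19 := h1
      rw [h3, h1'] at h2
      omega
    by_cases hkm' : Nat.card N < m
    · exact Cfsg.Agent.Helper31.j1o_normal_of_le ((P : Subgroup H) ⊔ N) P le_sup_left
        (fun Q => IH (Nat.card N) hkm' ((Dvd.intro m2 hm2.symm).trans hm) _ hcard Q)
    · have hkeq : Nat.card N = m := by
        have := Nat.le_of_dvd hm0 (Dvd.intro m2 hm2.symm : Nat.card N ∣ m)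
        omega
      have htop : (P : Subgroup H) ⊔ N = ⊤ :=
        Subgroup.eq_top_of_card_eq _ (by rw [hcard, hkeq, hH])
      have hab : ∀ a ∈ (P : Subgroup H), ∀ b ∈ (P : Subgroup H), a * b = b * a := by
        have hle := Cfsg.Agent.Helper9.OrdTools.le_centralizer_of_prime P (hS P)
        intro a ha b hb
        exact ((Subgroup.mem_centralizer_iff.mp (hle ha)) b hb).symm
      have hcent : (P : Subgroup H) ≤ Subgroup.center H := by
        intro x hx
        rw [Subgroup.mem_center_iff]
        intro g
        have hg : g ∈ (P : Subgroup H) ⊔ N := htop ▸ Subgroup.mem_top g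
        by_cases hx1 : x = 1
        · subst hx1; simp
        have hox : orderOf x = 19 := by
          have h1 : orderOf x ∣ 19 := by
            have := orderOf_dvd_natCard (⟨x, hx⟩ : (P : Subgroup H))
            rw [hS P] at this
            rwa [← Subgroup.orderOf_coe] at this
          rcases (Nat.dvd_prime (by norm_num)).mp h1 with h | h
          · exact absurd (orderOf_eq_one_iff.mp h) hx1
          · exact h
        have hcN := Cfsg.Agent.Helper78.j1o_centralize N (by rw [hkeq]; exact hm) x hox
        have hmem : g ∈ Subgroup.centralizer ({x} : Set H) := by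
          have hle : (P : Subgroup H) ⊔ N ≤ Subgroup.centralizer ({x} : Set H) := by
            rw [sup_le_iff]
            constructor
            · intro a ha
              rw [Subgroup.mem_centralizer_iff]
              intro y hy
              rw [Set.mem_singleton_iff] at hy
              subst hy
              exact hab y hx a ha
            · intro a ha
              rw [Subgroup.mem_centralizer_iff]
              intro y hy
              rw [Set.mem_singleton_iff] at hy
              subst hy
              exact hcN a ha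
          exact hle hg
        rw [Subgroup.mem_centralizer_iff] at hmem
        exact (hmem x rfl).symm
      exact ⟨fun x hx g => by
        have := Subgroup.mem_center_iff.mp (hcent hx) g
        rw [this, mul_inv_cancel_right]
        exact hx⟩

end Cfsg.Agent.Helper57
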