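import Mathlib
import Cfsg.Agent.Helper57.J1oDefs
import Cfsg.Agent.Helper57.J1oStep
import Cfsg.Agent.Helper83.J1oP8
import Cfsg.Agent.Helper76.J1oP9
import Cfsg.Agent.Helper83.J1oP10
import Cfsg.Agent.Helper83.J1oP11
import Cfsg.Agent.Helper55.J1oP12
import Cfsg.Agent.Helper31.J1oP13
import Cfsg.Agent.Helper29.J1oP14
import Cfsg.Agent.Helper29.J1oP15
import Cfsg.Agent.Helper31.J1oP16
import Cfsg.Agent.Helper4.J1oP17

set_option autoImplicit false

namespace Cfsg.Agent.Helper57

open Subgroup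

universe u

/-- a simple group of order `19 m`, `m` a proper divisor of `9240`, is cyclic of order 19. -/
theorem j1o_lemmaD (m : ℕ) (hm : m ∣ 9240) (hlt : m < 9240) (H : Type u) [Group H] [Finite H]
    [IsSimpleGroup H] (hH : Nat.card H = 19 * m) : m = 1 := by
  by_contra hm1
  rcases Cfsg.Agent.Helper4.j1o_simple_card Cfsg.Agent.Helper83.j1o_syl_data m hm hH hm1 with h | h | h | h | h | h | h | h | h | h | h | h | h | h | h
  · exact Cfsg.Agent.Helper76.j1o_no_simple_760 Cfsg.Agent.Helper83.j1o_syl_data (H := H) (by rw [hH, h])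
  · exact Cfsg.Agent.Helper76.j1o_no_simple_1140 Cfsg.Agent.Helper83.j1o_syl_data (H := H) (by rw [hH, h])
  · exact Cfsg.Agent.Helper76.j1o_no_simple_2280 Cfsg.Agent.Helper83.j1o_syl_data (H := H) (by rw [hH, h])
  · exact Cfsg.Agent.Helper76.j1o_no_simple_2926 Cfsg.Agent.Helper83.j1o_syl_data (H := H) (by rw [hH, h])
  · exact Cfsg.Agent.Helper76.j1o_no_simple_4389 Cfsg.Agent.Helper83.j1o_syl_data (H := H) (by rw [hH, h])
  · exact Cfsg.Agent.Helper83.j1o_no_simple_5852 Cfsg.Agent.Helper83.j1o_syl_data (H := H) (by rw [hH, h])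
  · exact Cfsg.Agent.Helper83.j1o_no_simple_8778 Cfsg.Agent.Helper83.j1o_syl_data (H := H) (by rw [hH, h])
  · exact Cfsg.Agent.Helper83.j1o_no_simple_11704 Cfsg.Agent.Helper83.j1o_syl_data (H := H) (by rw [hH, h])
  · exact Cfsg.Agent.Helper83.j1o_no_simple_17556 Cfsg.Agent.Helper83.j1o_syl_data (H := H) (by rw [hH, h])
  · exact Cfsg.Agent.Helper55.j1o_no_simple_35112 Cfsg.Agent.Helper83.j1o_syl_data (H := H) (by rw [hH, h])
  · exact Cfsg.Agent.Helper31.j1o_no_simple_7980 Cfsg.Agent.Helper83.j1o_syl_data (H := H) (by rw [hH, h])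
  · exact Cfsg.Agent.Helper29.j1o_no_simple_15960 Cfsg.Agent.Helper83.j1o_syl_data (H := H) (by rw [hH, h])
  · exact Cfsg.Agent.Helper29.j1o_no_simple_87780 Cfsg.Agent.Helper83.j1o_syl_data (H := H) (by rw [hH, h])
  · exact Cfsg.Agent.Helper31.j1o_no_simple_58520 Cfsg.Agent.Helper83.j1o_syl_data (H := H) (by rw [hH, h])
  · omega

/-- a group of order `19 m`, `m` a proper divisor of `9240`, has a normal Sylow 19-subgroup. -/
theorem j1o_ns19 : ∀ m : ℕ, m ∣ 9240 → m < 9240 → ∀ (H : Type u) [Group H] [Finite H],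
    Nat.card H = 19 * m → ∀ P : Sylow 19 H, (P : Subgroup H).Normal := by
  intro m
  induction m using Nat.strong_induction_on with
  | _ m ih =>
    intro hm hlt H _ _ hH P
    by_cases hs : IsSimpleGroup H
    · have h1 := j1o_lemmaD m hm hlt H hH
      subst h1
      have : Fact (Nat.Prime 19) := ⟨by norm_num⟩
      have hP : Nat.card (P : Subgroup H) = 19 := by
        have := Sylow.card_eq_multiplicity P
        rw [this, hH, mul_one, Nat.Prime.factorization_self (by norm_num), pow_one]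
      have htop : (P : Subgroup H) = ⊤ := by
        apply Subgroup.eq_top_of_card_eq
        rw [hP, hH]
      rw [htop]
      infer_instance
    · exact j1o_step m hm (fun m' hm' hd K _ _ hK Q => ih m' hm' hd (by omega) K hK Q) H hH hs P

/-- S4274: a group of order 175560 is simple or has a normal Sylow 19-subgroup. -/
theorem j1o_main {G : Type u} [Group G] [Finite G] (hG : Nat.card G = 175560) :
    IsSimpleGroup G ∨ ∀ P : Sylow 19 G, (P : Subgroup G).Normal := by
  by_cases hs : IsSimpleGroup G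
  · exact Or.inl hs
  · right
    exact j1o_step 9240 (dvd_refl _) (fun m' hm' hd K _ _ hK Q => j1o_ns19 m' hd hm' K hK Q) G
      (by rw [hG]) hs

end Cfsg.Agent.Helper57
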