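import Mathlib
import Cfsg.Agent.Helper57.J2CentA
import Cfsg.Agent.Helper57.SpCongr
import Cfsg.Agent.Helper29.SympType
import Cfsg.Agent.S3799

/-!
# The centraliser of a central involution of the Hall-Janko group on 100 points (seat helper57)

With the tables of seat helper86 (`Helper86/J2FGrp`): the centraliser `jfCC` of the involution `jfA 0`
has the normal subgroup `jfQQ` of order 32, which is extraspecial, and the quotient is the alternating
group on the five orbits of length 16 of `jfQQ` (`jc_struct`).  `jc_transport` carries such a statement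
along an isomorphism, `jc_cent_mulEquiv` carries centralisers.
-/

set_option autoImplicit false

namespace Cfsg.Agent.Helper57

open Cfsg Cfsg.Agent.Helper86 Cfsg.Agent.S0423 Equiv

/-- The five orbits of length 16. -/
def jcV (s : Fin 5) : Set (Fin 100) := {x | (jcBlk x).val = s.val}

theorem jc_img (j : Fin 8) (s : Fin 5) : (jfGC j) '' jcV s = jcV (jcP j s) := by
  ext y
  constructor
  · rintro ⟨x, hx, rfl⟩
    exact jc_t1 j x s hx
  · intro hy
    refine ⟨jfGC j y, ?_, ?_⟩
    · have h := jc_t1 j y (jcPT j s) hy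
      rw [jc_t2] at h
      exact h
    · exact jf_gc_invol j y

theorem jcP_inv (j : Fin 8) : (jcP j)⁻¹ = jcP j := rfl

theorem jc_word_img (w : List (Fin 8 × Bool)) (s : Fin 5) :
    (pcWord jfGC w) '' jcV s = jcV (pcWord jcP w s) := by
  induction w generalizing s with
  | nil =>
    show (1 : Perm (Fin 100)) '' jcV s = jcV ((1 : Perm (Fin 5)) s)
    simp
  | cons a w ih =>
    obtain ⟨j, b⟩ := a
    cases b
    · show (jfGC j * pcWord jfGC w) '' jcV s = jcV ((jcP j * pcWord jcP w) s)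
      rw [Equiv.Perm.coe_mul, Set.image_comp, ih, jc_img]
      rfl
    · show ((jfGC j)⁻¹ * pcWord jfGC w) '' jcV s = jcV (((jcP j)⁻¹ * pcWord jcP w) s)
      rw [jfGC_inv, jcP_inv, Equiv.Perm.coe_mul, Set.image_comp, ih, jc_img]
      rfl

/-- The action of the centraliser on the five orbits. -/
theorem jc_hom : ∃ θ : ↥jfCC →* alternatingGroup (Fin 5),
    ∀ (h : ↥jfCC) (a : alternatingGroup (Fin 5)),
      θ h = a ↔ ∀ s, (h.1 : Perm (Fin 100)) '' jcV s = jcV (a.1 s) := by
  unfold jfCC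
  apply hom_of_equivariant_family (M := Perm (Fin 100)) (A := alternatingGroup (Fin 5))
    (fun m W => (m : Fin 100 → Fin 100) '' W) (fun W => by simp)
    (fun m m' W => by rw [Equiv.Perm.coe_mul, Set.image_comp])
    (fun a s => a.1 s) (fun s => rfl) (fun a a' s => rfl) jcV
  · intro a ha
    apply Subtype.ext
    apply Equiv.ext
    intro s
    have h1 : jcRep s ∈ jcV (a.1 s) := by
      rw [ha s]
      exact jc_t3 s
    have h2 : (jcBlk (jcRep s)).val = s.val := jc_t3 s
    have h3 : (jcBlk (jcRep s)).val = (a.1 s).val := h1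
    exact Fin.ext (by rw [← h3, h2]; rfl)
  · rintro _ ⟨j, rfl⟩
    exact ⟨⟨jcP j, Equiv.Perm.mem_alternatingGroup.2 (jc_sign j)⟩, fun s => jc_img j s⟩

theorem jc_Q_img {q : Perm (Fin 100)} (hq : q ∈ jfQQ) (s : Fin 5) : q '' jcV s = jcV s := by
  unfold jfQQ at hq
  induction hq using Subgroup.closure_induction with
  | mem y hy =>
    obtain ⟨l, hl, rfl⟩ := hy
    have h := jc_img l.castSucc s
    rw [jcP_apply, jc_t4 l.castSucc (by simpa using hl)] at h
    exact h
  | one => simp
  | mul y z _ _ hy hz => rw [Equiv.Perm.coe_mul, Set.image_comp, hz, hy]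
  | inv y _ hy =>
    conv_lhs => rw [← hy]
    rw [← Set.image_comp]
    simp

theorem jc_Q_list {q : Perm (Fin 100)} (hq : q ∈ jfQQ) : ∃ e : Fin 128, e.val < 32 ∧ q = jfN e := by
  have key : ∀ e : Fin 128, e.val < 32 → ∃ e' : Fin 128, e'.val < 32 ∧ q * jfN e = jfN e' := by
    unfold jfQQ at hq
    induction hq using Subgroup.closure_induction with
    | mem y hy =>
      obtain ⟨l, hl, rfl⟩ := hy
      intro e he
      exact ⟨jfMul l e, jc_t5 l e hl he, jfA_mul_N l e⟩
    | one =>
      intro e he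
      exact ⟨e, he, one_mul _⟩
    | mul y z _ _ hy hz =>
      intro e he
      obtain ⟨e1, he1, h1⟩ := hz e he
      obtain ⟨e2, he2, h2⟩ := hy e1 he1
      exact ⟨e2, he2, by rw [mul_assoc, h1, h2]⟩
    | inv y _ hy =>
      intro e he
      have hpow : ∀ m : ℕ, ∃ e' : Fin 128, e'.val < 32 ∧ y ^ m * jfN e = jfN e' := by
        intro m
        induction m with
        | zero => exact ⟨e, he, by rw [pow_zero, one_mul]⟩
        | succ m ih =>
          obtain ⟨e1, he1, h1⟩ := ih
          obtain ⟨e2, he2, h2⟩ := hy e1 he1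
          exact ⟨e2, he2, by rw [pow_succ', mul_assoc, h1, h2]⟩
      have hinv : y⁻¹ = y ^ (orderOf y - 1) := by
        apply inv_eq_of_mul_eq_one_right
        rw [← pow_succ', Nat.sub_add_cancel (orderOf_pos y), pow_orderOf_eq_one]
      rw [hinv]
      exact hpow _
  obtain ⟨e', he', h⟩ := key 0 (by decide)
  rw [jfN_zero, mul_one] at h
  exact ⟨e', he', h⟩

theorem jc_N_inj {e e' : Fin 128} (he : e.val < 32) (he' : e'.val < 32) (h : jfN e = jfN e') :
    e = e' := by
  apply jc_t6 e e' he he'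
  intro b
  rw [← jfN_apply, ← jfN_apply, h]

theorem jc_card_Q : Nat.card ↥jfQQ = 32 := by
  have h32 : (32 : ℕ) ≤ 128 := by norm_num
  have hlt : ∀ i : Fin 32, (Fin.castLE h32 i).val < 32 := fun i => i.isLt
  have hbij : Function.Bijective (fun i : Fin 32 =>
      (⟨jfN (Fin.castLE h32 i), jfN_mem_Q _ (hlt i)⟩ : ↥jfQQ)) := by
    constructor
    · intro i i' h
      have h0 : jfN (Fin.castLE h32 i) = jfN (Fin.castLE h32 i') := congrArg Subtype.val h
      have h1 := jc_N_inj (hlt i) (hlt i') h0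
      exact Fin.castLE_injective _ h1
    · intro q
      obtain ⟨e, he, hq⟩ := jc_Q_list q.2
      exact ⟨⟨e.val, he⟩, Subtype.ext (by rw [hq]; rfl)⟩
  rw [← Nat.card_eq_of_bijective _ hbij, Nat.card_eq_fintype_card, Fintype.card_fin]

theorem jc_N_comm {a b : Fin 128} (ha : a.val < 32) (hb : b.val < 32) :
    jfN a * jfN b = jfN b * jfN a ∨ jfN a * jfN b = jfA 0 * (jfN b * jfN a) := by
  rcases jc_t7 a b ha hb with h | h
  · left
    apply jf_eq_of_base (K0.mul_mem (jfN_memK a) (jfN_memK b))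
      (K0.mul_mem (jfN_memK b) (jfN_memK a))
    intro β
    simp only [Equiv.Perm.mul_apply, jfN_apply]
    exact h β
  · right
    apply jf_eq_of_base (K0.mul_mem (jfN_memK a) (jfN_memK b))
      (K0.mul_mem (jfS0_leK (jfA_mem 0)) (K0.mul_mem (jfN_memK b) (jfN_memK a)))
    intro β
    simp only [Equiv.Perm.mul_apply, jfN_apply, jfA_apply]
    exact h β

theorem jc_N_sq {a : Fin 128} (ha : a.val < 32) : jfN a * jfN a = 1 ∨ jfN a * jfN a = jfA 0 := by
  rcases jc_t8 a ha with h | h
  · left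
    apply jf_eq_of_base (K0.mul_mem (jfN_memK a) (jfN_memK a)) K0.one_mem
    intro β
    simp only [Equiv.Perm.mul_apply, jfN_apply, Equiv.Perm.one_apply]
    exact h β
  · right
    apply jf_eq_of_base (K0.mul_mem (jfN_memK a) (jfN_memK a)) (jfS0_leK (jfA_mem 0))
    intro β
    simp only [Equiv.Perm.mul_apply, jfN_apply, jfA_apply]
    exact h β

theorem jc_N_central {a : Fin 128} (ha : a.val < 32)
    (h : ∀ l : Fin 7, l.val < 5 → jfN a * jfA l = jfA l * jfN a) : a.val < 2 := by
  apply jc_t9 a ha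
  intro l hl β
  have h1 := congrArg (fun f : Perm (Fin 100) => f (jfBase β)) (h l hl)
  simp only [Equiv.Perm.mul_apply, jfN_apply, jfA_apply] at h1
  exact h1

/-- The normal subgroup of order 32 is extraspecial. -/
theorem jc_extraspecial : IsExtraspecial 2 ↥jfQQ := by
  have : Fact (Nat.Prime 2) := ⟨Nat.prime_two⟩
  have hZ : jfA 0 ∈ jfQQ := Subgroup.subset_closure ⟨0, by decide, rfl⟩
  apply Cfsg.Agent.Helper29.isExtraspecial_of_elementwise (IsPGroup.of_card (n := 5) jc_card_Q)
    (⟨jfA 0, hZ⟩ : ↥jfQQ)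
  · intro h
    exact jfZ_ne_one (congrArg Subtype.val h)
  · apply Subtype.ext
    show jfA 0 ^ 2 = 1
    rw [pow_two]
    exact jfGC_sq _
  · intro x y
    obtain ⟨a, ha, hxa⟩ := jc_Q_list x.2
    obtain ⟨b, hb, hyb⟩ := jc_Q_list y.2
    rcases jc_N_comm ha hb with h | h
    · have h1 : x * y * x⁻¹ * y⁻¹ = 1 := by
        apply Subtype.ext
        show x.1 * y.1 * x.1⁻¹ * y.1⁻¹ = 1
        rw [hxa, hyb, h]
        group
      rw [h1]
      exact Subgroup.one_mem _
    · have h1 : x * y * x⁻¹ * y⁻¹ = ⟨jfA 0, hZ⟩ := by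
        apply Subtype.ext
        show x.1 * y.1 * x.1⁻¹ * y.1⁻¹ = jfA 0
        rw [hxa, hyb, h]
        group
      rw [h1]
      exact Subgroup.mem_zpowers _
  · intro x
    obtain ⟨a, ha, hxa⟩ := jc_Q_list x.2
    rcases jc_N_sq ha with h | h
    · have h1 : x ^ 2 = 1 := by
        apply Subtype.ext
        show x.1 ^ 2 = 1
        rw [pow_two, hxa, h]
      rw [h1]
      exact Subgroup.one_mem _
    · have h1 : x ^ 2 = ⟨jfA 0, hZ⟩ := by
        apply Subtype.ext
        show x.1 ^ 2 = jfA 0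
        rw [pow_two, hxa, h]
      rw [h1]
      exact Subgroup.mem_zpowers _
  · intro c hc
    obtain ⟨a, ha, hca⟩ := jc_Q_list c.2
    have h2 : a.val < 2 := by
      apply jc_N_central ha
      intro l hl
      have hl' : jfA l ∈ jfQQ := Subgroup.subset_closure ⟨l, hl, rfl⟩
      have h3 := congrArg Subtype.val (hc ⟨jfA l, hl'⟩)
      rw [← hca]
      exact h3
    have h4 : a = 0 ∨ a = 1 := by
      rcases Nat.lt_or_ge a.val 1 with h | h
      · left
        exact Fin.ext (by omega)
      · right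
        exact Fin.ext (by show a.val = 1; omega)
    rcases h4 with rfl | rfl
    · have h5 : c = 1 := Subtype.ext (by rw [hca, jfN_zero]; rfl)
      rw [h5]
      exact Subgroup.one_mem _
    · have h5 : c = ⟨jfA 0, hZ⟩ := Subtype.ext (by rw [hca, jfN_one])
      rw [h5]
      exact Subgroup.mem_zpowers _
  · intro y
    apply Subtype.ext
    show jfA 0 * y.1 = y.1 * jfA 0
    exact (jfCC_comm_Z (jfS0_le (jfQQ_le y.2))).symm
  · refine ⟨⟨jfA 1, Subgroup.subset_closure ⟨1, by decide, rfl⟩⟩,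
      ⟨jfA 2, Subgroup.subset_closure ⟨2, by decide, rfl⟩⟩, ?_⟩
    intro h
    have h1 := congrArg (fun f : ↥jfQQ => (f : Perm (Fin 100)) 0) h
    simp only [Subgroup.coe_mul, Equiv.Perm.mul_apply, jfA_apply] at h1
    exact jc_t10 h1

theorem jc_card_CC_le : Nat.card ↥jfCC ≤ 1920 := by
  have hs : Function.Surjective (fun p : Fin 15 × Fin 128 =>
      (⟨jfT p.1 * jfN p.2, jfCC.mul_mem (jfT_mem _) (jfS0_le (jfN_mem _))⟩ : ↥jfCC)) := by
    intro c
    obtain ⟨i, e, h⟩ := jfCC_cover c.2
    exact ⟨(i, e), Subtype.ext h.symm⟩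
  have h := Nat.card_le_card_of_surjective _ hs
  have h15 : Nat.card (Fin 15) = 15 := by simp
  have h128 : Nat.card (Fin 128) = 128 := by simp
  rw [Nat.card_prod, h15, h128] at h
  exact h

/-- The centraliser of the central involution `jfA 0`: an extraspecial normal subgroup of order 32
with quotient the alternating group of degree 5. -/
theorem jc_struct : ∃ (Q : Subgroup ↥jfCC) (_ : Q.Normal), Nat.card Q = 32 ∧ IsExtraspecial 2 Q ∧
    Nonempty (↥jfCC ⧸ Q ≃* alternatingGroup (Fin 5)) := by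
  obtain ⟨θ, hθ⟩ := jc_hom
  have hsurj : Function.Surjective θ := by
    intro a
    obtain ⟨w, -, hw⟩ := jc_words a.1 (Equiv.Perm.mem_alternatingGroup.1 a.2)
    refine ⟨⟨pcWord jfGC w, pcWord_mem jfGC w⟩, ?_⟩
    rw [hθ]
    intro s
    rw [jc_word_img, hw]
  have hQC : jfQQ ≤ jfCC := jfQQ_le.trans jfS0_le
  have hle : jfQQ.subgroupOf jfCC ≤ θ.ker := by
    intro c hc
    rw [Subgroup.mem_subgroupOf] at hc
    rw [MonoidHom.mem_ker, hθ]
    intro s
    exact jc_Q_img hc s
  have hcardQ : Nat.card (jfQQ.subgroupOf jfCC) = 32 := by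
    rw [Nat.card_congr (Subgroup.subgroupOfEquivOfLe hQC).toEquiv]
    exact jc_card_Q
  have hker : Nat.card θ.ker ≤ 32 := by
    have h1 : Nat.card θ.ker * θ.ker.index = Nat.card ↥jfCC := Subgroup.card_mul_index _
    have h2 : θ.ker.index = 60 := by
      rw [Subgroup.index_ker, MonoidHom.range_eq_top.2 hsurj, Subgroup.card_top,
        nat_card_alternatingGroup, Nat.card_eq_fintype_card, Fintype.card_fin]
      rfl
    have h3 := jc_card_CC_le
    rw [h2] at h1
    omega
  have heq : jfQQ.subgroupOf jfCC = θ.ker :=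
    Subgroup.eq_of_le_of_card_ge hle (by rw [hcardQ]; exact hker)
  refine ⟨θ.ker, inferInstance, ?_, ?_, ?_⟩
  · rw [← heq]
    exact hcardQ
  · rw [← heq]
    exact Cfsg.Agent.S3799.isExtraspecial_of_mulEquiv (Subgroup.subgroupOfEquivOfLe hQC).symm
      jc_extraspecial
  · exact ⟨QuotientGroup.quotientKerEquivOfSurjective θ hsurj⟩

/-- Transport of the structure statement along an isomorphism. -/
theorem jc_transport {C C' : Type*} [Group C] [Group C'] (ε : C ≃* C')
    (h : ∃ (Q : Subgroup C') (_ : Q.Normal), Nat.card Q = 32 ∧ IsExtraspecial 2 Q ∧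
      Nonempty (C' ⧸ Q ≃* alternatingGroup (Fin 5))) :
    ∃ (Q : Subgroup C) (_ : Q.Normal), Nat.card Q = 32 ∧ IsExtraspecial 2 Q ∧
      Nonempty (C ⧸ Q ≃* alternatingGroup (Fin 5)) := by
  obtain ⟨Q', hN, hcard, hex, ⟨φ⟩⟩ := h
  have hmap : (Q'.comap ε.toMonoidHom).map ε.toMonoidHom = Q' :=
    Subgroup.map_comap_eq_self_of_surjective ε.surjective Q'
  have hNQ : (Q'.comap ε.toMonoidHom).Normal := hN.comap _
  let eQ : ↥(Q'.comap ε.toMonoidHom) ≃* ↥Q' :=
    (ε.subgroupMap (Q'.comap ε.toMonoidHom)).trans (MulEquiv.subgroupCongr hmap)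
  refine ⟨Q'.comap ε.toMonoidHom, hNQ, ?_, ?_, ?_⟩
  · rw [Nat.card_congr eQ.toEquiv]
    exact hcard
  · exact Cfsg.Agent.S3799.isExtraspecial_of_mulEquiv eQ.symm hex
  · exact ⟨(QuotientGroup.congr (Q'.comap ε.toMonoidHom) Q' ε hmap).trans φ⟩

/-- An isomorphism carries centralisers to centralisers. -/
theorem jc_cent_mulEquiv {G H : Type*} [Group G] [Group H] (e : G ≃* H) (x : G) (y : H)
    (hy : e x = y) :
    Nonempty (↥(Subgroup.centralizer ({x} : Set G)) ≃* ↥(Subgroup.centralizer ({y} : Set H))) := by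
  subst hy
  refine ⟨{ toFun := fun c => ⟨e c.1, ?_⟩, invFun := fun c => ⟨e.symm c.1, ?_⟩,
            left_inv := fun c => Subtype.ext (e.symm_apply_apply _),
            right_inv := fun c => Subtype.ext (e.apply_symm_apply _),
            map_mul' := fun a b => Subtype.ext (map_mul e _ _) }⟩
  · rw [Subgroup.mem_centralizer_iff]
    rintro _ rfl
    rw [← map_mul, ← map_mul, Subgroup.mem_centralizer_iff.1 c.2 x rfl]
  · rw [Subgroup.mem_centralizer_iff]
    intro h hh
    have hh' : h = x := hh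
    rw [hh']
    apply e.injective
    rw [map_mul, map_mul, e.apply_symm_apply]
    exact Subgroup.mem_centralizer_iff.1 c.2 (e x) rfl

/-- The centraliser of the central involution in the group on 100 points is `jfCC`. -/
theorem jc_cent_K0 : Nonempty (↥(Subgroup.centralizer
    ({(⟨jfA 0, jfS0_leK (jfA_mem 0)⟩ : ↥K0)} : Set ↥K0)) ≃* ↥jfCC) := by
  refine ⟨{ toFun := fun c => ⟨c.1.1, jf_cent_Z c.1.2 ?_⟩,
            invFun := fun c => ⟨⟨c.1, jfCC_le c.2⟩, ?_⟩,
            left_inv := fun c => rfl, right_inv := fun c => rfl, map_mul' := fun a b => rfl }⟩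
  · have h := Subgroup.mem_centralizer_iff.1 c.2 _ rfl
    exact (congrArg Subtype.val h).symm
  · rw [Subgroup.mem_centralizer_iff]
    rintro _ rfl
    exact Subtype.ext (jfCC_comm_Z c.2).symm

theorem jc_conj : pcWord j2G0 jcWc * pcWord j2G0 (lnWpi 0) * (pcWord j2G0 jcWc)⁻¹ = jfA 0 := by
  rw [mul_inv_eq_iff_eq_mul]
  apply Equiv.ext
  intro x
  simp only [Equiv.Perm.mul_apply, pcWord_apply j2G0 j2GT0 j2GI0 j2_g0_apply j2_gt_gi0, jfA_apply]
  exact jc_t11 x

end Cfsg.Agent.Helper57
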