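import Mathlib
import Cfsg.Agent.S0423
import Cfsg.Agent.S1057
import Cfsg.Agent.Helper57.SpCongr

/-!
# The point stabiliser of the Hall-Janko group on 100 points is `SU(3, 3)` (seat helper57)

The stabiliser `K1` of the point `0` (order 6048) acts on its orbit of length 63 as the special unitary
group of degree 3 over the field with nine elements acts on the 63 points spanned by the vectors of
non-zero norm: `u3Jm` is the matching of the points (with the tables `g2Idx`, `g2C1`, `g2C2` of
`Helper57/G2Data`), and `u3W` gives elements of `K1` acting as the two unitary matrices `g2A1`, `g2A2`.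
`u3_iso : K1 ≃* SU(3, 3)`; `u3_main`: the stabiliser of a point has index 100 and orbits of lengths 36
and 63 on its cosets.
-/

set_option autoImplicit false

namespace Cfsg.Agent.Helper57

open Cfsg Cfsg.Agent.S0423 Cfsg.Agent.S1057 Equiv

/-- The matching of the 63 points of the unitary plane with the orbit of length 63, packed. -/
def u3JmN : ℕ :=
  0x7f8e8d59aed3ae7ca2fafa55204bbb321da6d660a995896bca74165654f704e8926c5c8ae55ba9e99ab262d19a58f1b0d76f6ef4884e1800

/-- The matching of the 63 points of the unitary plane with the orbit of length 63 (`0` to `0`). -/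
def u3Jm (p : Fin 64) : Fin 100 := Fin.ofNat 100 (j2Ent u3JmN p.val)

/-- Words in the generators of the stabiliser for the two unitary matrices. -/
def u3W : Fin 2 → List (Fin 2 × Bool) :=
  ![[(1, false), (0, false), (1, true), (1, true), (0, true), (1, true), (1, true), (1, true)],
    [(0, false), (1, false), (0, true), (1, false), (0, false)]]

theorem u3_act : ∀ p : Fin 64,
    pcWordAct j2GT1 j2GI1 (u3W 0) (u3Jm p) = u3Jm (g2C1 p) ∧
    pcWordAct j2GT1 j2GI1 (u3W 1) (u3Jm p) = u3Jm (g2C2 p) := by decide +kernel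

theorem u3_jm_inj : ∀ p q : Fin 64, u3Jm p = u3Jm q → p = q := by decide +kernel

theorem u3_orb_inv : ∀ (j : Fin 2) (p : Fin 100), j2Orb (j2GT1 j p) = j2Orb p := by decide +kernel

set_option maxRecDepth 100000 in
theorem u3_card36 : (Finset.univ.filter (fun p : Fin 100 => j2Orb p = 1)).card = 36 := by
  decide +kernel

set_option maxRecDepth 100000 in
theorem u3_card63 : (Finset.univ.filter (fun p : Fin 100 => j2Orb p = 2)).card = 63 := by
  decide +kernel

theorem u3_orb1 : j2Orb 1 = 1 ∧ j2Orb 37 = 2 := by decide +kernel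

/-- The two elements of the stabiliser acting as the two unitary matrices. -/
def u3C (i : Fin 2) : Perm (Fin 100) := pcWord j2G1 (u3W i)

theorem u3C_mem (i : Fin 2) : u3C i ∈ K1 := pcWord_mem j2G1 (u3W i)

/-- The point of the orbit of length 63 given by a vector of non-zero norm (`0` for the others). -/
def u3V (s : S9) : Fin 100 := u3Jm (g2Idx s)

theorem u3C_fam0 (s : S9) : u3C 0 (u3V s) = u3V (tau a1 s) := by
  unfold u3C u3V
  rw [pcWord_apply j2G1 j2GT1 j2GI1 j2_g1_apply j2_gt_gi1, (u3_act _).1, tau_a1, idx_a1]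

theorem u3C_fam1 (s : S9) : u3C 1 (u3V s) = u3V (tau a2 s) := by
  unfold u3C u3V
  rw [pcWord_apply j2G1 j2GT1 j2GI1 j2_g1_apply j2_gt_gi1, (u3_act _).2, tau_a2, idx_a2]

theorem u3_hom : ∃ θ : ↥(Subgroup.closure (Set.range u3C)) →* A9,
    ∀ (h : ↥(Subgroup.closure (Set.range u3C))) (a : A9),
      θ h = a ↔ ∀ s, (h.1 : Perm (Fin 100)) (u3V s) = u3V (tau a s) := by
  apply hom_of_equivariant_family (M := Perm (Fin 100)) (A := A9) (fun m x => m x)
    (fun w => rfl) (fun m m' w => rfl) tau tau_one tau_mul u3V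
  · intro a ha
    apply hA
    intro s
    show g2Tbl (g2Idx (tau a s)) = g2Tbl (g2Idx s)
    rw [u3_jm_inj _ _ (ha s)]
  · rintro _ ⟨i, rfl⟩
    fin_cases i
    · exact ⟨a1, u3C_fam0⟩
    · exact ⟨a2, u3C_fam1⟩

/-- The stabiliser of a point is the special unitary group of degree 3 over the field with nine
elements. -/
theorem u3_iso : Nonempty (↥K1 ≃* A9) := by
  obtain ⟨θ, hθ⟩ := u3_hom
  have hle : Subgroup.closure (Set.range u3C) ≤ K1 := by
    rw [Subgroup.closure_le]
    rintro _ ⟨i, rfl⟩
    exact u3C_mem i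
  have hsurj : Function.Surjective θ := by
    rw [← MonoidHom.range_eq_top, eq_top_iff, ← closure_a_eq_top, Subgroup.closure_le]
    intro a ha
    rcases ha with rfl | rfl
    · exact ⟨⟨u3C 0, Subgroup.subset_closure ⟨0, rfl⟩⟩, (hθ _ _).2 u3C_fam0⟩
    · exact ⟨⟨u3C 1, Subgroup.subset_closure ⟨1, rfl⟩⟩, (hθ _ _).2 u3C_fam1⟩
  have hcA : Nat.card A9 = 6048 := card_su33 card_K9
  have hcK : Nat.card ↥K1 = 6048 := step1.1
  have h1 : Nat.card A9 ≤ Nat.card ↥(Subgroup.closure (Set.range u3C)) :=
    Nat.card_le_card_of_surjective θ hsurj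
  have h2 : Nat.card ↥(Subgroup.closure (Set.range u3C)) ≤ Nat.card ↥K1 :=
    Subgroup.card_le_of_le hle
  have heq : Subgroup.closure (Set.range u3C) = K1 :=
    Subgroup.eq_of_le_of_card_ge hle (by omega)
  have hbij : Function.Bijective θ := by
    rw [Nat.bijective_iff_surjective_and_card]
    exact ⟨hsurj, by omega⟩
  exact ⟨(MulEquiv.subgroupCongr heq).symm.trans (MulEquiv.ofBijective θ hbij)⟩

/-- The stabiliser of the point `0` is `K1`. -/
theorem u3_stab {σ : Perm (Fin 100)} (hσ : σ ∈ K0) (h0 : σ 0 = 0) : σ ∈ K1 := by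
  have hst : K1.subgroupOf K0 ≤ MulAction.stabilizer ↥K0 (0 : Fin 100) := by
    intro k hk
    rw [MulAction.mem_stabilizer_iff]
    exact K1_fix k.1 (Subgroup.mem_subgroupOf.1 hk)
  have hidx : (MulAction.stabilizer ↥K0 (0 : Fin 100)).index = 100 := by
    rw [MulAction.index_stabilizer_of_transitive]
    simp
  have hc := Subgroup.card_mul_index (MulAction.stabilizer ↥K0 (0 : Fin 100))
  rw [hidx, step0.1] at hc
  have hc1 : Nat.card (K1.subgroupOf K0) = 6048 := by
    rw [Nat.card_congr (Subgroup.subgroupOfEquivOfLe K1_le).toEquiv]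
    exact step1.1
  have heq := Subgroup.eq_of_le_of_card_ge hst (by omega)
  have hmem : (⟨σ, hσ⟩ : ↥K0) ∈ MulAction.stabilizer ↥K0 (0 : Fin 100) := by
    rw [MulAction.mem_stabilizer_iff]
    exact h0
  rw [← heq] at hmem
  exact Subgroup.mem_subgroupOf.1 hmem

theorem u3_orb_K1 {σ : Perm (Fin 100)} (hσ : σ ∈ K1) (p : Fin 100) : j2Orb (σ p) = j2Orb p := by
  unfold K1 at hσ
  induction hσ using Subgroup.closure_induction generalizing p with
  | mem y hy =>
    obtain ⟨j, rfl⟩ := hy
    rw [j2_g1_apply]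
    exact u3_orb_inv j p
  | one => rfl
  | mul y z _ _ hy hz => rw [Equiv.Perm.mul_apply, hy, hz]
  | inv y _ hy =>
    have h := hy (y⁻¹ p)
    rw [← Equiv.Perm.mul_apply, mul_inv_cancel, Equiv.Perm.one_apply] at h
    exact h.symm

/-- In a group isomorphic to the group on 100 points: a subgroup of index 100 isomorphic to the
stabiliser `K1`, with orbits of lengths 36 and 63 on its cosets. -/
theorem u3_main {G : Type*} [Group G] (e : G ≃* ↥K0) :
    ∃ H : Subgroup G, H.index = 100 ∧ Nonempty (↥H ≃* ↥K1) ∧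
      ∃ c₁ c₂ : G ⧸ H, (MulAction.orbit ↥H c₁).ncard = 36 ∧ (MulAction.orbit ↥H c₂).ncard = 63 := by
  classical
  let φ : G →* Perm (Fin 100) := K0.subtype.comp e.toMonoidHom
  let _ : MulAction G (Fin 100) := MulAction.compHom (Fin 100) φ
  have hsm : ∀ (g : G) (x : Fin 100), g • x = (e g).1 x := fun g x => rfl
  have htr : MulAction.IsPretransitive G (Fin 100) := by
    constructor
    intro x y
    obtain ⟨k, hk⟩ := MulAction.exists_smul_eq ↥K0 x y
    refine ⟨e.symm k, ?_⟩
    rw [hsm, e.apply_symm_apply]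
    exact hk
  have hfix : ∀ h : ↥(MulAction.stabilizer G (0 : Fin 100)), (e h.1).1 ∈ K1 := by
    intro h
    have h1 := h.2
    rw [MulAction.mem_stabilizer_iff, hsm] at h1
    exact u3_stab (e h.1).2 h1
  have hmemS : ∀ σ : ↥K1, e.symm ⟨σ.1, K1_le σ.2⟩ ∈ MulAction.stabilizer G (0 : Fin 100) := by
    intro σ
    rw [MulAction.mem_stabilizer_iff, hsm, e.apply_symm_apply]
    exact K1_fix σ.1 σ.2
  refine ⟨MulAction.stabilizer G (0 : Fin 100), ?_, ?_, ?_⟩
  · rw [MulAction.index_stabilizer_of_transitive]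
    simp
  · exact ⟨{ toFun := fun h => ⟨(e h.1).1, hfix h⟩
             invFun := fun σ => ⟨e.symm ⟨σ.1, K1_le σ.2⟩, hmemS σ⟩
             left_inv := fun h => Subtype.ext (by simp)
             right_inv := fun σ => Subtype.ext (by simp)
             map_mul' := fun a b => Subtype.ext (by simp) }⟩
  · have key : ∀ (q : Fin 100) (n : ℕ),
        (Finset.univ.filter (fun p : Fin 100 => j2Orb p = j2Orb q)).card = n →
        ∃ c : G ⧸ MulAction.stabilizer G (0 : Fin 100),
          (MulAction.orbit ↥(MulAction.stabilizer G (0 : Fin 100)) c).ncard = n := by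
      intro q n hn
      obtain ⟨g, hg⟩ := MulAction.exists_smul_eq G (0 : Fin 100) q
      refine ⟨QuotientGroup.mk g, ?_⟩
      have hinj := MulAction.injective_ofQuotientStabilizer G (0 : Fin 100)
      rw [← Set.ncard_image_of_injective _ hinj]
      have hval : ∀ h : ↥(MulAction.stabilizer G (0 : Fin 100)),
          MulAction.ofQuotientStabilizer G (0 : Fin 100)
            (h • (QuotientGroup.mk g : G ⧸ MulAction.stabilizer G (0 : Fin 100))) = (e h.1).1 q := by
        intro h
        show MulAction.ofQuotientStabilizer G (0 : Fin 100)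
            ((h.1 : G) • (QuotientGroup.mk g : G ⧸ MulAction.stabilizer G (0 : Fin 100))) = _
        rw [MulAction.ofQuotientStabilizer_smul, MulAction.ofQuotientStabilizer_mk, hg, hsm]
      have himg : MulAction.ofQuotientStabilizer G (0 : Fin 100) ''
          (MulAction.orbit ↥(MulAction.stabilizer G (0 : Fin 100))
            (QuotientGroup.mk g : G ⧸ MulAction.stabilizer G (0 : Fin 100))) =
          {p | j2Orb p = j2Orb q} := by
        ext p
        constructor
        · rintro ⟨_, ⟨h, rfl⟩, rfl⟩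
          show j2Orb _ = j2Orb q
          rw [hval h]
          exact u3_orb_K1 (hfix h) q
        · intro hp
          obtain ⟨σ, hσ, hσq⟩ := orb_trans q p hp
          refine ⟨(⟨e.symm ⟨σ, K1_le hσ⟩, hmemS ⟨σ, hσ⟩⟩ : ↥(MulAction.stabilizer G (0 : Fin 100))) •
            (QuotientGroup.mk g : G ⧸ MulAction.stabilizer G (0 : Fin 100)), ⟨_, rfl⟩, ?_⟩
          rw [hval, e.apply_symm_apply]
          exact hσq
      rw [himg, ← hn, ← Set.ncard_coe_finset]
      congr 1
      ext p
      simp
    obtain ⟨c₁, h₁⟩ := key 1 36 (by rw [u3_orb1.1]; exact u3_card36)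
    obtain ⟨c₂, h₂⟩ := key 37 63 (by rw [u3_orb1.2]; exact u3_card63)
    exact ⟨c₁, c₂, h₁, h₂⟩

end Cfsg.Agent.Helper57
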