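import Cfsg.Agent.Helper64.MRDefs

/-!
# CALL MR (helper64), piece EVP (helper57, double)
-/

set_option autoImplicit false

namespace Cfsg.Agent.Helper57.MREVP

open Cfsg Cfsg.Lie Cfsg.Agent.Helper36 Cfsg.Agent.Helper64.UC Cfsg.Agent.Helper64.UC2
  Cfsg.Agent.Helper64.MR

/-- auxiliary: the list version of `rho_hprod` -/
theorem rho_hprod_list {D : ChevalleyDatum} {K : Type*} [Field K] {V : Type*} [AddCommGroup V]
    [Module K V] (ρ : D.SteinbergCover K →* (Module.End K V)ˣ) (v : V) (i₀ : ℕ)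
    (h : ∀ i < D.rank, ∀ t : K, t ≠ 0 →
      ((ρ (hS D (D.scGen K) (D.simple i) t) : (Module.End K V)ˣ) : Module.End K V) v =
        (if i = i₀ then t else 1) • v)
    (t : ℕ → Kˣ) (L : List ℕ) (hL : ∀ i ∈ L, i < D.rank) (hnd : L.Nodup) :
    ((ρ (hProd D (D.scGen K) L t) : (Module.End K V)ˣ) : Module.End K V) v =
      (if i₀ ∈ L then ((t i₀ : Kˣ) : K) else 1) • v := by
  induction L with
  | nil =>
    rw [hProd_nil, map_one, Units.val_one]
    simp
  | cons i L ih =>
    have hL' : ∀ j ∈ L, j < D.rank := fun j hj => hL j (List.mem_cons_of_mem _ hj)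
    have hnd' : L.Nodup := (List.nodup_cons.mp hnd).2
    have hiL : i ∉ L := (List.nodup_cons.mp hnd).1
    have hi : i < D.rank := hL i List.mem_cons_self
    rw [hProd_cons, map_mul, Units.val_mul, Module.End.mul_apply, ih hL' hnd', map_smul,
      h i hi _ (Units.ne_zero (t i))]
    by_cases hii : i = i₀
    · subst hii
      rw [if_pos rfl, if_neg hiL, one_smul, if_pos List.mem_cons_self]
    · rw [if_neg hii, one_smul]
      by_cases hm : i₀ ∈ L
      · rw [if_pos hm, if_pos (List.mem_cons_of_mem _ hm)]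
      · rw [if_neg hm, if_neg]
        intro hc
        rcases List.mem_cons.mp hc with hc | hc
        · exact hii hc.symm
        · exact hm hc

/-- PIECE EVP: the product `∏_i h_i(t_i)` acts on `v` by the scalar `t_{i₀}`. -/
theorem rho_hprod {D : ChevalleyDatum} {K : Type*} [Field K] {V : Type*} [AddCommGroup V]
    [Module K V] (ρ : D.SteinbergCover K →* (Module.End K V)ˣ) (v : V) (i₀ : ℕ)
    (hi₀ : i₀ < D.rank)
    (h : ∀ i < D.rank, ∀ t : K, t ≠ 0 →
      ((ρ (hS D (D.scGen K) (D.simple i) t) : (Module.End K V)ˣ) : Module.End K V) v =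
        (if i = i₀ then t else 1) • v)
    (t : ℕ → Kˣ) :
    ((ρ (hProd D (D.scGen K) (List.range D.rank) t) : (Module.End K V)ˣ) : Module.End K V) v =
      ((t i₀ : Kˣ) : K) • v := by
  rw [rho_hprod_list ρ v i₀ h t (List.range D.rank) (fun i hi => List.mem_range.mp hi)
    List.nodup_range, if_pos (List.mem_range.mpr hi₀)]

end Cfsg.Agent.Helper57.MREVP
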