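import Cfsg.Agent.Helper64.MRDefs
import Cfsg.Agent.Helper64.MRData7

/-!
# CALL MR (helper64), piece LC7 (helper57, double)
-/

set_option autoImplicit false

namespace Cfsg.Agent.Helper57.MRLC7

open Cfsg Cfsg.Lie Cfsg.Agent.Helper64.MR

/-- PIECE LC7 (witnesses: `latME7`, `latVE7`). -/
theorem lat_E7 : LatCert chevE7 2 6 cE7 := by
  have h1 : ∀ i < chevE7.rank, ∀ k < chevE7.rank,
      ((List.range chevE7.rank).map fun j =>
        chevE7.pairing (chevE7.simple i) (chevE7.simple j) * latME7 j k).sum =
        (if i = k then 1 else 0) - (if i = 6 then cE7 k else 0) := by decide +kernel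
  have h2 : ∀ i < chevE7.rank,
      ((List.range chevE7.rank).map fun j =>
        chevE7.pairing (chevE7.simple i) (chevE7.simple j) * latVE7 j).sum =
        if i = 6 then ((2 : ℕ) : ℤ) else 0 := by decide +kernel
  have h3 : ∀ s < chevE7.nroots,
      ((2 : ℕ) : ℤ) ∣ ((List.range chevE7.rank).map fun i =>
        cE7 i * chevE7.pairing (chevE7.simple i) s).sum := by decide +kernel
  exact
    { hi₀ := by decide
      hc := by decide
      mat := ⟨latME7, h1⟩
      vec := ⟨latVE7, h2⟩
      root := h3 }

end Cfsg.Agent.Helper57.MRLC7
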