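import Cfsg.Agent.Helper64.MRDefs

/-!
# CALL MR (helper64), piece OPC0 (helper57, double)
-/

set_option autoImplicit false

namespace Cfsg.Agent.Helper57.MROPC0

open Cfsg Cfsg.Lie Cfsg.Agent.Helper64.MR

/-- PIECE OPC0: `e_r e_s = e_s e_r` when the commutator formula of `(r, s)` is empty. -/
theorem op_c0 {R : SRep} {D : ChevalleyDatum} (h : R.Ok D) (K : Type*) [Field K] {r s : ℕ}
    (hr : r < D.nroots) (hs : s < D.nroots) (h1 : s ≠ r) (h2 : s ≠ D.neg r)
    (hc : D.commTerms r s = []) : R.op K r * R.op K s = R.op K s * R.op K r := by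
  apply LinearMap.ext
  intro f
  funext ν
  show R.op K r (R.op K s f) ν = R.op K s (R.op K r f) ν
  rw [R.op_op_apply, R.op_op_apply]
  by_cases hν : ν < R.N
  · rw [h.c0 r hr s hs h1 h2 hc ν hν]
  · rw [R.term2_none_of_le r s (not_lt.mp hν), R.term2_none_of_le s r (not_lt.mp hν)]

end Cfsg.Agent.Helper57.MROPC0
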