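import Cfsg.Agent.Helper64.MRDefs

/-!
# CALL MR (helper64), piece OPC1 (helper57, double)
-/

set_option autoImplicit false

namespace Cfsg.Agent.Helper57.MROPC1

open Cfsg Cfsg.Lie Cfsg.Agent.Helper64.MR

/-- PIECE OPC1: `[e_r, e_s] = C e_k`, `e_r e_k = 0`, `e_s e_k = 0` when the commutator formula of
`(r, s)` is the single term `(k, C, 1, 1)`. -/
theorem op_c1 {R : SRep} {D : ChevalleyDatum} (h : R.Ok D) (K : Type*) [Field K] {r s : ℕ}
    (hr : r < D.nroots) (hs : s < D.nroots) (h1 : s ≠ r) (h2 : s ≠ D.neg r) {k : ℕ} {C : ℤ}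
    (hc : D.commTerms r s = [(k, C, 1, 1)]) :
    R.op K r * R.op K s - R.op K s * R.op K r = (C : K) • R.op K k ∧
      R.op K r * R.op K k = 0 ∧ R.op K s * R.op K k = 0 := by
  have H := h.c1 r hr s hs h1 h2 k C hc
  refine ⟨?_, ?_, ?_⟩
  · apply LinearMap.ext
    intro f
    funext ν
    show R.op K r (R.op K s f) ν - R.op K s (R.op K r f) ν = (C : K) * R.op K k f ν
    rw [R.op_op_apply, R.op_op_apply, R.op_apply]
    by_cases hν : ν < R.N
    · obtain ⟨hb, -, -⟩ := H ν hν
      rcases hb with ⟨e1, e2, e3⟩ | ⟨μ, a, b, e1, e2, e3, e4⟩ | ⟨μ, a, b, e1, e2, e3, e4⟩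
      · rw [e1, e2, e3]
        simp [rowVal_none]
      · rw [e1, e2, e3, rowVal_some, rowVal_none, rowVal_some, e4]
        push_cast
        ring
      · rw [e1, e2, e3, rowVal_some, rowVal_none, rowVal_some]
        have e5 : (a : K) = -((C : K) * (b : K)) := by
          have e6 : a = -(C * b) := by omega
          rw [e6]
          push_cast
          ring
        show 0 - (a : K) * f μ = (C : K) * ((b : K) * f μ)
        rw [e5]
        ring
    · have hν' : R.N ≤ ν := not_lt.mp hν
      rw [R.term2_none_of_le r s hν', R.term2_none_of_le s r hν', R.term1_none_of_le k hν']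
      simp [rowVal_none]
  · apply LinearMap.ext
    intro f
    funext ν
    show R.op K r (R.op K k f) ν = 0
    rw [R.op_op_apply]
    by_cases hν : ν < R.N
    · rw [(H ν hν).2.1]
      rfl
    · rw [R.term2_none_of_le r k (not_lt.mp hν)]
      rfl
  · apply LinearMap.ext
    intro f
    funext ν
    show R.op K s (R.op K k f) ν = 0
    rw [R.op_op_apply]
    by_cases hν : ν < R.N
    · rw [(H ν hν).2.2]
      rfl
    · rw [R.term2_none_of_le s k (not_lt.mp hν)]
      rfl

end Cfsg.Agent.Helper57.MROPC1
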