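import Cfsg.Agent.Helper64.MRDefs
import Cfsg.Agent.Helper64.MRData7

/-!
# CALL MR (helper64), piece TOP7 (helper57, double)
-/

set_option autoImplicit false

namespace Cfsg.Agent.Helper57.MRTOP7

open Cfsg Cfsg.Lie Cfsg.Agent.Helper64.MR

/-- a decidable form of "the source of the row is not `μ`" -/
theorem top7_aux {o : Option (ℕ × ℤ)} {μ : ℕ} (h : o.map Prod.fst ≠ some μ) :
    ∀ p, o = some p → p.1 ≠ μ := by
  rintro p rfl hp
  exact h (by rw [Option.map_some, hp])

/-- PIECE TOP7. -/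
theorem top_E7 : repE7.Top chevE7 6 0 1 := by
  have h1 : ∀ i < chevE7.rank, ∀ ν < repE7.N,
      (repE7.term1 (chevE7.simple i) ν).map Prod.fst ≠ some 0 := by decide +kernel
  have h2 : ∀ i < chevE7.rank, i ≠ 6 → ∀ ν < repE7.N,
      (repE7.term1 (chevE7.neg (chevE7.simple i)) ν).map Prod.fst ≠ some 0 := by decide +kernel
  have h3 : repE7.term1 (chevE7.neg (chevE7.simple 6)) 1 = some (0, 1) := by decide +kernel
  have h4 : ∀ ν < repE7.N, ν ≠ 1 →
      (repE7.term1 (chevE7.neg (chevE7.simple 6)) ν).map Prod.fst ≠ some 0 := by decide +kernel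
  have h5 : repE7.term1 (chevE7.simple 6) 0 = some (1, 1) := by decide +kernel
  have h6 : ∀ ν < repE7.N, ν ≠ 0 →
      (repE7.term1 (chevE7.simple 6) ν).map Prod.fst ≠ some 1 := by decide +kernel
  have h7 : ∀ ν < repE7.N,
      (repE7.term1 (chevE7.neg (chevE7.simple 6)) ν).map Prod.fst ≠ some 1 := by decide +kernel
  exact
    { hμ₀ := by decide
      hμ₁ := by decide
      hne := by decide
      pos := fun i hi ν hν => top7_aux (h1 i hi ν hν)
      neg := fun i hi hne ν hν => top7_aux (h2 i hi hne ν hν)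
      dn := ⟨h3, fun ν hν hne => top7_aux (h4 ν hν hne)⟩
      upw := ⟨h5, fun ν hν hne => top7_aux (h6 ν hν hne)⟩
      dnw := fun ν hν => top7_aux (h7 ν hν) }

end Cfsg.Agent.Helper57.MRTOP7
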