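import Mathlib
import Cfsg.Agent.Helper43.OTDefs
import Cfsg.Agent.Helper47.HTHTIB
import Cfsg.Agent.Helper53.TIMODC

set_option autoImplicit false

/-!
# CALL OT (S5972, helper43), piece MODC (helper57): the multiplicity-free orthogonal model
-/

namespace Cfsg.Agent.Helper57.OT5972

open Module Polynomial Cfsg.Agent.Helper90.HT Cfsg.Agent.Helper43.OT
open Cfsg.Agent.Helper43.C3O (gm)

universe u

section grp

variable {F : Type u} [Field F] [Fintype F] {ι : Type} [Fintype ι] [DecidableEq ι]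

/-- `r ∣ q ^ e + 1` when `q` has order `2 e` modulo the prime `r`. -/
theorem otmodc_dvd (q e r : ℕ) [Fact r.Prime] (he : 1 ≤ e)
    (hord : orderOf ((q : ℕ) : ZMod r) = 2 * e) : r ∣ q ^ e + 1 := by
  have h1 : ((q : ℕ) : ZMod r) ^ (2 * e) = 1 := by rw [← hord]; exact pow_orderOf_eq_one _
  have h2 : (((q : ℕ) : ZMod r) ^ e - 1) * (((q : ℕ) : ZMod r) ^ e + 1) = 0 := by
    have : (((q : ℕ) : ZMod r) ^ e - 1) * (((q : ℕ) : ZMod r) ^ e + 1)
        = ((q : ℕ) : ZMod r) ^ (2 * e) - 1 := by ring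
    rw [this, h1, sub_self]
  rcases mul_eq_zero.mp h2 with h3 | h3
  · exfalso
    have h4 : ((q : ℕ) : ZMod r) ^ e = 1 := sub_eq_zero.mp h3
    have h5 := orderOf_dvd_of_pow_eq_one h4
    rw [hord] at h5
    have h6 := Nat.le_of_dvd (by omega) h5
    omega
  · apply (ZMod.natCast_eq_zero_iff _ _).mp
    push_cast
    exact h3

/-- MODC: the multiplicity-free model. -/
theorem ot_mod_c (p : ℕ) [Fact p.Prime] [CharP F p] (h2 : (2 : F) ≠ 0) (e : ℕ) [NeZero (2 * e)]
    (he : 1 ≤ e) (r : ℕ) [Fact r.Prime] (hr2 : 2 < r) (hrF : (r : F) ≠ 0)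
    (hord : orderOf ((Fintype.card F : ℕ) : ZMod r) = 2 * e) (u e' : ℕ) (hu : 1 ≤ u)
    (hut : u ≤ (r - 1) / (2 * e)) :
    ∃ (Q' : QuadraticForm F
          ((Fin u → FiniteField.Extension F p (2 * e)) × (Unit ⊕ (Fin e' ⊕ Fin e') → F)))
      (T : Module.End F
          ((Fin u → FiniteField.Extension F p (2 * e)) × (Unit ⊕ (Fin e' ⊕ Fin e') → F))),
      (∀ v, (∀ w, QuadraticMap.polar Q' v w = 0) → v = 0) ∧ (∀ v, Q' (T v) = Q' v) ∧ T ^ r = 1 ∧
        T ≠ 1 ∧
        ∀ W : Submodule F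
            ((Fin u → FiniteField.Extension F p (2 * e)) × (Unit ⊕ (Fin e' ⊕ Fin e') → F)),
          (∀ w ∈ W, Q' w = 0) → W.map T ≤ W → 2 * finrank F W ≤ 2 * e' + 1 := by
  classical
  have hr : r ∣ Fintype.card F ^ e + 1 := otmodc_dvd (Fintype.card F) e r he hord
  obtain ⟨σ, c, γ, hσ, hc, hc0, hγ, hordγ⟩ :=
    Cfsg.Agent.Helper42.SpModels.exists_unit_data F p e he
  have hγ0 : γ ≠ 0 := by
    intro h
    rw [h] at hγ
    simp at hγ
  obtain ⟨u₀, hu₀⟩ : ∃ u₀ : (FiniteField.Extension F p (2 * e))ˣ,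
      (u₀ : FiniteField.Extension F p (2 * e)) = γ := ⟨Units.mk0 γ hγ0, rfl⟩
  have hm : 0 < orderOf u₀ := orderOf_pos u₀
  have hγm : γ ^ orderOf u₀ = 1 := by
    rw [← hu₀, ← Units.val_pow_eq_pow_val, pow_orderOf_eq_one, Units.val_one]
  have hrm : r ∣ orderOf u₀ := dvd_trans hr (hordγ _ hγm)
  have hr1 : 1 < r := by omega
  obtain ⟨ω, hωdef⟩ : ∃ ω : FiniteField.Extension F p (2 * e), ω = γ ^ (orderOf u₀ / r) :=
    ⟨_, rfl⟩
  have hωr : ω ^ r = 1 := by
    rw [hωdef, ← pow_mul, Nat.div_mul_cancel hrm, hγm]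
  have hω1 : ω ≠ 1 := by
    intro h
    rw [hωdef] at h
    have h1 : u₀ ^ (orderOf u₀ / r) = 1 := by
      apply Units.ext
      rw [Units.val_pow_eq_pow_val, hu₀, h, Units.val_one]
    have h2 := orderOf_dvd_of_pow_eq_one h1
    have h3 : 0 < orderOf u₀ / r := Nat.div_pos (Nat.le_of_dvd hm hrm) (by omega)
    have h4 := Nat.le_of_dvd h3 h2
    have h5 := Nat.div_lt_self hm hr1
    omega
  have hωσ : ω * σ ω = 1 := by
    rw [hωdef, map_pow, ← mul_pow, hγ, one_pow]
  obtain ⟨s, hs1, hsdeg, hsne⟩ := Cfsg.Agent.Helper41.TI5955.ti_types (F := F) r hrF ω hωr hω1 u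
    (by rw [hord]; exact hut)
  -- the forms
  obtain ⟨B₁, hB₁⟩ : ∃ B₁ : LinearMap.BilinForm F (FiniteField.Extension F p (2 * e)),
      B₁ = Cfsg.Agent.Helper42.SpModels.unitForm F (FiniteField.Extension F p (2 * e)) σ 1 :=
    ⟨_, rfl⟩
  have hB₁app : ∀ x y, B₁ x y = Algebra.trace F (FiniteField.Extension F p (2 * e)) (x * σ y) := by
    intro x y
    rw [hB₁, Cfsg.Agent.Helper42.SpModels.unitForm_apply, one_mul]
  have hsym₁ : ∀ x y, B₁ x y = B₁ y x := by
    intro x y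
    rw [hB₁app, hB₁app]
    have h3 := Algebra.trace_eq_of_algEquiv σ (x * σ y)
    rw [map_mul, hσ] at h3
    rw [← h3, mul_comm (σ x) y]
  have hnd₁ : ∀ x, (∀ y, B₁ x y = 0) → x = 0 := by
    intro x hx
    rw [hB₁] at hx
    exact Cfsg.Agent.Helper42.SpModels.unitForm_nondeg F _ σ 1 hσ one_ne_zero x hx
  obtain ⟨B₂, hB₂⟩ : ∃ B₂ : LinearMap.BilinForm F (Unit ⊕ (Fin e' ⊕ Fin e') → F),
      B₂ = QuadraticMap.polarBilin (Cfsg.Agent.Helper43.oddQF e' F) := ⟨_, rfl⟩
  have hB₂app : ∀ x y, B₂ x y = QuadraticMap.polar (Cfsg.Agent.Helper43.oddQF e' F) x y := by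
    intro x y
    rw [hB₂]
    rfl
  have hsym₂ : ∀ x y, B₂ x y = B₂ y x := by
    intro x y
    rw [hB₂app, hB₂app, QuadraticMap.polar_comm]
  have hnd₂ : ∀ x, (∀ y, B₂ x y = 0) → x = 0 := by
    intro x hx
    apply ph_odd_nondeg h2 e' x
    intro w
    rw [ph_apply, ← hB₂app]
    exact hx w
  obtain ⟨B, hB⟩ : ∃ B : LinearMap.BilinForm F
      ((Fin u → FiniteField.Extension F p (2 * e)) × (Unit ⊕ (Fin e' ⊕ Fin e') → F)),
      B = Cfsg.Agent.Helper42.SpModels.sumForm (Cfsg.Agent.Helper13.TIsp.piForm (Fin u) B₁) B₂ :=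
    ⟨_, rfl⟩
  have hBapp : ∀ x y, B x y = (∑ j : Fin u, B₁ (x.1 j) (y.1 j)) + B₂ x.2 y.2 := by
    intro x y
    rw [hB, Cfsg.Agent.Helper42.SpModels.sumForm_apply, Cfsg.Agent.Helper13.TIsp.piForm_apply]
  have hsymB : ∀ x y, B x y = B y x := by
    intro x y
    rw [hBapp, hBapp, hsym₂ x.2 y.2]
    congr 1
    exact Finset.sum_congr rfl (fun j _ => hsym₁ _ _)
  have hndB : ∀ x, (∀ y, B x y = 0) → x = 0 := by
    intro x hx
    rw [hB] at hx
    exact Cfsg.Agent.Helper42.SpModels.sumForm_nondeg _ _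
      (Cfsg.Agent.Helper70.TI5955.pi_nondeg _ hnd₁) hnd₂ x hx
  obtain ⟨Q', hQ'⟩ : ∃ Q' : QuadraticForm F
      ((Fin u → FiniteField.Extension F p (2 * e)) × (Unit ⊕ (Fin e' ⊕ Fin e') → F)),
      Q' = (2⁻¹ : F) • LinearMap.BilinMap.toQuadraticMap B := ⟨_, rfl⟩
  have hQ'app : ∀ v, Q' v = 2⁻¹ * B v v := by
    intro v
    rw [hQ', smul_apply, LinearMap.BilinMap.toQuadraticMap_apply, smul_eq_mul]
  have hpolar : ∀ v w, QuadraticMap.polar Q' v w = B v w := by
    intro v w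
    have hexp : B (v + w) (v + w) = B v v + B v w + B w v + B w w := by
      simp only [map_add, LinearMap.add_apply]
      ring
    rw [QuadraticMap.polar, hQ'app, hQ'app, hQ'app, hexp, hsymB w v]
    field_simp
    ring
  obtain ⟨T, hTdef⟩ : ∃ T : Module.End F
      ((Fin u → FiniteField.Extension F p (2 * e)) × (Unit ⊕ (Fin e' ⊕ Fin e') → F)),
      T = (Cfsg.Agent.Helper13.TIsp.piMap (fun j => LinearMap.mulLeft F (ω ^ s j))).prodMap
        (1 : Module.End F (Unit ⊕ (Fin e' ⊕ Fin e') → F)) := ⟨_, rfl⟩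
  have hpres : ∀ x y, B (T x) (T y) = B x y := by
    have h := Cfsg.Agent.Helper42.SpModels.preserves_prodMap
      (B₂ := B₂) (T₂ := (1 : Module.End F (Unit ⊕ (Fin e' ⊕ Fin e') → F)))
      (Cfsg.Agent.Helper70.TI5955.pi_preserves B₁ (fun j => LinearMap.mulLeft F (ω ^ s j))
        (fun j => by
          rw [hB₁]
          exact Cfsg.Agent.Helper42.SpModels.preserves_mulLeft F _ σ 1 _
            (by rw [map_pow, ← mul_pow, hωσ, one_pow])))
      (Cfsg.Agent.Helper42.SpGroup.preserves_one _)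
    intro x y
    rw [hTdef, hB]
    exact h x y
  refine ⟨Q', T, ?_, ?_, ?_, ?_, ?_⟩
  · intro v hv
    apply hndB v
    intro w
    rw [← hpolar]
    exact hv w
  · intro v
    rw [hQ'app, hQ'app, hpres]
  · rw [hTdef, Cfsg.Agent.Helper53.TI5955.timodc_prodMap_pow, Cfsg.Agent.Helper70.TI5955.pi_pow,
      one_pow]
    have h1 : (fun j => LinearMap.mulLeft F (ω ^ s j) ^ r) =
        fun _ : Fin u => (1 : Module.End F (FiniteField.Extension F p (2 * e))) := by
      funext j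
      rw [LinearMap.pow_mulLeft, pow_right_comm, hωr, one_pow, LinearMap.mulLeft_one]
      rfl
    rw [h1, Cfsg.Agent.Helper70.TI5955.pi_one, LinearMap.prodMap_one]
  · intro h
    rw [hTdef] at h
    have hj := Cfsg.Agent.Helper70.TI5955.pi_ne_one (fun j => LinearMap.mulLeft F (ω ^ s j))
      (⟨0, hu⟩ : Fin u) (by
      intro h1
      have h2 := congrArg (fun f => f (1 : FiniteField.Extension F p (2 * e))) h1
      simp only [LinearMap.mulLeft_apply, mul_one, Module.End.one_apply] at h2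
      exact hs1 _ h2)
    apply hj
    apply LinearMap.ext
    intro x
    have h3 := congrArg (fun f => (f (x, (0 : Unit ⊕ (Fin e' ⊕ Fin e') → F))).1) h
    simpa using h3
  · intro W hW0 hWT
    have hTI : Cfsg.Agent.Helper13.TIsp.TI
        (Cfsg.Agent.Helper42.SpModels.sumForm (Cfsg.Agent.Helper13.TIsp.piForm (Fin u) B₁) B₂)
        W := by
      intro a ha b hb
      rw [← hB, ← hpolar, QuadraticMap.polar, hW0 _ (W.add_mem ha hb), hW0 a ha, hW0 b hb]
      simp
    rw [hTdef] at hWT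
    have h0 := Cfsg.Agent.Helper3.TI5955.ti_multfree B₁ B₂ hnd₁ (fun j => ω ^ s j) hs1
      (fun j => by rw [hsdeg, hord, FiniteField.finrank_extension]) hsne W hTI hWT
    have hinj : Function.Injective ((LinearMap.snd F
        (Fin u → FiniteField.Extension F p (2 * e)) (Unit ⊕ (Fin e' ⊕ Fin e') → F)).domRestrict
        W) := by
      intro a b hab
      apply Subtype.ext
      apply Prod.ext
      · rw [h0 _ a.2, h0 _ b.2]
      · exact hab
    have hfr : finrank F (LinearMap.range ((LinearMap.snd F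
        (Fin u → FiniteField.Extension F p (2 * e)) (Unit ⊕ (Fin e' ⊕ Fin e') → F)).domRestrict
        W)) = finrank F W := LinearMap.finrank_range_of_inj hinj
    have hbound := Cfsg.Agent.Helper47.HT5953.ht_bound (RingHom.id F)
      (ph (Cfsg.Agent.Helper43.oddQF e' F)) (isHerm_ph _) ⊤
      (LinearMap.range ((LinearMap.snd F
        (Fin u → FiniteField.Extension F p (2 * e)) (Unit ⊕ (Fin e' ⊕ Fin e') → F)).domRestrict
        W))
      (fun v _ hv => ph_odd_nondeg h2 e' v (fun w => hv w Submodule.mem_top)) le_top (by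
        rintro _ ⟨a, rfl⟩ _ ⟨b, rfl⟩
        have h1 := hTI a a.2 b b.2
        rw [Cfsg.Agent.Helper42.SpModels.sumForm_apply, h0 _ a.2, map_zero,
          LinearMap.zero_apply, zero_add, hB₂app] at h1
        exact h1)
    rw [hfr, finrank_top, Module.finrank_fintype_fun_eq_card, Fintype.card_sum, Fintype.card_sum,
      Fintype.card_fin, Fintype.card_unit] at hbound
    omega

end grp

end Cfsg.Agent.Helper57.OT5972
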