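import Cfsg.Agent.Helper57.OrbitIso2

/-!
# Commutator subgroups of groups with a cyclic quotient (seat helper57)

`commutator_closure_le_pow`: if `t` normalises `P` and every generator `x` satisfies `t ^ k * x ∈ P` for
some `k`, then the commutator subgroup of the generated group lies in `P`.
-/

set_option autoImplicit false

namespace Cfsg.Agent.Helper57

open scoped commutatorElement

theorem commutator_closure_le_pow {M : Type*} [Group M] (P : Subgroup M) (t : M)
    (ht : t ∈ (Subgroup.normalizer (P : Set M))) (X : Set M)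
    (hX : ∀ x ∈ X, ∃ k : ℕ, t ^ k * x ∈ P) :
    ⁅Subgroup.closure X, Subgroup.closure X⁆ ≤ P := by
  have hPN : P ≤ (Subgroup.normalizer (P : Set M)) := Subgroup.le_normalizer
  let P' : Subgroup (Subgroup.normalizer (P : Set M)) := P.subgroupOf (Subgroup.normalizer (P : Set M))
  have hP' : P'.Normal := Subgroup.normal_in_normalizer
  let π : (Subgroup.normalizer (P : Set M)) →* (Subgroup.normalizer (P : Set M)) ⧸ P' := QuotientGroup.mk' P'
  let tq : (Subgroup.normalizer (P : Set M)) ⧸ P' := π ⟨t, ht⟩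
  have hker : ∀ x : (Subgroup.normalizer (P : Set M)), π x = 1 ↔ (x : M) ∈ P := by
    intro x
    rw [QuotientGroup.mk'_apply, QuotientGroup.eq_one_iff]
    exact Subgroup.mem_subgroupOf
  let C : Subgroup (Subgroup.normalizer (P : Set M)) := (Subgroup.zpowers tq).comap π
  have hle : Subgroup.closure X ≤ C.map (Subgroup.normalizer (P : Set M)).subtype := by
    rw [Subgroup.closure_le]
    intro x hx
    obtain ⟨k, h⟩ := hX x hx
    have htk : t ^ k ∈ (Subgroup.normalizer (P : Set M)) := Subgroup.pow_mem _ ht k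
    have hxN : x ∈ (Subgroup.normalizer (P : Set M)) := by
      have h1 : x = (t ^ k)⁻¹ * (t ^ k * x) := by group
      rw [h1]
      exact Subgroup.mul_mem _ (Subgroup.inv_mem _ htk) (hPN h)
    refine ⟨⟨x, hxN⟩, ?_, rfl⟩
    show π ⟨x, hxN⟩ ∈ Subgroup.zpowers tq
    have h2 : π ((⟨t, ht⟩ : (Subgroup.normalizer (P : Set M))) ^ k * ⟨x, hxN⟩) = 1 := (hker _).2 h
    rw [map_mul, map_pow] at h2
    have h3 : π ⟨x, hxN⟩ = (tq ^ k)⁻¹ := eq_inv_of_mul_eq_one_right h2
    rw [h3]
    exact Subgroup.inv_mem _ (Subgroup.pow_mem _ (Subgroup.mem_zpowers tq) k)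
  rw [Subgroup.commutator_le]
  intro g₁ hg₁ g₂ hg₂
  obtain ⟨y₁, hy₁, rfl⟩ := hle hg₁
  obtain ⟨y₂, hy₂, rfl⟩ := hle hg₂
  obtain ⟨i, hi⟩ := Subgroup.mem_zpowers_iff.1 (show π y₁ ∈ Subgroup.zpowers tq from hy₁)
  obtain ⟨j, hj⟩ := Subgroup.mem_zpowers_iff.1 (show π y₂ ∈ Subgroup.zpowers tq from hy₂)
  have h1 : π ⁅y₁, y₂⁆ = 1 := by
    rw [map_commutatorElement, ← hi, ← hj]
    exact commutatorElement_eq_one_iff_commute.2 ((Commute.refl tq).zpow_zpow i j)
  exact (hker _).1 h1

end Cfsg.Agent.Helper57
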