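import Mathlib

/-!
# Simple sections at a prime, Frattini-type lemmas, two primes in `(n, 2n]`

Helper library of seat helper57 (used by S3419, S3420).
-/

set_option autoImplicit false

namespace Cfsg.Agent.Helper57

/-- The order of `H ⊔ K` divides `|H| * |K|` when `K` is normal. -/
theorem card_sup_dvd_mul {G : Type*} [Group G] [Finite G] (H K : Subgroup G) [K.Normal] :
    Nat.card (H ⊔ K : Subgroup G) ∣ Nat.card H * Nat.card K := by
  have h1 : Nat.card (K.subgroupOf (H ⊔ K)) * (K.subgroupOf (H ⊔ K)).index =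
      Nat.card (H ⊔ K : Subgroup G) := Subgroup.card_mul_index _
  have h2 : Nat.card (K.subgroupOf (H ⊔ K)) = Nat.card K :=
    Nat.card_congr (Subgroup.subgroupOfEquivOfLe le_sup_right).toEquiv
  have h3 : (K.subgroupOf (H ⊔ K)).index = K.relIndex H := Subgroup.relIndex_sup_right H K
  rw [← h1, h2, h3, mul_comm]
  exact Nat.mul_dvd_mul_right (Subgroup.relIndex_dvd_card K H) _

/-- In a finite group, an element `z ≠ 1` with `z ^ (s ^ k) = 1` has a power of order `s`. -/
theorem exists_pow_orderOf_eq_prime {G : Type*} [Group G] (s : ℕ) (hs : s.Prime) (z : G) (hz : z ≠ 1)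
    (k : ℕ) (hk : z ^ (s ^ k) = 1) : ∃ m : ℕ, orderOf (z ^ m) = s := by
  have hd : orderOf z ∣ s ^ k := orderOf_dvd_of_pow_eq_one hk
  obtain ⟨j, hj, hj'⟩ := (Nat.dvd_prime_pow hs).1 hd
  have hj0 : j ≠ 0 := by
    rintro rfl
    rw [pow_zero, orderOf_eq_one_iff] at hj'
    exact hz hj'
  obtain ⟨i, rfl⟩ := Nat.exists_eq_succ_of_ne_zero hj0
  refine ⟨s ^ i, ?_⟩
  rw [orderOf_pow_of_dvd (pow_ne_zero _ hs.ne_zero) (by rw [hj']; exact pow_dvd_pow s (Nat.le_succ i)),
    hj', pow_succ]
  exact Nat.mul_div_cancel_left _ (pow_pos hs.pos i)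

/-- **Frattini-type lemma.** Let `M` be a normal subgroup of the finite group `G`, let `s` be a
prime dividing `|M|` and `t` a prime dividing `|G|` but not `|M|`, such that `t ∤ s ^ c - 1`
whenever `s ^ c` divides `|M|` (`c ≥ 1`). Then `G` has an element of order `s * t`. -/
theorem exists_orderOf_eq_mul_of_normal {G : Type*} [Group G] [Finite G] (M : Subgroup G) [M.Normal]
    (s t : ℕ) (hs : s.Prime) (ht : t.Prime) (hsM : s ∣ Nat.card M) (htM : ¬ t ∣ Nat.card M)
    (htG : t ∣ Nat.card G) (hst : ∀ c : ℕ, 1 ≤ c → s ^ c ∣ Nat.card M → ¬ t ∣ s ^ c - 1) :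
    ∃ g : G, orderOf g = s * t := by
  classical
  have : Fact s.Prime := ⟨hs⟩
  have : Fact t.Prime := ⟨ht⟩
  have hne : s ≠ t := by
    rintro rfl
    exact htM hsM
  -- a Sylow `s`-subgroup of `M`, as a subgroup `R` of `G`
  obtain ⟨S⟩ : Nonempty (Sylow s M) := inferInstance
  set R : Subgroup G := (S : Subgroup M).map M.subtype with hR
  have hRcard : Nat.card R = s ^ (Nat.card M).factorization s := by
    rw [hR, Nat.card_congr ((S : Subgroup M).equivMapOfInjective M.subtype M.subtype_injective).symm.toEquiv]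
    exact S.card_eq_multiplicity
  set c := (Nat.card M).factorization s with hc
  have hc1 : 1 ≤ c := by
    have hM0 : Nat.card M ≠ 0 := Nat.card_pos.ne'
    exact (hs.factorization_pos_of_dvd hM0 hsM)
  have hcM : s ^ c ∣ Nat.card M := Nat.ordProj_dvd _ _
  -- Frattini: `N_G(R) ⊔ M = ⊤`
  have hfr : Subgroup.normalizer (R : Set G) ⊔ M = ⊤ := Sylow.normalizer_sup_eq_top S
  have htB : t ∣ Nat.card (Subgroup.normalizer (R : Set G)) := by
    have h1 : Nat.card (Subgroup.normalizer (R : Set G) ⊔ M : Subgroup G) ∣ Nat.card (Subgroup.normalizer (R : Set G)) * Nat.card M :=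
      card_sup_dvd_mul _ _
    rw [hfr, Subgroup.card_top] at h1
    exact (ht.dvd_mul.1 (htG.trans h1)).resolve_right htM
  -- an element `x` of order `t` normalizing `R`
  obtain ⟨x, hx⟩ := exists_prime_orderOf_dvd_card' t htB
  have hxG : orderOf (x : G) = t := by rw [Subgroup.orderOf_coe, hx]
  have hxnorm : ∀ y : Subgroup.zpowers (x : G), ∀ r : G, r ∈ R → (y : G) * r * (y : G)⁻¹ ∈ R := by
    intro y r hr
    have hy : (y : G) ∈ Subgroup.normalizer (R : Set G) :=
      (Subgroup.zpowers_le.2 x.2) y.2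
    exact (Subgroup.mem_normalizer_iff.1 hy r).1 hr
  -- the conjugation action of `⟨x⟩` on `R`
  let act : MulAction (Subgroup.zpowers (x : G)) R :=
    { smul := fun y r => ⟨(y : G) * r * (y : G)⁻¹, hxnorm y r r.2⟩
      one_smul := fun r => by
        apply Subtype.ext
        change ((1 : Subgroup.zpowers (x : G)) : G) * r * ((1 : Subgroup.zpowers (x : G)) : G)⁻¹ = r
        simp
      mul_smul := fun y₁ y₂ r => by
        apply Subtype.ext
        change ((y₁ * y₂ : Subgroup.zpowers (x : G)) : G) * r * ((y₁ * y₂ : Subgroup.zpowers (x : G)) : G)⁻¹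
          = (y₁ : G) * ((y₂ : G) * r * (y₂ : G)⁻¹) * (y₁ : G)⁻¹
        simp [mul_assoc] }
  have hsmul : ∀ (y : Subgroup.zpowers (x : G)) (r : R), ((y • r : R) : G) = (y : G) * r * (y : G)⁻¹ :=
    fun _ _ => rfl
  have hP : IsPGroup t (Subgroup.zpowers (x : G)) := by
    apply IsPGroup.of_card (n := 1)
    rw [pow_one, Nat.card_zpowers, hxG]
  have hmod := hP.card_modEq_card_fixedPoints R
  -- a nontrivial fixed point
  have hex : ∃ z : R, z ∈ MulAction.fixedPoints (Subgroup.zpowers (x : G)) R ∧ z ≠ 1 := by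
    by_contra hcon
    push Not at hcon
    have hfix : MulAction.fixedPoints (Subgroup.zpowers (x : G)) R = {1} := by
      ext z
      constructor
      · intro hz
        exact hcon z hz
      · rintro rfl
        intro y
        apply Subtype.ext
        rw [hsmul]
        simp
    rw [hfix, hRcard] at hmod
    have hone : Nat.card (({1} : Set R) : Type _) = 1 := by
      simp
    rw [hone] at hmod
    have h1 : 1 ≤ s ^ c := Nat.one_le_pow _ _ hs.pos
    have : t ∣ s ^ c - 1 := (Nat.modEq_iff_dvd' h1).1 hmod.symm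
    exact hst c hc1 hcM this
  obtain ⟨z, hzfix, hz1⟩ := hex
  -- `z` commutes with `x`
  have hcomm : Commute (x : G) (z : G) := by
    have h := hzfix ⟨(x : G), Subgroup.mem_zpowers _⟩
    have h' := congrArg Subtype.val h
    rw [hsmul] at h'
    change (x : G) * z * (x : G)⁻¹ = z at h'
    exact (mul_inv_eq_iff_eq_mul.1 h')
  -- `z` has `s`-power order
  have hzpow : (z : G) ^ (s ^ c) = 1 := by
    have := pow_card_eq_one' (G := R) (x := z)
    rw [hRcard] at this
    exact congrArg Subtype.val this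
  have hz1' : (z : G) ≠ 1 := fun h => hz1 (Subtype.ext h)
  obtain ⟨m, hm⟩ := exists_pow_orderOf_eq_prime s hs (z : G) hz1' c hzpow
  refine ⟨(z : G) ^ m * (x : G), ?_⟩
  have hcomm' : Commute ((z : G) ^ m) (x : G) := (hcomm.pow_right m).symm
  rw [hcomm'.orderOf_mul_eq_mul_orderOf_of_coprime (by
    rw [hm, hxG]; exact (Nat.coprime_primes hs ht).2 hne), hm, hxG]

/-- Key step: a normal subgroup `T₁` of `H` containing `N`, where `N` is a maximal normal
`p'`-subgroup of `G`, `H` is minimal normal above `N`, and `p² ∤ |G|`, is `N` or `H`. -/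
theorem section_aux {G : Type*} [Group G] [Finite G] (p : ℕ) (hp : p.Prime)
    (hp2 : ¬ p ^ 2 ∣ Nat.card G) (N H : Subgroup G) [hNn : N.Normal] [hHn : H.Normal]
    (hNp : ¬ p ∣ Nat.card N)
    (hNmax : ∀ N₁ : Subgroup G, N₁.Normal → ¬ p ∣ Nat.card N₁ → N ≤ N₁ → N₁ = N)
    (hNH : N < H)
    (hHmin : ∀ H₁ : Subgroup G, H₁.Normal → N < H₁ → H₁ ≤ H → H₁ = H)
    (hpH : p ∣ Nat.card H)
    (T₁ : Subgroup H) (hT : T₁.Normal) (hNT : N.subgroupOf H ≤ T₁) :
    T₁ = N.subgroupOf H ∨ T₁ = ⊤ := by
  classical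
  have : Fact p.Prime := ⟨hp⟩
  by_cases hpT : p ∣ Nat.card T₁
  · right
    -- `p ∤ [H : T₁]`
    have hidx : ¬ p ∣ T₁.index := by
      intro h
      have h1 : p ^ 2 ∣ Nat.card H := by
        rw [← Subgroup.card_mul_index T₁, pow_two]
        exact Nat.mul_dvd_mul hpT h
      exact hp2 (h1.trans (Subgroup.card_subgroup_dvd_card H))
    -- elements of `H` killed by `p` lie in `T₁`
    have hkill : ∀ x : H, x ^ p = 1 → x ∈ T₁ := by
      intro x hx
      rw [← QuotientGroup.eq_one_iff (N := T₁) x]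
      have h1 : orderOf (x : H ⧸ T₁) ∣ p := by
        apply orderOf_dvd_of_pow_eq_one
        rw [← QuotientGroup.mk_pow, hx]
        rfl
      have h2 : orderOf (x : H ⧸ T₁) ∣ T₁.index := by
        rw [Subgroup.index_eq_card]
        exact orderOf_dvd_natCard _
      have h3 : orderOf (x : H ⧸ T₁) = 1 := by
        rcases (Nat.dvd_prime hp).1 h1 with h | h
        · exact h
        · exact absurd (h ▸ h2) hidx
      exact orderOf_eq_one_iff.1 h3
    -- the normal closure of the elements of `H` killed by `p`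
    set s : Set G := {g : G | g ∈ H ∧ g ^ p = 1} with hs
    set Q₂ : Subgroup G := Subgroup.normalClosure s with hQ₂
    have hQ₂H : Q₂ ≤ H := Subgroup.normalClosure_le_normal (fun g hg => hg.1)
    have hQ₂T : Q₂ ≤ T₁.map H.subtype := by
      rw [hQ₂, Subgroup.normalClosure]
      rw [Subgroup.closure_le]
      intro a ha
      obtain ⟨x, hx, hconj⟩ := Group.mem_conjugatesOfSet_iff.1 ha
      obtain ⟨g, rfl⟩ := isConj_iff.1 hconj
      have hmem : g * x * g⁻¹ ∈ H := hHn.conj_mem x hx.1 g
      refine ⟨⟨g * x * g⁻¹, hmem⟩, ?_, rfl⟩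
      apply hkill
      apply Subtype.ext
      simp only [Subgroup.coe_pow, Subgroup.coe_one]
      rw [conj_pow, hx.2, mul_one, mul_inv_cancel]
    have hQ₂N : ¬ Q₂ ≤ N := by
      intro hle
      obtain ⟨x, hx⟩ := exists_prime_orderOf_dvd_card' p hpH
      have hxs : (x : G) ∈ s := by
        refine ⟨x.2, ?_⟩
        have := pow_orderOf_eq_one x
        rw [hx] at this
        simpa using congrArg Subtype.val this
      have hxN : (x : G) ∈ N := hle (Subgroup.subset_normalClosure hxs)
      have h1 : orderOf (⟨(x : G), hxN⟩ : N) = p := by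
        rw [← Subgroup.orderOf_coe, ← hx, ← Subgroup.orderOf_coe]
      exact hNp (h1 ▸ orderOf_dvd_natCard _)
    have hsup : N ⊔ Q₂ = H := by
      apply hHmin _ inferInstance
      · refine lt_of_le_of_ne le_sup_left ?_
        intro h
        apply hQ₂N
        rw [h]
        exact le_sup_right
      · exact sup_le hNH.le hQ₂H
    have hNT' : N ≤ T₁.map H.subtype := by
      intro x hx
      exact ⟨⟨x, hNH.le hx⟩, hNT (Subgroup.mem_subgroupOf.2 hx), rfl⟩
    have hHT : H ≤ T₁.map H.subtype := by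
      intro x hx
      have hx' : x ∈ N ⊔ Q₂ := by rw [hsup]; exact hx
      exact sup_le hNT' hQ₂T hx'
    rw [eq_top_iff]
    intro h _
    obtain ⟨t, ht, hth⟩ := hHT h.2
    have : t = h := Subtype.ext hth
    exact this ▸ ht
  · left
    -- the largest normal `p'`-subgroup `M` of `H`
    obtain ⟨M, ⟨hMn, hMp⟩, hMmax⟩ :=
      WellFounded.has_min (wellFounded_gt : WellFounded ((· > ·) : Subgroup H → Subgroup H → Prop))
        {A : Subgroup H | A.Normal ∧ ¬ p ∣ Nat.card A} ⟨T₁, hT, hpT⟩
    have hle : ∀ A : Subgroup H, A.Normal → ¬ p ∣ Nat.card A → A ≤ M := by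
      intro A hAn hAp
      have hsupn : (A ⊔ M).Normal := inferInstance
      have hsupp : ¬ p ∣ Nat.card (A ⊔ M : Subgroup H) := by
        intro h
        rcases hp.dvd_mul.1 (h.trans (card_sup_dvd_mul A M)) with h | h
        · exact hAp h
        · exact hMp h
      have := hMmax (A ⊔ M) ⟨hsupn, hsupp⟩
      have heq : A ⊔ M = M := by
        by_contra hne
        exact this (lt_of_le_of_ne le_sup_right (Ne.symm hne))
      rw [← heq]
      exact le_sup_left
    -- `M` is invariant under conjugation by `G`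
    have hMconj : ∀ (g : G) (m : H), m ∈ M → (MulAut.conjNormal g : MulAut H) m ∈ M := by
      intro g m hm
      have hAn : (M.map (MulAut.conjNormal g : MulAut H).toMonoidHom).Normal :=
        hMn.map _ (MulAut.conjNormal g : MulAut H).surjective
      have hAp : ¬ p ∣ Nat.card (M.map (MulAut.conjNormal g : MulAut H).toMonoidHom) := by
        have hinj : Function.Injective (MulAut.conjNormal g : MulAut H).toMonoidHom :=
          MulEquiv.injective _
        rw [Subgroup.card_map_of_injective hinj]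
        exact hMp
      exact hle _ hAn hAp ⟨m, hm, rfl⟩
    set M' : Subgroup G := M.map H.subtype with hM'
    have hM'n : M'.Normal := by
      constructor
      rintro _ ⟨m, hm, rfl⟩ g
      exact ⟨(MulAut.conjNormal g : MulAut H) m, hMconj g m hm, by simp [MulAut.conjNormal_apply]⟩
    have hM'p : ¬ p ∣ Nat.card M' := by
      rw [hM', Subgroup.card_map_of_injective H.subtype_injective]
      exact hMp
    have hN'M : N.subgroupOf H ≤ M := by
      apply hle _ inferInstance
      rw [Nat.card_congr (Subgroup.subgroupOfEquivOfLe hNH.le).toEquiv]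
      exact hNp
    have hNM' : N ≤ M' := by
      intro x hx
      exact ⟨⟨x, hNH.le hx⟩, hN'M (Subgroup.mem_subgroupOf.2 hx), rfl⟩
    have hM'N : M' = N := hNmax M' hM'n hM'p hNM'
    apply le_antisymm _ hNT
    intro t ht
    have h1 : t ∈ M := hle T₁ hT hpT ht
    have h2 : (t : G) ∈ M' := ⟨t, h1, rfl⟩
    rw [hM'N] at h2
    exact Subgroup.mem_subgroupOf.2 h2

/-- **A simple section at a prime dividing the order exactly once.** If `p ∣ |G|` and
`p² ∤ |G|`, there are normal subgroups `N < H` of `G` with `H/N` simple, `p ∤ |N|` and `p ∣ |H|`. -/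
theorem exists_simple_section {G : Type*} [Group G] [Finite G] (p : ℕ) (hp : p.Prime)
    (hpG : p ∣ Nat.card G) (hp2 : ¬ p ^ 2 ∣ Nat.card G) :
    ∃ (N H : Subgroup G) (_ : N.Normal), H.Normal ∧ N < H ∧
      IsSimpleGroup (↥H ⧸ N.subgroupOf H) ∧ ¬ p ∣ Nat.card N ∧ p ∣ Nat.card H := by
  classical
  -- a maximal normal `p'`-subgroup
  obtain ⟨N, ⟨hNn, hNp⟩, hNmax⟩ :=
    WellFounded.has_min (wellFounded_gt : WellFounded ((· > ·) : Subgroup G → Subgroup G → Prop))
      {N : Subgroup G | N.Normal ∧ ¬ p ∣ Nat.card N}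
      ⟨⊥, inferInstance, by rw [Subgroup.card_bot]; exact hp.one_lt.ne' ∘ Nat.dvd_one.1⟩
  have hNtop : N ≠ ⊤ := by
    rintro rfl
    rw [Subgroup.card_top] at hNp
    exact hNp hpG
  -- a minimal normal subgroup above it
  obtain ⟨H, ⟨hHn, hNH⟩, hHmin⟩ :=
    WellFounded.has_min (wellFounded_lt : WellFounded ((· < ·) : Subgroup G → Subgroup G → Prop))
      {H : Subgroup G | H.Normal ∧ N < H} ⟨⊤, inferInstance, lt_top_iff_ne_top.2 hNtop⟩
  have hpH : p ∣ Nat.card H := by
    by_contra h
    exact hNmax H ⟨hHn, h⟩ hNH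
  have hNmax' : ∀ N₁ : Subgroup G, N₁.Normal → ¬ p ∣ Nat.card N₁ → N ≤ N₁ → N₁ = N := by
    intro N₁ h1 h2 h3
    by_contra hne
    exact hNmax N₁ ⟨h1, h2⟩ (lt_of_le_of_ne h3 (Ne.symm hne))
  have hHmin' : ∀ H₁ : Subgroup G, H₁.Normal → N < H₁ → H₁ ≤ H → H₁ = H := by
    intro H₁ h1 h2 h3
    by_contra hne
    exact hHmin H₁ ⟨h1, h2⟩ (lt_of_le_of_ne h3 hne)
  refine ⟨N, H, hNn, hHn, hNH, ?_, hNp, hpH⟩
  have hN'top : N.subgroupOf H ≠ ⊤ := by
    intro h
    exact (not_le_of_gt hNH) (Subgroup.subgroupOf_eq_top.1 h)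
  have hnt : Nontrivial (↥H ⧸ N.subgroupOf H) := by
    rw [← Finite.one_lt_card_iff_nontrivial, ← Subgroup.index_eq_card]
    exact Subgroup.one_lt_index_of_ne_top hN'top
  refine { toNontrivial := hnt, eq_bot_or_eq_top_of_normal := ?_ }
  intro T' hT'
  have hsurj : Function.Surjective (QuotientGroup.mk' (N.subgroupOf H)) :=
    QuotientGroup.mk'_surjective _
  set T₁ : Subgroup H := T'.comap (QuotientGroup.mk' (N.subgroupOf H)) with hT₁
  have hT₁n : T₁.Normal := hT'.comap _
  have hNT : N.subgroupOf H ≤ T₁ := by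
    intro x hx
    rw [hT₁, Subgroup.mem_comap]
    have : QuotientGroup.mk' (N.subgroupOf H) x = 1 := (QuotientGroup.eq_one_iff x).2 hx
    rw [this]
    exact T'.one_mem
  have hT'eq : T' = T₁.map (QuotientGroup.mk' (N.subgroupOf H)) :=
    (Subgroup.map_comap_eq_self_of_surjective hsurj T').symm
  rcases section_aux p hp hp2 N H hNp hNmax' hNH hHmin' hpH T₁ hT₁n hNT with h | h
  · left
    rw [hT'eq, h, QuotientGroup.map_mk'_self]
  · right
    rw [hT'eq, h, Subgroup.map_top_of_surjective _ hsurj]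

open Nat in
/-- Variant of Mathlib's `centralBinom_le_of_no_bertrand_prime`: the same bound holds when there
is exactly one prime in `(n, 2n]`. -/
theorem centralBinom_le_of_one_prime (n : ℕ) (n_large : 2 < n) (q : ℕ)
    (hnq : n < q) (hq2 : q ≤ 2 * n)
    (huniq : ∀ p : ℕ, p.Prime → n < p → p ≤ 2 * n → p = q) :
    centralBinom n ≤ (2 * n) ^ sqrt (2 * n) * 4 ^ (2 * n / 3) := by
  have n_pos : 0 < n := (Nat.zero_le _).trans_lt n_large
  have n2_pos : 1 ≤ 2 * n := mul_pos (zero_lt_two' ℕ) n_pos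
  let f : ℕ → ℕ := fun x => x ^ n.centralBinom.factorization x
  have hfle : ∀ x, f x ≤ 2 * n := fun x => pow_factorization_choose_le (mul_pos two_pos n_pos)
  -- the factorization of the central binomial coefficient
  have h1 : centralBinom n = f q * ∏ p ∈ Finset.range (2 * n / 3 + 1), f p := by
    have hqn : q ∉ Finset.range (2 * n / 3 + 1) := by
      rw [Finset.mem_range]; omega
    rw [← Finset.prod_insert hqn]
    refine (Eq.trans ?_ n.prod_pow_factorization_centralBinom).symm
    apply Finset.prod_subset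
    · intro x hx
      rw [Finset.mem_insert] at hx
      rw [Finset.mem_range]
      rcases hx with rfl | hx
      · omega
      · rw [Finset.mem_range] at hx; omega
    intro x hx h2x
    rw [Finset.mem_range, Nat.lt_succ_iff] at hx
    rw [Finset.mem_insert, Finset.mem_range, not_or] at h2x
    obtain ⟨hxq, h2x⟩ := h2x
    by_cases hxp : x.Prime
    · have hxn : x ≤ n := by
        by_contra h
        exact hxq (huniq x hxp (not_le.1 h) hx)
      have h3 : 2 * n < 3 * x := by omega
      change x ^ n.centralBinom.factorization x = 1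
      rw [factorization_centralBinom_of_two_mul_self_lt_three_mul n_large hxn h3, pow_zero]
    · change x ^ n.centralBinom.factorization x = 1
      rw [factorization_eq_zero_of_not_prime n.centralBinom hxp, pow_zero]
  let S := {p ∈ Finset.range (2 * n / 3 + 1) | Nat.Prime p}
  have hS : ∏ x ∈ S, f x = ∏ x ∈ Finset.range (2 * n / 3 + 1), f x := by
    refine Finset.prod_filter_of_ne fun p _ h => ?_
    contrapose h; dsimp only [f]
    rw [factorization_eq_zero_of_not_prime n.centralBinom h, _root_.pow_zero]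
  have h2 : ∏ x ∈ Finset.range (2 * n / 3 + 1), f x ≤
      (2 * n) ^ (sqrt (2 * n) - 1) * 4 ^ (2 * n / 3) := by
    rw [← hS, ← Finset.prod_filter_mul_prod_filter_not S (· ≤ sqrt (2 * n))]
    apply mul_le_mul'
    · refine (Finset.prod_le_prod' fun p _ => (hfle p)).trans ?_
      have hc : (Finset.Icc 2 (sqrt (2 * n))).card = sqrt (2 * n) - 1 := by
        rw [card_Icc]; omega
      rw [Finset.prod_const]
      refine pow_right_mono₀ n2_pos ((Finset.card_le_card fun x hx => ?_).trans hc.le)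
      obtain ⟨h1, h2⟩ := Finset.mem_filter.1 hx
      exact Finset.mem_Icc.mpr ⟨(Finset.mem_filter.1 h1).2.two_le, h2⟩
    · refine le_trans ?_ (primorial_le_four_pow (2 * n / 3))
      refine (Finset.prod_le_prod' fun p hp => (?_ : f p ≤ p)).trans ?_
      · obtain ⟨h1, h2⟩ := Finset.mem_filter.1 hp
        refine (pow_right_mono₀ (Finset.mem_filter.1 h1).2.one_lt.le ?_).trans (pow_one p).le
        exact Nat.factorization_choose_le_one (sqrt_lt'.mp <| not_le.1 h2)
      refine Finset.prod_le_prod_of_subset_of_one_le' (Finset.filter_subset _ _) ?_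
      exact fun p hp _ => (Finset.mem_filter.1 hp).2.one_lt.le
  have hsq : 1 ≤ sqrt (2 * n) := by
    rw [Nat.le_sqrt]; omega
  calc centralBinom n = f q * ∏ p ∈ Finset.range (2 * n / 3 + 1), f p := h1
    _ ≤ (2 * n) * ((2 * n) ^ (sqrt (2 * n) - 1) * 4 ^ (2 * n / 3)) := Nat.mul_le_mul (hfle q) h2
    _ = (2 * n) ^ sqrt (2 * n) * 4 ^ (2 * n / 3) := by
      rw [← mul_assoc, ← _root_.pow_succ', Nat.sub_add_cancel hsq]

theorem exists_two_primes_large (n : ℕ) (n_large : 512 ≤ n) :
    ∃ r p : ℕ, r.Prime ∧ p.Prime ∧ n < r ∧ r < p ∧ p ≤ 2 * n := by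
  obtain ⟨q, hq, hnq, hq2⟩ := Nat.exists_prime_lt_and_le_two_mul n (by omega)
  by_contra hcon
  have huniq : ∀ p : ℕ, p.Prime → n < p → p ≤ 2 * n → p = q := by
    intro p hp hnp hp2
    by_contra hne
    rcases lt_or_gt_of_ne hne with h | h
    · exact hcon ⟨p, q, hp, hq, hnp, h, hq2⟩
    · exact hcon ⟨q, p, hq, hp, hnq, h, hp2⟩
  have h1 : 4 ^ n < n * n.centralBinom := Nat.four_pow_lt_mul_centralBinom n (by omega)
  have h2 := centralBinom_le_of_one_prime n (by omega) q hnq hq2 huniq
  have h3 := bertrand_main_inequality n_large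
  have : n * n.centralBinom ≤ 4 ^ n := by
    calc n * n.centralBinom ≤ n * ((2 * n) ^ Nat.sqrt (2 * n) * 4 ^ (2 * n / 3)) :=
          Nat.mul_le_mul_left _ h2
      _ = n * (2 * n) ^ Nat.sqrt (2 * n) * 4 ^ (2 * n / 3) := by ring
      _ ≤ 4 ^ n := h3
  omega

/-- For `n ≥ 6` there are two primes in `(n, 2n]`. -/
theorem exists_two_primes (n : ℕ) (hn : 6 ≤ n) :
    ∃ r p : ℕ, r.Prime ∧ p.Prime ∧ n < r ∧ r < p ∧ p ≤ 2 * n := by
  rcases le_or_gt 512 n with h | h
  · exact exists_two_primes_large n h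
  have key : ∀ q r p : ℕ, r.Prime → p.Prime → r < p → p ≤ 2 * q → q ≤ n → n < r →
      ∃ r p : ℕ, r.Prime ∧ p.Prime ∧ n < r ∧ r < p ∧ p ≤ 2 * n :=
    fun q r p hr hp hrp hcov hq hnr => ⟨r, p, hr, hp, hnr, hrp, by omega⟩
  rcases lt_or_ge n 7 with h7 | h7
  · exact key 6 7 11 (by norm_num) (by norm_num) (by norm_num) (by norm_num) hn h7
  rcases lt_or_ge n 11 with h11 | h11
  · exact key 7 11 13 (by norm_num) (by norm_num) (by norm_num) (by norm_num) h7 h11
  rcases lt_or_ge n 13 with h13 | h13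
  · exact key 11 13 19 (by norm_num) (by norm_num) (by norm_num) (by norm_num) h11 h13
  rcases lt_or_ge n 19 with h19 | h19
  · exact key 13 19 23 (by norm_num) (by norm_num) (by norm_num) (by norm_num) h13 h19
  rcases lt_or_ge n 23 with h23 | h23
  · exact key 19 23 37 (by norm_num) (by norm_num) (by norm_num) (by norm_num) h19 h23
  rcases lt_or_ge n 37 with h37 | h37
  · exact key 23 37 43 (by norm_num) (by norm_num) (by norm_num) (by norm_num) h23 h37
  rcases lt_or_ge n 43 with h43 | h43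
  · exact key 37 43 73 (by norm_num) (by norm_num) (by norm_num) (by norm_num) h37 h43
  rcases lt_or_ge n 73 with h73 | h73
  · exact key 43 73 83 (by norm_num) (by norm_num) (by norm_num) (by norm_num) h43 h73
  rcases lt_or_ge n 83 with h83 | h83
  · exact key 73 83 139 (by norm_num) (by norm_num) (by norm_num) (by norm_num) h73 h83
  rcases lt_or_ge n 139 with h139 | h139
  · exact key 83 139 163 (by norm_num) (by norm_num) (by norm_num) (by norm_num) h83 h139
  rcases lt_or_ge n 163 with h163 | h163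
  · exact key 139 163 277 (by norm_num) (by norm_num) (by norm_num) (by norm_num) h139 h163
  rcases lt_or_ge n 277 with h277 | h277
  · exact key 163 277 317 (by norm_num) (by norm_num) (by norm_num) (by norm_num) h163 h277
  rcases lt_or_ge n 317 with h317 | h317
  · exact key 277 317 547 (by norm_num) (by norm_num) (by norm_num) (by norm_num) h277 h317
  · exact key 317 547 631 (by norm_num) (by norm_num) (by norm_num) (by norm_num) h317 (by omega)

theorem exists_mem_dvd_of_prime_dvd_lcm (p : ℕ) (hp : p.Prime) (s : Multiset ℕ) :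
    p ∣ s.lcm → ∃ a ∈ s, p ∣ a := by
  induction s using Multiset.induction_on with
  | empty =>
    intro h
    rw [Multiset.lcm_zero] at h
    exact absurd (Nat.dvd_one.1 h) hp.one_lt.ne'
  | cons a s ih =>
    intro h
    rw [Multiset.lcm_cons] at h
    have h' : p ∣ a * s.lcm := h.trans (Nat.lcm_dvd_mul a s.lcm)
    rcases hp.dvd_mul.1 h' with h1 | h1
    · exact ⟨a, Multiset.mem_cons_self a s, h1⟩
    · obtain ⟨b, hb, hpb⟩ := ih h1
      exact ⟨b, Multiset.mem_cons_of_mem hb, hpb⟩

/-- A permutation of fewer than `p + r` points has no element of order `p * r`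
(`p ≠ r` primes). -/
theorem perm_orderOf_ne_mul {α : Type*} [Fintype α] [DecidableEq α] (σ : Equiv.Perm α) (p r : ℕ)
    (hp : p.Prime) (hr : r.Prime) (hpr : p ≠ r) (hn : Fintype.card α < p + r) :
    orderOf σ ≠ p * r := by
  intro h
  have hlcm : σ.cycleType.lcm = p * r := by rw [Equiv.Perm.lcm_cycleType, h]
  obtain ⟨a, ha, hpa⟩ := exists_mem_dvd_of_prime_dvd_lcm p hp σ.cycleType
    (hlcm ▸ Dvd.intro _ rfl)
  obtain ⟨b, hb, hrb⟩ := exists_mem_dvd_of_prime_dvd_lcm r hr σ.cycleType
    (hlcm ▸ Dvd.intro_left _ rfl)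
  have hsum : σ.cycleType.sum ≤ Fintype.card α := Equiv.Perm.sum_cycleType_le σ
  have ha2 : 2 ≤ a := Equiv.Perm.two_le_of_mem_cycleType ha
  have hb2 : 2 ≤ b := Equiv.Perm.two_le_of_mem_cycleType hb
  have hpa' : p ≤ a := Nat.le_of_dvd (by omega) hpa
  have hrb' : r ≤ b := Nat.le_of_dvd (by omega) hrb
  obtain ⟨t, ht⟩ := Multiset.exists_cons_of_mem ha
  by_cases hab : a = b
  · subst hab
    have hcop : Nat.Coprime p r := (Nat.coprime_primes hp hr).2 hpr
    have hdvd : p * r ∣ a := hcop.mul_dvd_of_dvd_of_dvd hpa hrb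
    have h1 : p * r ≤ a := Nat.le_of_dvd (by omega) hdvd
    have h2 : a ≤ σ.cycleType.sum := by
      rw [ht, Multiset.sum_cons]; omega
    have hp2 := hp.two_le
    have hr2 := hr.two_le
    nlinarith
  · have hbt : b ∈ t := by
      rw [ht, Multiset.mem_cons] at hb
      rcases hb with hb | hb
      · exact absurd hb.symm hab
      · exact hb
    obtain ⟨u, hu⟩ := Multiset.exists_cons_of_mem hbt
    have h2 : a + b ≤ σ.cycleType.sum := by
      rw [ht, hu, Multiset.sum_cons, Multiset.sum_cons]; omega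
    omega

theorem two_mul_card_alternatingGroup_fin (n : ℕ) (hn : 2 ≤ n) :
    2 * Nat.card (alternatingGroup (Fin n)) = n.factorial := by
  have : Nontrivial (Fin n) := Fin.nontrivial_iff_two_le.2 hn
  rw [two_mul_nat_card_alternatingGroup, Nat.card_perm, Nat.card_eq_fintype_card,
    Fintype.card_fin]

theorem prime_sq_not_dvd_factorial (p n : ℕ) (hp : p.Prime) (hpn : p ≤ n) (hn : n < 2 * p) :
    ¬ p ^ 2 ∣ n.factorial := by
  have hp2 := hp.two_le
  have hlog : Nat.log p n < 2 := by
    apply Nat.log_lt_of_lt_pow (by omega)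
    nlinarith
  rw [hp.pow_dvd_factorial_iff hlog]
  have : ∑ i ∈ Finset.Ico 1 2, n / p ^ i = 1 := by
    have hI : Finset.Ico 1 2 = {1} := by decide
    rw [hI, Finset.sum_singleton, pow_one]
    apply Nat.div_eq_of_lt_le <;> omega
  omega

/-- Divisibility facts for an odd prime `p` with `n / 2 < p ≤ n`. -/
theorem prime_dvd_card_alternatingGroup (p n : ℕ) (hp : p.Prime) (hp2 : p ≠ 2) (hpn : p ≤ n)
    (hn : n < 2 * p) :
    p ∣ Nat.card (alternatingGroup (Fin n)) ∧ ¬ p ^ 2 ∣ Nat.card (alternatingGroup (Fin n)) := by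
  have h2 : 2 * Nat.card (alternatingGroup (Fin n)) = n.factorial :=
    two_mul_card_alternatingGroup_fin n (by have := hp.two_le; omega)
  constructor
  · have h1 : p ∣ 2 * Nat.card (alternatingGroup (Fin n)) := by
      rw [h2]; exact (hp.dvd_factorial).2 hpn
    rcases hp.dvd_mul.1 h1 with h | h
    · exact absurd ((Nat.prime_dvd_prime_iff_eq hp Nat.prime_two).1 h) hp2
    · exact h
  · intro h
    apply prime_sq_not_dvd_factorial p n hp hpn hn
    rw [← h2]
    exact Dvd.dvd.mul_left h 2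

/-- With `N ≤ H` normal subgroups of `G`, `p ∤ |N|`, `p ∣ |H|`, `p² ∤ |G|`: a second prime `r`
such that `G` has no element of order `p * r` (and the arithmetic conditions hold) divides
`|H/N|`. -/
theorem dvd_card_section {G : Type*} [Group G] [Finite G] (N H : Subgroup G) [N.Normal] [H.Normal]
    (hNH : N ≤ H) (p r : ℕ) (hp : p.Prime) (hr : r.Prime)
    (hpN : ¬ p ∣ Nat.card N) (hpH : p ∣ Nat.card H) (hp2 : ¬ p ^ 2 ∣ Nat.card G)
    (hrG : r ∣ Nat.card G) (hrp : ¬ r ∣ p - 1)
    (hpr : ∀ c : ℕ, 1 ≤ c → r ^ c ∣ Nat.card G → ¬ p ∣ r ^ c - 1)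
    (hno : ∀ g : G, orderOf g ≠ p * r) :
    r ∣ Nat.card (↥H ⧸ N.subgroupOf H) := by
  have hpG : p ∣ Nat.card G := hpH.trans (Subgroup.card_subgroup_dvd_card H)
  have hrN : ¬ r ∣ Nat.card N := by
    intro h
    obtain ⟨g, hg⟩ := exists_orderOf_eq_mul_of_normal N r p hr hp h hpN hpG
      (fun c hc hd => hpr c hc (hd.trans (Subgroup.card_subgroup_dvd_card N)))
    exact hno g (by rw [hg, mul_comm])
  have hrH : r ∣ Nat.card H := by
    by_contra h
    obtain ⟨g, hg⟩ := exists_orderOf_eq_mul_of_normal H p r hp hr hpH h hrG (by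
      intro c hc hd
      have hc1 : c = 1 := by
        by_contra hne
        have h2 : 2 ≤ c := by omega
        exact hp2 ((pow_dvd_pow p h2).trans (hd.trans (Subgroup.card_subgroup_dvd_card H)))
      subst hc1
      rw [pow_one]
      exact hrp)
    exact hno g hg
  have hcard : Nat.card H = Nat.card (↥H ⧸ N.subgroupOf H) * Nat.card N := by
    rw [Subgroup.card_eq_card_quotient_mul_card_subgroup (N.subgroupOf H),
      Nat.card_congr (Subgroup.subgroupOfEquivOfLe hNH).toEquiv]
  rw [hcard] at hrH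
  exact (hr.dvd_mul.1 hrH).resolve_right hrN

theorem dvd_card_section_self {G : Type*} [Group G] [Finite G] (N H : Subgroup G) [N.Normal]
    (hNH : N ≤ H) (p : ℕ) (hp : p.Prime) (hpN : ¬ p ∣ Nat.card N) (hpH : p ∣ Nat.card H) :
    p ∣ Nat.card (↥H ⧸ N.subgroupOf H) := by
  have hcard : Nat.card H = Nat.card (↥H ⧸ N.subgroupOf H) * Nat.card N := by
    rw [Subgroup.card_eq_card_quotient_mul_card_subgroup (N.subgroupOf H),
      Nat.card_congr (Subgroup.subgroupOfEquivOfLe hNH).toEquiv]
  rw [hcard] at hpH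
  exact (hp.dvd_mul.1 hpH).resolve_right hpN

/-- A commutative simple group has prime order. -/
theorem prime_card_of_simple_of_comm {Q : Type*} [Group Q] [IsSimpleGroup Q]
    (h : ∀ a b : Q, a * b = b * a) : (Nat.card Q).Prime := by
  let _ : CommGroup Q := { ‹Group Q› with mul_comm := h }
  exact IsSimpleGroup.prime_card

/-- A simple group whose order is divisible by two distinct primes is not commutative. -/
theorem not_comm_of_simple_of_two_primes {Q : Type*} [Group Q] [IsSimpleGroup Q] (p r : ℕ)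
    (hp : p.Prime) (hr : r.Prime) (hne : p ≠ r) (hpQ : p ∣ Nat.card Q) (hrQ : r ∣ Nat.card Q) :
    ¬ ∀ a b : Q, a * b = b * a := by
  intro h
  have hprime := prime_card_of_simple_of_comm h
  have h1 : p = Nat.card Q := (Nat.prime_dvd_prime_iff_eq hp hprime).1 hpQ
  have h2 : r = Nat.card Q := (Nat.prime_dvd_prime_iff_eq hr hprime).1 hrQ
  exact hne (h1.trans h2.symm)

/-- Two distinct odd primes `p`, `q` with `q ≤ n < 2 * p`: `p ∤ q - 1`. -/
theorem prime_not_dvd_pred (p q n : ℕ) (hp : p.Prime) (hq : q.Prime) (hp2 : p ≠ 2) (hq2 : q ≠ 2)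
    (hqn : q ≤ n) (hnp : n < 2 * p) : ¬ p ∣ q - 1 := by
  rintro ⟨k, hk⟩
  have hpodd : p % 2 = 1 := hp.eq_two_or_odd.resolve_left hp2
  have hqodd : q % 2 = 1 := hq.eq_two_or_odd.resolve_left hq2
  have hq1 := hq.two_le
  have hk1 : k = 1 := by
    have h0 : k ≠ 0 := by
      rintro rfl
      omega
    have h2 : k < 2 := by
      by_contra h
      have : 2 * p ≤ p * k := by nlinarith
      omega
    omega
  subst hk1
  omega

/-- **Simple section of a group with the order and spectrum of `A_n`.** For an odd prime `p` with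
`n / 2 < p ≤ n` there are normal subgroups `N < H` with `H/N` simple of order divisible by `p`,
and by every further prime `r` satisfying the arithmetic conditions. -/
theorem alt_section {G : Type*} [Group G] [Finite G] (n : ℕ)
    (hcard : Nat.card G = Nat.card ↥(alternatingGroup (Fin n)))
    (hspec : Set.range (orderOf : G → ℕ) = Set.range (orderOf : ↥(alternatingGroup (Fin n)) → ℕ))
    (p : ℕ) (hp : p.Prime) (hp2 : p ≠ 2) (hpn : p ≤ n) (hnp : n < 2 * p) :
    ∃ (N H : Subgroup G) (_ : N.Normal), H.Normal ∧ N < H ∧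
      IsSimpleGroup (↥H ⧸ N.subgroupOf H) ∧ p ∣ Nat.card (↥H ⧸ N.subgroupOf H) ∧
      ∀ r : ℕ, r.Prime → r ≠ p → n < p + r → r ∣ Nat.card G → ¬ r ∣ p - 1 →
        (∀ c : ℕ, 1 ≤ c → r ^ c ∣ Nat.card G → ¬ p ∣ r ^ c - 1) →
        r ∣ Nat.card (↥H ⧸ N.subgroupOf H) := by
  obtain ⟨hpA, hpA2⟩ := prime_dvd_card_alternatingGroup p n hp hp2 hpn hnp
  rw [← hcard] at hpA hpA2
  obtain ⟨N, H, hNn, hHn, hNH, hsimple, hpN, hpH⟩ := exists_simple_section p hp hpA hpA2
  refine ⟨N, H, hNn, hHn, hNH, hsimple, dvd_card_section_self N H hNH.le p hp hpN hpH, ?_⟩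
  intro r hr hrp hnpr hrG hrp1 hcond
  have hno : ∀ g : G, orderOf g ≠ p * r := by
    intro g hg
    have hmem : p * r ∈ Set.range (orderOf : ↥(alternatingGroup (Fin n)) → ℕ) := by
      rw [← hspec]
      exact ⟨g, hg⟩
    obtain ⟨σ, hσ⟩ := hmem
    rw [← Subgroup.orderOf_coe] at hσ
    exact perm_orderOf_ne_mul (σ : Equiv.Perm (Fin n)) p r hp hr (Ne.symm hrp)
      (by rw [Fintype.card_fin]; exact hnpr) hσ
  exact dvd_card_section N H hNH.le p r hp hr hpN hpH hpA2 hrG hrp1 hcond hno

end Cfsg.Agent.Helper57
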