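import Cfsg.Agent.Helper57.ListSub
import Cfsg.Agent.Helper57.QMat

/-!
# `2.A₅ ≤ SL(2, 11)` with its map onto `A₅` (seat helper57)

`g211L` lists the 120 pairs `(σ, m)` of the subgroup of `A₅ × SL(2, 11)` generated by `(α, a)` and
`(β, b)`; the certificates show that the list is stable under right multiplication by the generating pairs,
and that `(1, m)` occurs only for `m = ±1`.  `g211W` gives, for every `t ≠ 0`, two words `w₁, w₂` in `a, b`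
with `w₁ · T · w₂ = ± T^t` for the transvection `T`: the stabiliser `A₅` of a coset is transitive on the
other ten cosets.
-/

set_option autoImplicit false

namespace Cfsg.Agent.Helper57

/-- A self-map of `Fin 5`, as a structure. -/
structure P5 where
  /-- image of 0 -/
  v0 : Fin 5
  /-- image of 1 -/
  v1 : Fin 5
  /-- image of 2 -/
  v2 : Fin 5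
  /-- image of 3 -/
  v3 : Fin 5
  /-- image of 4 -/
  v4 : Fin 5
  deriving DecidableEq

namespace P5

/-- the map -/
def app (x : P5) : Fin 5 → Fin 5 := ![x.v0, x.v1, x.v2, x.v3, x.v4]

/-- composition -/
def mul (x y : P5) : P5 := ⟨x.app y.v0, x.app y.v1, x.app y.v2, x.app y.v3, x.app y.v4⟩

/-- identity -/
def one : P5 := ⟨0, 1, 2, 3, 4⟩

theorem app_mul (x y : P5) : app (mul x y) = app x ∘ app y := by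
  funext i
  fin_cases i <;> rfl

theorem app_one : app one = id := by
  funext i
  fin_cases i <;> rfl

theorem app_injective : Function.Injective app := by
  intro x y h
  have h0 := congrFun h 0
  have h1 := congrFun h 1
  have h2 := congrFun h 2
  have h3 := congrFun h 3
  have h4 := congrFun h 4
  cases x
  cases y
  simp only [app] at h0 h1 h2 h3 h4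
  simp only [Matrix.cons_val_zero, Matrix.cons_val_one, Matrix.cons_val] at h0 h1 h2 h3 h4
  subst h0 h1 h2 h3 h4
  rfl

end P5

/-- codes: a self-map of `Fin 5` and a 2×2 matrix mod 11 -/
abbrev C211 : Type := P5 × Q2 (ZMod 11)

/-- componentwise product of codes -/
def c211mul (x y : C211) : C211 := (P5.mul x.1 y.1, Q2.mul x.2 y.2)

set_option maxRecDepth 1000000 in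
/-- The 120 pairs. -/
def g211L : List C211 := [
  (⟨0, 1, 2, 3, 4⟩, ⟨1, 0, 0, 1⟩),
  (⟨1, 0, 3, 2, 4⟩, ⟨0, 1, 10, 0⟩),
  (⟨2, 1, 4, 3, 0⟩, ⟨0, 2, 5, 10⟩),
  (⟨0, 1, 2, 3, 4⟩, ⟨10, 0, 0, 10⟩),
  (⟨3, 0, 4, 2, 1⟩, ⟨5, 10, 0, 9⟩),
  (⟨1, 2, 3, 4, 0⟩, ⟨9, 0, 1, 5⟩),
  (⟨4, 1, 0, 3, 2⟩, ⟨10, 9, 6, 0⟩),
  (⟨1, 0, 3, 2, 4⟩, ⟨0, 10, 1, 0⟩),
  (⟨2, 1, 4, 3, 0⟩, ⟨0, 9, 6, 1⟩),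
  (⟨0, 3, 2, 4, 1⟩, ⟨1, 5, 2, 0⟩),
  (⟨4, 0, 1, 2, 3⟩, ⟨6, 0, 1, 2⟩),
  (⟨3, 2, 0, 4, 1⟩, ⟨0, 7, 3, 8⟩),
  (⟨1, 4, 3, 0, 2⟩, ⟨2, 10, 0, 6⟩),
  (⟨3, 0, 4, 2, 1⟩, ⟨6, 1, 0, 2⟩),
  (⟨1, 2, 3, 4, 0⟩, ⟨2, 0, 10, 6⟩),
  (⟨4, 1, 0, 3, 2⟩, ⟨1, 2, 5, 0⟩),
  (⟨2, 3, 1, 4, 0⟩, ⟨3, 8, 0, 4⟩),
  (⟨0, 4, 2, 1, 3⟩, ⟨0, 6, 9, 1⟩),
  (⟨2, 3, 4, 0, 1⟩, ⟨4, 0, 3, 3⟩),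
  (⟨0, 2, 1, 4, 3⟩, ⟨2, 4, 7, 9⟩),
  (⟨3, 4, 2, 0, 1⟩, ⟨6, 5, 8, 5⟩),
  (⟨0, 3, 2, 4, 1⟩, ⟨10, 6, 9, 0⟩),
  (⟨4, 0, 1, 2, 3⟩, ⟨5, 0, 10, 9⟩),
  (⟨3, 2, 0, 4, 1⟩, ⟨0, 4, 8, 3⟩),
  (⟨1, 4, 3, 0, 2⟩, ⟨9, 1, 0, 5⟩),
  (⟨3, 2, 4, 1, 0⟩, ⟨3, 3, 7, 0⟩),
  (⟨1, 3, 0, 4, 2⟩, ⟨7, 9, 9, 7⟩),
  (⟨2, 4, 3, 1, 0⟩, ⟨8, 5, 5, 6⟩),
  (⟨4, 3, 1, 0, 2⟩, ⟨0, 8, 4, 3⟩),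
  (⟨2, 0, 4, 1, 3⟩, ⟨7, 2, 2, 7⟩),
  (⟨4, 3, 0, 2, 1⟩, ⟨6, 6, 6, 8⟩),
  (⟨2, 4, 1, 0, 3⟩, ⟨3, 7, 3, 0⟩),
  (⟨2, 3, 1, 4, 0⟩, ⟨8, 3, 0, 7⟩),
  (⟨0, 4, 2, 1, 3⟩, ⟨0, 5, 2, 10⟩),
  (⟨2, 3, 4, 0, 1⟩, ⟨7, 0, 8, 8⟩),
  (⟨0, 2, 1, 4, 3⟩, ⟨9, 7, 4, 2⟩),
  (⟨3, 4, 2, 0, 1⟩, ⟨5, 6, 3, 6⟩),
  (⟨4, 2, 0, 1, 3⟩, ⟨4, 3, 0, 3⟩),
  (⟨3, 1, 4, 0, 2⟩, ⟨2, 7, 4, 9⟩),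
  (⟨4, 2, 1, 3, 0⟩, ⟨6, 8, 5, 5⟩),
  (⟨3, 4, 0, 1, 2⟩, ⟨3, 0, 8, 4⟩),
  (⟨1, 3, 2, 0, 4⟩, ⟨7, 3, 4, 5⟩),
  (⟨4, 0, 3, 1, 2⟩, ⟨10, 1, 2, 8⟩),
  (⟨0, 3, 1, 2, 4⟩, ⟨8, 6, 7, 4⟩),
  (⟨3, 2, 4, 1, 0⟩, ⟨8, 8, 4, 0⟩),
  (⟨1, 3, 0, 4, 2⟩, ⟨4, 2, 2, 4⟩),
  (⟨2, 4, 3, 1, 0⟩, ⟨3, 6, 6, 5⟩),
  (⟨4, 3, 1, 0, 2⟩, ⟨0, 3, 7, 8⟩),
  (⟨2, 0, 4, 1, 3⟩, ⟨4, 9, 9, 4⟩),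
  (⟨4, 3, 0, 2, 1⟩, ⟨5, 5, 5, 3⟩),
  (⟨2, 4, 1, 0, 3⟩, ⟨8, 4, 8, 0⟩),
  (⟨0, 2, 3, 1, 4⟩, ⟨4, 5, 4, 8⟩),
  (⟨4, 1, 2, 0, 3⟩, ⟨2, 8, 1, 10⟩),
  (⟨1, 2, 0, 3, 4⟩, ⟨7, 4, 3, 5⟩),
  (⟨3, 1, 0, 2, 4⟩, ⟨8, 7, 6, 4⟩),
  (⟨0, 4, 1, 3, 2⟩, ⟨10, 10, 3, 2⟩),
  (⟨3, 0, 2, 1, 4⟩, ⟨5, 8, 7, 7⟩),
  (⟨1, 3, 4, 2, 0⟩, ⟨8, 10, 9, 10⟩),
  (⟨4, 2, 0, 1, 3⟩, ⟨7, 8, 0, 8⟩),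
  (⟨3, 1, 4, 0, 2⟩, ⟨9, 4, 7, 2⟩),
  (⟨4, 2, 1, 3, 0⟩, ⟨5, 3, 6, 6⟩),
  (⟨3, 4, 0, 1, 2⟩, ⟨8, 0, 3, 7⟩),
  (⟨1, 3, 2, 0, 4⟩, ⟨4, 8, 7, 6⟩),
  (⟨4, 0, 3, 1, 2⟩, ⟨1, 10, 9, 3⟩),
  (⟨0, 3, 1, 2, 4⟩, ⟨3, 5, 4, 7⟩),
  (⟨2, 0, 1, 3, 4⟩, ⟨6, 4, 3, 4⟩),
  (⟨1, 4, 0, 2, 3⟩, ⟨3, 2, 1, 1⟩),
  (⟨2, 1, 3, 0, 4⟩, ⟨7, 7, 6, 3⟩),
  (⟨0, 2, 4, 3, 1⟩, ⟨9, 10, 3, 1⟩),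
  (⟨0, 1, 4, 2, 3⟩, ⟨2, 9, 9, 8⟩),
  (⟨1, 4, 2, 3, 0⟩, ⟨6, 10, 10, 4⟩),
  (⟨3, 1, 2, 4, 0⟩, ⟨1, 8, 1, 9⟩),
  (⟨0, 2, 3, 1, 4⟩, ⟨7, 6, 7, 3⟩),
  (⟨4, 1, 2, 0, 3⟩, ⟨9, 3, 10, 1⟩),
  (⟨1, 2, 0, 3, 4⟩, ⟨4, 7, 8, 6⟩),
  (⟨3, 1, 0, 2, 4⟩, ⟨3, 4, 5, 7⟩),
  (⟨0, 4, 1, 3, 2⟩, ⟨1, 1, 8, 9⟩),
  (⟨3, 0, 2, 1, 4⟩, ⟨6, 3, 4, 4⟩),
  (⟨1, 3, 4, 2, 0⟩, ⟨3, 1, 2, 1⟩),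
  (⟨1, 0, 4, 3, 2⟩, ⟨9, 8, 9, 2⟩),
  (⟨0, 4, 3, 2, 1⟩, ⟨10, 4, 5, 1⟩),
  (⟨2, 0, 3, 4, 1⟩, ⟨1, 9, 10, 3⟩),
  (⟨1, 0, 2, 4, 3⟩, ⟨2, 2, 3, 9⟩),
  (⟨4, 1, 3, 2, 0⟩, ⟨1, 6, 7, 10⟩),
  (⟨2, 4, 0, 3, 1⟩, ⟨6, 2, 9, 5⟩),
  (⟨2, 1, 0, 4, 3⟩, ⟨7, 5, 1, 4⟩),
  (⟨2, 0, 1, 3, 4⟩, ⟨5, 7, 8, 7⟩),
  (⟨1, 4, 0, 2, 3⟩, ⟨8, 9, 10, 10⟩),
  (⟨2, 1, 3, 0, 4⟩, ⟨4, 4, 5, 8⟩),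
  (⟨0, 2, 4, 3, 1⟩, ⟨2, 1, 8, 10⟩),
  (⟨0, 1, 4, 2, 3⟩, ⟨9, 2, 2, 3⟩),
  (⟨1, 4, 2, 3, 0⟩, ⟨5, 1, 1, 7⟩),
  (⟨3, 1, 2, 4, 0⟩, ⟨10, 3, 10, 2⟩),
  (⟨0, 1, 3, 4, 2⟩, ⟨3, 9, 9, 9⟩),
  (⟨4, 0, 2, 3, 1⟩, ⟨7, 10, 10, 5⟩),
  (⟨3, 4, 1, 2, 0⟩, ⟨9, 5, 5, 9⟩),
  (⟨3, 0, 1, 4, 2⟩, ⟨1, 4, 4, 6⟩),
  (⟨2, 0, 3, 4, 1⟩, ⟨10, 2, 1, 8⟩),
  (⟨4, 2, 3, 0, 1⟩, ⟨9, 6, 6, 9⟩),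
  (⟨1, 2, 4, 0, 3⟩, ⟨6, 7, 7, 1⟩),
  (⟨1, 0, 4, 3, 2⟩, ⟨2, 3, 2, 9⟩),
  (⟨0, 4, 3, 2, 1⟩, ⟨1, 7, 6, 10⟩),
  (⟨1, 0, 2, 4, 3⟩, ⟨9, 9, 8, 2⟩),
  (⟨4, 1, 3, 2, 0⟩, ⟨10, 5, 4, 1⟩),
  (⟨2, 4, 0, 3, 1⟩, ⟨5, 9, 2, 6⟩),
  (⟨2, 1, 0, 4, 3⟩, ⟨4, 6, 10, 7⟩),
  (⟨4, 3, 2, 1, 0⟩, ⟨6, 9, 2, 5⟩),
  (⟨0, 3, 4, 1, 2⟩, ⟨7, 1, 5, 4⟩),
  (⟨3, 0, 1, 4, 2⟩, ⟨10, 7, 7, 5⟩),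
  (⟨3, 2, 1, 0, 4⟩, ⟨8, 1, 1, 3⟩),
  (⟨4, 2, 3, 0, 1⟩, ⟨2, 5, 5, 2⟩),
  (⟨0, 1, 3, 4, 2⟩, ⟨8, 2, 2, 2⟩),
  (⟨4, 0, 2, 3, 1⟩, ⟨4, 1, 1, 6⟩),
  (⟨3, 4, 1, 2, 0⟩, ⟨2, 6, 6, 2⟩),
  (⟨1, 2, 4, 0, 3⟩, ⟨5, 4, 4, 10⟩),
  (⟨2, 3, 0, 1, 4⟩, ⟨1, 3, 3, 10⟩),
  (⟨4, 3, 2, 1, 0⟩, ⟨5, 2, 9, 6⟩),
  (⟨0, 3, 4, 1, 2⟩, ⟨4, 10, 6, 7⟩),
  (⟨2, 3, 0, 1, 4⟩, ⟨10, 8, 8, 1⟩),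
  (⟨3, 2, 1, 0, 4⟩, ⟨3, 10, 10, 8⟩)]

/-- the generating pair `(α, a)` -/
def g211A : C211 := (⟨1, 0, 3, 2, 4⟩, ⟨0, 1, 10, 0⟩)
/-- the generating pair `(β, b)` -/
def g211B : C211 := (⟨2, 1, 4, 3, 0⟩, ⟨0, 2, 5, 10⟩)

set_option maxRecDepth 1000000 in
theorem g211L_one : ((P5.one, Q2.one) : C211) ∈ g211L := by decide +kernel

set_option maxRecDepth 1000000 in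
theorem g211L_mulA : ∀ x ∈ g211L, c211mul x g211A ∈ g211L := by decide +kernel

set_option maxRecDepth 1000000 in
theorem g211L_mulB : ∀ x ∈ g211L, c211mul x g211B ∈ g211L := by decide +kernel

set_option maxRecDepth 1000000 in
theorem g211L_fst_one : ∀ x ∈ g211L, x.1 = P5.one → x.2 = Q2.one ∨ x.2 = ⟨10, 0, 0, 10⟩ := by
  decide +kernel

/-- the value of a word in `a` (`false`) and `b` (`true`) -/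
def word211 : List Bool → Q2 (ZMod 11)
  | [] => Q2.one
  | g :: w => Q2.mul (if g then g211B.2 else g211A.2) (word211 w)

/-- The certificates of transitivity: pairs of words. -/
def g211W : List (List Bool × List Bool) := [
  ([], []),
  ([false, true, false], [true, false, true, false, true, true, false, true]),
  ([true], [true, false, true, false, true, true, false, true, false, true, true, false]),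
  ([true, true, false], [false, false, false, true]),
  ([true, false], [true, false, true, true, false, true, false, true]),
  ([false, true, false, true, false], [true, false, true, false, true, true]),
  ([true, false, true, false], [true, true, false, true]),
  ([false], [true, false, true, false, true, true, false, true, false, true]),
  ([false, true, true], [true, true, false, true, false, true, true, false, true, false, true, true]),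
  ([true, true], [false, true, true, false, true, false])]

set_option maxRecDepth 1000000 in
theorem g211W_spec : ∀ t : ZMod 11, t ≠ 0 → ∃ p ∈ g211W,
    Q2.mul (Q2.mul (word211 p.1) ⟨1, 1, 0, 1⟩) (word211 p.2) = ⟨1, t, 0, 1⟩ ∨
    Q2.mul (Q2.mul (word211 p.1) ⟨1, 1, 0, 1⟩) (word211 p.2) = ⟨10, -t, 0, 10⟩ := by
  decide +kernel

end Cfsg.Agent.Helper57
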