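import Cfsg.Agent.Helper94.UMax

/-!
# CALL S5798 (helper71), piece UB: maximality of the unitary similarity group in `SL_n`, `n ≥ 6`

Copy of `Cfsg/Agent/Helper94/UMax.lean` (helper94) with `5 < card ι` and the three existence
statements that need the dimension (`hboth`, `hsum`, `hcrit`) as hypotheses.
-/

set_option autoImplicit false
set_option linter.unusedSectionVars false
set_option linter.unusedSimpArgs false
set_option linter.unusedVariables false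

namespace Cfsg.Agent.Helper57.S6UB

open Matrix Cfsg Cfsg.Agent.Helper93 Cfsg.Agent.Helper94 Cfsg.Geo

universe u

variable {F : Type u} [Field F] {ι : Type} [Fintype ι] [DecidableEq ι]
variable {σ : F ≃+* F} {f : (ι → F) → (ι → F) → F}

/-- If, for every isotropic `c`, the form `f (·) c` is proportional to `f (g ·) (g c)`, then
`g` is a similarity. -/
theorem sim_of_iso6 [Finite F] (h : UF σ f) (hn : 5 < Fintype.card ι)
    (hboth : ∀ a y₁ y₂ : ι → F, f y₁ a = 0 → (¬ ∃ l : F, y₁ = l • a) → f y₂ a = 0 →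
      (¬ ∃ l : F, y₂ = l • a) → ∃ c, f c c = 0 ∧ f c a = 0 ∧ f y₁ c ≠ 0 ∧ f y₂ c ≠ 0)
    (hsum : ∀ a v : ι → F, f v a = 0 →
      ∃ c₁ c₂ : ι → F, ∃ s : F, f c₁ c₁ = 0 ∧ f c₂ c₂ = 0 ∧ f c₁ a = 0 ∧ f c₂ a = 0 ∧
        (¬ ∃ l : F, c₁ = l • a) ∧ (¬ ∃ l : F, c₂ = l • a) ∧ v = c₁ + s • c₂)
    (g : GL ι F)
    (hg : ∀ c, f c c = 0 → ∃ κ : F, ∀ y,
      f y c = κ * f ((g : Matrix ι ι F) *ᵥ y) ((g : Matrix ι ι F) *ᵥ c)) :
    g ∈ similarityGroup f := by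
  have step1 : ∀ (c₁ c₂ : ι → F) (κ₁ κ₂ : F), f c₁ c₂ ≠ 0 →
      (∀ y, f y c₁ = κ₁ * f ((g : Matrix ι ι F) *ᵥ y) ((g : Matrix ι ι F) *ᵥ c₁)) →
      (∀ y, f y c₂ = κ₂ * f ((g : Matrix ι ι F) *ᵥ y) ((g : Matrix ι ι F) *ᵥ c₂)) →
      κ₂ = σ κ₁ := by
    intro c₁ c₂ κ₁ κ₂ h12 h1 h2
    have e1 := h2 c₁
    have e2 := h1 c₂
    have e3 : f c₁ c₂ = σ κ₁ * f ((g : Matrix ι ι F) *ᵥ c₁) ((g : Matrix ι ι F) *ᵥ c₂) := by
      rw [h.herm c₁ c₂, e2, map_mul, h.sigma_apply]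
    have hne : f ((g : Matrix ι ι F) *ᵥ c₁) ((g : Matrix ι ι F) *ᵥ c₂) ≠ 0 := by
      intro h0
      apply h12
      rw [e1, h0, mul_zero]
    have : (κ₂ - σ κ₁) * f ((g : Matrix ι ι F) *ᵥ c₁) ((g : Matrix ι ι F) *ᵥ c₂) = 0 := by
      linear_combination e3 - e1
    rcases mul_eq_zero.mp this with h' | h'
    · exact sub_eq_zero.mp h'
    · exact absurd h' hne
  have step2 : ∀ (c₁ c₂ : ι → F) (κ₁ κ₂ : F), f c₁ c₁ = 0 → f c₂ c₂ = 0 → f c₁ c₂ ≠ 0 →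
      (∀ y, f y c₁ = κ₁ * f ((g : Matrix ι ι F) *ᵥ y) ((g : Matrix ι ι F) *ᵥ c₁)) →
      (∀ y, f y c₂ = κ₂ * f ((g : Matrix ι ι F) *ᵥ y) ((g : Matrix ι ι F) *ᵥ c₂)) →
      κ₁ = κ₂ := by
    intro c₁ c₂ κ₁ κ₂ h11 h22 h12 h1 h2
    obtain ⟨ν, hν0, hν⟩ := uf_exists_tr0 σ h.invol h.ne_id
    obtain ⟨s, hs⟩ : ∃ s : F, σ s * f c₁ c₂ = ν :=
      ⟨σ (ν / f c₁ c₂), by rw [h.invol, div_mul_cancel₀ _ h12]⟩
    have hs' : s * f c₂ c₁ = -ν := by
      have := congrArg σ hs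
      rw [map_mul, h.invol, h.sigma_apply, hν] at this
      exact this
    have h33 : f (c₁ + s • c₂) (c₁ + s • c₂) = 0 := by
      simp only [h.add_left, h.add_right, h.smul_left, h.smul_right, h11, h22]
      linear_combination hs + hs'
    obtain ⟨κ₃, h3⟩ := hg _ h33
    have h13 : f c₁ (c₁ + s • c₂) ≠ 0 := by
      rw [h.add_right, h.smul_right, h11, zero_add, hs]
      exact hν0
    have h32 : f (c₁ + s • c₂) c₂ ≠ 0 := by
      rw [h.add_left, h.smul_left, h22, mul_zero, add_zero]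
      exact h12
    have e1 := step1 _ _ _ _ h13 h1 h3
    have e2 := step1 _ _ _ _ h32 h3 h2
    rw [e2, e1, h.invol]
  have step3 : ∀ (c₁ c₂ : ι → F) (κ₁ κ₂ : F), f c₁ c₁ = 0 → f c₂ c₂ = 0 → c₁ ≠ 0 → c₂ ≠ 0 →
      (∀ y, f y c₁ = κ₁ * f ((g : Matrix ι ι F) *ᵥ y) ((g : Matrix ι ι F) *ᵥ c₁)) →
      (∀ y, f y c₂ = κ₂ * f ((g : Matrix ι ι F) *ᵥ y) ((g : Matrix ι ι F) *ᵥ c₂)) →
      κ₁ = κ₂ := by
    intro c₁ c₂ κ₁ κ₂ h11 h22 hc1 hc2 h1 h2
    obtain ⟨c₃, h33, -, h13, h23⟩ := hboth 0 c₁ c₂ (h.zero_right _)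
      (by rintro ⟨l, hl⟩; exact hc1 (by rw [hl, smul_zero])) (h.zero_right _)
      (by rintro ⟨l, hl⟩; exact hc2 (by rw [hl, smul_zero]))
    obtain ⟨κ₃, h3⟩ := hg _ h33
    rw [step2 _ _ _ _ h11 h33 h13 h1 h3, step2 _ _ _ _ h22 h33 h23 h2 h3]
  obtain ⟨z, hzz, -⟩ := h.exists_aniso (k := 0) (fun i => 0) (by omega)
  have hz0 : z ≠ 0 := by
    rintro rfl
    exact hzz (h.zero_left _)
  have hzl : ¬ ∃ l : F, z = l • (0 : ι → F) := by
    rintro ⟨l, hl⟩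
    exact hz0 (by rw [hl, smul_zero])
  obtain ⟨c₀, h00, -, hz0c, -⟩ := hboth 0 z z (h.zero_right _) hzl
    (h.zero_right _) hzl
  have hc0 : c₀ ≠ 0 := by
    rintro rfl
    exact hz0c (h.zero_right _)
  obtain ⟨κ₀, h0⟩ := hg _ h00
  have hκ0 : κ₀ ≠ 0 := by
    rintro rfl
    obtain ⟨x, hx⟩ := h.nondeg c₀ hc0
    exact hx (by rw [h0, zero_mul])
  have hall : ∀ c, f c c = 0 → ∀ y,
      f y c = κ₀ * f ((g : Matrix ι ι F) *ᵥ y) ((g : Matrix ι ι F) *ᵥ c) := by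
    intro c hcc y
    by_cases hc : c = 0
    · rw [hc, mulVec_zero, h.zero_right, h.zero_right, mul_zero]
    · obtain ⟨κ, hκ⟩ := hg c hcc
      rw [step3 _ _ _ _ h00 hcc hc0 hc h0 hκ]
      exact hκ y
  refine ⟨Units.mk0 κ₀⁻¹ (inv_ne_zero hκ0), fun u v => ?_⟩
  obtain ⟨c₁, c₂, s, h11, h22, -, -, -, -, rfl⟩ := hsum 0 v (h.zero_right _)
  rw [Units.val_mk0, mulVec_add, mulVec_smul, h.add_right, h.smul_right, h.add_right,
    h.smul_right, hall c₁ h11 u, hall c₂ h22 u]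
  field_simp

/-- An overgroup of `H` containing a non-similarity contains a non-unitary transvection. -/
theorem exists_tv_of_not_sim6 [Finite F] (h : UF σ f) (hn : 5 < Fintype.card ι)
    (hboth : ∀ a y₁ y₂ : ι → F, f y₁ a = 0 → (¬ ∃ l : F, y₁ = l • a) → f y₂ a = 0 →
      (¬ ∃ l : F, y₂ = l • a) → ∃ c, f c c = 0 ∧ f c a = 0 ∧ f y₁ c ≠ 0 ∧ f y₂ c ≠ 0)
    (hsum : ∀ a v : ι → F, f v a = 0 →
      ∃ c₁ c₂ : ι → F, ∃ s : F, f c₁ c₁ = 0 ∧ f c₂ c₂ = 0 ∧ f c₁ a = 0 ∧ f c₂ a = 0 ∧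
        (¬ ∃ l : F, c₁ = l • a) ∧ (¬ ∃ l : F, c₂ = l • a) ∧ v = c₁ + s • c₂)
    (M : Subgroup (GL ι F))
    (hHM : similarityGroup f ⊓ specialLinear ι F ≤ M) (g : GL ι F) (hgM : g ∈ M)
    (hg : g ∉ similarityGroup f) :
    ∃ a b, a ≠ 0 ∧ f a b = 0 ∧ (¬ ∃ l : F, b = l • a) ∧ tvh f a b ∈ M := by
  by_contra hcon
  apply hg
  apply sim_of_iso6 h hn hboth hsum
  intro c hcc
  by_contra hκ
  apply hcon
  let φ : (ι → F) →ₗ[F] F := (h.fl c).comp (Matrix.toLin' ((g⁻¹ : GL ι F) : Matrix ι ι F))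
  obtain ⟨b', hb'⟩ := h.riesz φ
  have hb'' : ∀ x, f x b' = f (((g⁻¹ : GL ι F) : Matrix ι ι F) *ᵥ x) c := fun x => by
    rw [hb']
    rfl
  obtain ⟨ν, hν0, hν⟩ := uf_exists_tr0 σ h.invol h.ne_id
  have hconj : g * tvh f c (ν • c) * g⁻¹ = tvh f ((g : Matrix ι ι F) *ᵥ c) (ν • b') := by
    apply h.tvh_conj g (by rw [h.smul_right, hcc, mul_zero])
    intro y
    rw [h.smul_right, h.smul_right, hb'', ugl_inv_mulVec]
  refine ⟨(g : Matrix ι ι F) *ᵥ c, ν • b', ?_, ?_, ?_, ?_⟩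
  · intro h0
    have hc0 : c = 0 := ugl_mulVec_eq_zero g h0
    exact hκ ⟨0, fun y => by rw [hc0, h.zero_right, zero_mul]⟩
  · rw [h.smul_right, hb'', ugl_inv_mulVec, hcc, mul_zero]
  · rintro ⟨l, hl⟩
    apply hκ
    refine ⟨σ (ν⁻¹ * l), fun y => ?_⟩
    have hb3 : b' = (ν⁻¹ * l) • ((g : Matrix ι ι F) *ᵥ c) := by
      rw [mul_smul, ← hl, smul_smul, inv_mul_cancel₀ hν0, one_smul]
    have := hb'' ((g : Matrix ι ι F) *ᵥ y)
    rw [ugl_inv_mulVec] at this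
    rw [← this, hb3, h.smul_right]
  · rw [← hconj]
    exact M.mul_mem (M.mul_mem hgM (hHM (h.tvh_unitary_mem hcc hν))) (M.inv_mem hgM)

/-- If an overgroup `M` of `H` contains one non-unitary transvection with centre `a`, it contains
all transvections with centre `a`. -/
theorem full_of_tv6 [Finite F] (h : UF σ f) (hn : 5 < Fintype.card ι)
    (hboth : ∀ a y₁ y₂ : ι → F, f y₁ a = 0 → (¬ ∃ l : F, y₁ = l • a) → f y₂ a = 0 →
      (¬ ∃ l : F, y₂ = l • a) → ∃ c, f c c = 0 ∧ f c a = 0 ∧ f y₁ c ≠ 0 ∧ f y₂ c ≠ 0)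
    (hsum : ∀ a v : ι → F, f v a = 0 →
      ∃ c₁ c₂ : ι → F, ∃ s : F, f c₁ c₁ = 0 ∧ f c₂ c₂ = 0 ∧ f c₁ a = 0 ∧ f c₂ a = 0 ∧
        (¬ ∃ l : F, c₁ = l • a) ∧ (¬ ∃ l : F, c₂ = l • a) ∧ v = c₁ + s • c₂)
    (hcrit : ∀ a b₁ c' : ι → F, f b₁ c' ≠ 0 →
      ∃ z, f z z ≠ 0 ∧ f z a = 0 ∧ f z b₁ = 0 ∧ f z c' = 0)
    (M : Subgroup (GL ι F))
    (hHM : similarityGroup f ⊓ specialLinear ι F ≤ M) {a b : ι → F} (hab : f a b = 0)
    (hb : ¬ ∃ l : F, b = l • a) (hM : tvh f a b ∈ M) :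
    ∀ b₂, f a b₂ = 0 → tvh f a b₂ ∈ M := by
  let B : (ι → F) → Prop := fun b => f a b = 0 ∧ tvh f a b ∈ M
  have Badd : ∀ b₁ b₂, B b₁ → B b₂ → B (b₁ + b₂) := fun b₁ b₂ h1 h2 =>
    ⟨by rw [h.add_right, h1.1, h2.1, add_zero], by
      rw [← h.tvh_mul h1.1 h2.1]
      exact M.mul_mem h1.2 h2.2⟩
  have Bneg : ∀ b₁, B b₁ → B (-b₁) := fun b₁ h1 =>
    ⟨by rw [h.neg_right, h1.1, neg_zero], by
      rw [← h.tvh_inv h1.1]
      exact M.inv_mem h1.2⟩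
  have Bconj : ∀ (b₁ c : ι → F) (ν : F), B b₁ → f c c = 0 → f a c = 0 → σ ν = -ν →
      B ((ν * f b₁ c) • c) := by
    intro b₁ c ν h1 hcc hac hν
    have hν' : σ (-ν) = -(-ν) := by rw [map_neg, hν]
    obtain ⟨t, ht⟩ : ∃ t : GL ι F, t = tvh f c ((-ν) • c) := ⟨_, rfl⟩
    have htM : t ∈ M := by
      rw [ht]
      exact hHM (h.tvh_unitary_mem hcc hν')
    have hc0 : f c ((-ν) • c) = 0 := by rw [h.smul_right, hcc, mul_zero]
    have hta : (t : Matrix ι ι F) *ᵥ a = a := by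
      rw [ht, h.tvh_mulVec hc0, h.smul_right, hac, mul_zero, zero_smul, add_zero]
    have hisom : ∀ u v, f ((t : Matrix ι ι F) *ᵥ u) ((t : Matrix ι ι F) *ᵥ v) = f u v := by
      intro u v
      rw [ht]
      exact h.tvh_unitary_isom hcc hν' u v
    have hconj : t * tvh f a b₁ * t⁻¹ = tvh f ((t : Matrix ι ι F) *ᵥ a) ((t : Matrix ι ι F) *ᵥ b₁) :=
      h.tvh_conj t h1.1 (fun y => (hisom y b₁).symm)
    rw [hta] at hconj
    have htb : (t : Matrix ι ι F) *ᵥ b₁ = b₁ + (ν * f b₁ c) • c := by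
      rw [ht, h.tvh_mulVec hc0, h.smul_right, map_neg, hν, neg_neg]
    have hB2 : B (b₁ + (ν * f b₁ c) • c) := by
      rw [← htb]
      refine ⟨?_, ?_⟩
      · have := hisom a b₁
        rw [hta] at this
        rw [this]
        exact h1.1
      · rw [← hconj]
        exact M.mul_mem (M.mul_mem htM h1.2) (M.inv_mem htM)
    have := Badd _ _ hB2 (Bneg _ h1)
    rwa [add_neg_cancel_comm] at this
  have key : ∀ (b₁ c' : ι → F), B b₁ → f c' c' = 0 → f a c' = 0 → f b₁ c' ≠ 0 →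
      ∀ t : F, B (t • c') := by
    intro b₁ c' h1 hcc hac hbc t
    obtain ⟨z, hzz, hza, hzb, hzc⟩ :
        ∃ z, f z z ≠ f b₁ b₁ ∧ f z a = 0 ∧ f z b₁ = 0 ∧ f z c' = 0 := by
      by_cases hbb : f b₁ b₁ = 0
      · obtain ⟨z, hzz, hza, hzb, hzc⟩ := hcrit a b₁ c' hbc
        exact ⟨z, by rw [hbb]; exact hzz, hza, hzb, hzc⟩
      · exact ⟨0, by rw [h.zero_left]; exact fun h0 => hbb h0.symm, h.zero_left _,
          h.zero_left _, h.zero_left _⟩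
    obtain ⟨γ, hγ⟩ := uf_exists_tr σ h.invol h.ne_id (-(f b₁ b₁) - f z z)
      (by rw [map_sub, map_neg, h.self_fix, h.self_fix])
    obtain ⟨β, hβ⟩ : ∃ β : F, σ β * f b₁ c' = γ :=
      ⟨σ (γ / f b₁ c'), by rw [h.invol, div_mul_cancel₀ _ hbc]⟩
    have hβ' : β * f c' b₁ = σ γ := by
      rw [← hβ, map_mul, h.invol, h.sigma_apply]
    obtain ⟨c, hc⟩ : ∃ c : ι → F, c = b₁ + β • c' + z := ⟨_, rfl⟩
    have hcc2 : f c c = 0 := by
      rw [hc]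
      simp only [h.add_left, h.add_right, h.smul_left, h.smul_right, hcc, hzb, hzc,
        h.swap_zero hzb, h.swap_zero hzc]
      linear_combination hγ + hβ + hβ'
    have hac2 : f a c = 0 := by
      rw [hc, h.add_right, h.add_right, h.smul_right, h1.1, hac, h.swap_zero hza]
      ring
    have hw : f b₁ c = f b₁ b₁ + γ := by
      rw [hc, h.add_right, h.add_right, h.smul_right, h.swap_zero hzb, hβ]
      ring
    have hwtr : f b₁ c + σ (f b₁ c) ≠ 0 := by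
      rw [hw, map_add, h.self_fix]
      intro h0
      apply hzz
      linear_combination hγ - h0
    have hcc' : f c c' = f b₁ c' := by
      rw [hc, h.add_left, h.add_left, h.smul_left, hcc, hzc]
      ring
    have stepA : ∀ ν ν' : F, σ ν = -ν → σ ν' = -ν' →
        B ((ν' * (ν * f b₁ c * f b₁ c')) • c') := by
      intro ν ν' hν hν'
      have hb1 := Bconj b₁ c ν h1 hcc2 hac2 hν
      have hb2 := Bconj _ c' ν' hb1 hcc hac hν'
      rwa [h.smul_left, hcc'] at hb2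
    have stepB : ∀ ν : F, σ ν = -ν → B ((ν * f b₁ c') • c') :=
      fun ν hν => Bconj b₁ c' ν h1 hcc hac hν
    obtain ⟨r, μ, hr, hμ, hrμ⟩ := uf_tr_decomp σ h.invol (f b₁ c) hwtr (t / f b₁ c')
    obtain ⟨ν₀, hν₀0, hν₀⟩ := uf_exists_tr0 σ h.invol h.ne_id
    have hrν : σ (r / ν₀) = -(r / ν₀) := by
      rw [map_div₀, hr, hν₀, div_neg]
    have := Badd _ _ (stepA ν₀ (r / ν₀) hν₀ hrν) (stepB μ hμ)
    have e : (r / ν₀ * (ν₀ * f b₁ c * f b₁ c')) • c' + (μ * f b₁ c') • c' = t • c' := by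
      rw [← add_smul]
      congr 1
      have : t = (r * f b₁ c + μ) * f b₁ c' := by rw [← hrμ, div_mul_cancel₀ _ hbc]
      rw [this]
      field_simp
    rwa [e] at this
  have hB : B b := ⟨hab, hM⟩
  have hba : f b a = 0 := h.swap_zero hab
  obtain ⟨c', hcc', hc'a, hbc', -⟩ := hboth a b b hba hb hba hb
  have hFc' : ∀ t : F, B (t • c') := key b c' hB hcc' (h.swap_zero hc'a) hbc'
  have hc'l : ¬ ∃ l : F, c' = l • a := by
    rintro ⟨l, rfl⟩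
    apply hbc'
    rw [h.smul_right, hba, mul_zero]
  have spread : ∀ c'' : ι → F, f c'' c'' = 0 → f c'' a = 0 → (¬ ∃ l : F, c'' = l • a) →
      ∀ t : F, B (t • c'') := by
    intro c'' hcc'' hc''a hc''l
    obtain ⟨c₃, h33, h3a, h13, h23⟩ := hboth a c' c'' hc'a hc'l hc''a hc''l
    have h3 : ∀ t : F, B (t • c₃) :=
      key c' c₃ (by simpa using hFc' 1) h33 (h.swap_zero h3a) h13
    exact key c₃ c'' (by simpa using h3 1) hcc'' (h.swap_zero hc''a) (h.swap_ne h23)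
  intro b₂ hab₂
  obtain ⟨c₁, c₂, s, h11, h22, h1a, h2a, h1l, h2l, rfl⟩ :=
    hsum a b₂ (h.swap_zero hab₂)
  have := Badd _ _ (spread c₁ h11 h1a h1l 1) (spread c₂ h22 h2a h2l s)
  rw [one_smul] at this
  exact this.2

/-- If an overgroup `M` of `H` contains all transvections with one centre `a ≠ 0`, it contains
all transvections. -/
theorem all_tv_of_full6 [Finite F] (h : UF σ f) (hn : 5 < Fintype.card ι)
    (hboth : ∀ a y₁ y₂ : ι → F, f y₁ a = 0 → (¬ ∃ l : F, y₁ = l • a) → f y₂ a = 0 →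
      (¬ ∃ l : F, y₂ = l • a) → ∃ c, f c c = 0 ∧ f c a = 0 ∧ f y₁ c ≠ 0 ∧ f y₂ c ≠ 0)
    (hsum : ∀ a v : ι → F, f v a = 0 →
      ∃ c₁ c₂ : ι → F, ∃ s : F, f c₁ c₁ = 0 ∧ f c₂ c₂ = 0 ∧ f c₁ a = 0 ∧ f c₂ a = 0 ∧
        (¬ ∃ l : F, c₁ = l • a) ∧ (¬ ∃ l : F, c₂ = l • a) ∧ v = c₁ + s • c₂)
    (M : Subgroup (GL ι F))
    (hHM : similarityGroup f ⊓ specialLinear ι F ≤ M) {a : ι → F} (ha : a ≠ 0)
    (hfull : ∀ b, f a b = 0 → tvh f a b ∈ M) :
    ∀ u b, f u b = 0 → tvh f u b ∈ M := by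
  let S : (ι → F) → Prop := fun a => ∀ b, f a b = 0 → tvh f a b ∈ M
  have S0 : S 0 := fun b _ => by
    have : tvh f 0 b = 1 := by
      apply ugl_ext
      intro x
      rw [h.tvh_mulVec (h.zero_left b), smul_zero, add_zero, Units.val_one, one_mulVec]
    rw [this]
    exact M.one_mem
  have Ssmul : ∀ (c : F) (a : ι → F), S a → S (c • a) := by
    intro c a hS b hb
    by_cases hc : c = 0
    · rw [hc, zero_smul]
      exact S0 b (h.zero_left b)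
    · have hab : f a b = 0 := by
        rw [h.smul_left] at hb
        exact (mul_eq_zero.mp hb).resolve_left hc
      rw [h.tvh_smul c hab]
      exact hS _ (by rw [h.smul_right, hab, mul_zero])
  have Sconj : ∀ (k : GL ι F) (a : ι → F), k ∈ M → S a → S ((k : Matrix ι ι F) *ᵥ a) := by
    intro k a hk hS b₂ hb₂
    let φ : (ι → F) →ₗ[F] F := (h.fl b₂).comp (Matrix.toLin' (k : Matrix ι ι F))
    obtain ⟨b, hb⟩ := h.riesz φ
    have hb' : ∀ y, f y b = f ((k : Matrix ι ι F) *ᵥ y) b₂ := fun y => by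
      rw [hb]
      rfl
    have hab : f a b = 0 := by rw [hb', hb₂]
    rw [← h.tvh_conj k hab hb']
    exact M.mul_mem (M.mul_mem hk (hS b hab)) (M.inv_mem hk)
  have Sadd : ∀ a₁ a₂ : ι → F, S a₁ → S a₂ → S (a₁ + a₂) := by
    intro a₁ a₂ h1 h2
    by_cases hdep : ∃ l : F, a₁ = l • a₂
    · obtain ⟨l, rfl⟩ := hdep
      have : l • a₂ + a₂ = (l + 1) • a₂ := by module
      rw [this]
      exact Ssmul _ _ h2
    · obtain ⟨y, hy2, hy1⟩ : ∃ y, f y a₂ = 0 ∧ f y a₁ ≠ 0 := by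
        by_contra hcon
        push Not at hcon
        exact hdep (h.mem_line_of_perp hcon)
      obtain ⟨s, hs⟩ : ∃ s : F, σ s * f a₁ y = 1 :=
        ⟨σ (f a₁ y)⁻¹, by rw [h.invol, inv_mul_cancel₀ (h.swap_ne hy1)]⟩
      have h2b : f a₂ (s • y) = 0 := by rw [h.smul_right, h.swap_zero hy2, mul_zero]
      have hk : tvh f a₂ (s • y) ∈ M := h2 _ h2b
      have := Sconj _ a₁ hk h1
      rwa [h.tvh_mulVec h2b, h.smul_right, hs, one_smul] at this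
  have Sneg : ∀ a : ι → F, S a → S (-a) := fun a hS => by
    have := Ssmul (-1) a hS
    rwa [neg_one_smul] at this
  have Siso : ∀ a c : ι → F, S a → f c c = 0 → f a c ≠ 0 → S c := by
    intro a c hS hcc hac
    obtain ⟨ν, hν0, hν⟩ := uf_exists_tr0 σ h.invol h.ne_id
    have hc0 : f c (ν • c) = 0 := by rw [h.smul_right, hcc, mul_zero]
    have h1 := Sconj _ a (hHM (h.tvh_unitary_mem hcc hν)) hS
    rw [h.tvh_mulVec hc0, h.smul_right] at h1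
    have h2 := Sadd _ _ h1 (Sneg _ hS)
    rw [add_neg_cancel_comm] at h2
    have h3 := Ssmul (σ ν * f a c)⁻¹ _ h2
    rwa [smul_smul, inv_mul_cancel₀ (mul_ne_zero (by rw [hν]; exact neg_ne_zero.mpr hν0) hac),
      one_smul] at h3
  have Sall_iso : ∀ c : ι → F, f c c = 0 → S c := by
    intro c hcc
    by_cases hc : c = 0
    · rw [hc]
      exact S0
    · obtain ⟨c₃, h33, -, h13, h23⟩ := hboth 0 a c (h.zero_right _)
        (by rintro ⟨l, hl⟩; exact ha (by rw [hl, smul_zero])) (h.zero_right _)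
        (by rintro ⟨l, hl⟩; exact hc (by rw [hl, smul_zero]))
      exact Siso c₃ c (Siso a c₃ hfull h33 h13) hcc (h.swap_ne h23)
  intro u b hub
  obtain ⟨c₁, c₂, s, h11, h22, -, -, -, -, rfl⟩ := hsum 0 u (h.zero_right _)
  exact Sadd _ _ (Sall_iso c₁ h11) (Ssmul s _ (Sall_iso c₂ h22)) b hub

/-- **Maximality of the unitary similarity group in `SL`.** -/
theorem unitary_sim_max6 [Finite F] (h : UF σ f) (hn : 5 < Fintype.card ι)
    (hboth : ∀ a y₁ y₂ : ι → F, f y₁ a = 0 → (¬ ∃ l : F, y₁ = l • a) → f y₂ a = 0 →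
      (¬ ∃ l : F, y₂ = l • a) → ∃ c, f c c = 0 ∧ f c a = 0 ∧ f y₁ c ≠ 0 ∧ f y₂ c ≠ 0)
    (hsum : ∀ a v : ι → F, f v a = 0 →
      ∃ c₁ c₂ : ι → F, ∃ s : F, f c₁ c₁ = 0 ∧ f c₂ c₂ = 0 ∧ f c₁ a = 0 ∧ f c₂ a = 0 ∧
        (¬ ∃ l : F, c₁ = l • a) ∧ (¬ ∃ l : F, c₂ = l • a) ∧ v = c₁ + s • c₂)
    (hcrit : ∀ a b₁ c' : ι → F, f b₁ c' ≠ 0 →
      ∃ z, f z z ≠ 0 ∧ f z a = 0 ∧ f z b₁ = 0 ∧ f z c' = 0) :
    IsMaximalIn (specialLinear ι F) (similarityGroup f ⊓ specialLinear ι F) := by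
  have : Nontrivial ι := Fintype.one_lt_card_iff_nontrivial.mp (by omega)
  refine ⟨lt_of_le_of_ne inf_le_right ?_, ?_⟩
  · intro heq
    obtain ⟨z₁, hz₁, -⟩ := h.exists_aniso (k := 0) (fun i => 0) (by omega)
    obtain ⟨z₂, hz₂, hz⟩ := h.exists_aniso ![z₁] (by omega)
    have h21 : f z₂ z₁ = 0 := by simpa using hz 0
    have h12 : f z₁ z₂ = 0 := h.swap_zero h21
    have hT : tvh f z₁ z₂ ∈ similarityGroup f := by
      have : tvh f z₁ z₂ ∈ similarityGroup f ⊓ specialLinear ι F := by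
        rw [heq]
        exact tvh_mem_SL _ _ _
      exact this.1
    obtain ⟨c, hc⟩ := hT
    have e := hc z₂ z₁
    rw [h.tvh_mulVec h12, h.tvh_mulVec h12, h12, zero_smul, add_zero, h.add_left, h.smul_left,
      h21, zero_add, mul_zero] at e
    exact mul_ne_zero hz₂ hz₁ e
  · intro M hHM hMS
    by_cases hMH : M ≤ similarityGroup f ⊓ specialLinear ι F
    · exact Or.inl (le_antisymm hMH hHM)
    · right
      refine le_antisymm hMS ?_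
      obtain ⟨g, hgM, hgH⟩ := SetLike.not_le_iff_exists.mp hMH
      have hg : g ∉ similarityGroup f := fun hg' => hgH ⟨hg', hMS hgM⟩
      obtain ⟨a, b, ha, hab, hb, hT⟩ := exists_tv_of_not_sim6 h hn hboth hsum M hHM g hgM hg
      have hfull := full_of_tv6 h hn hboth hsum hcrit M hHM hab hb hT
      have hall := all_tv_of_full6 h hn hboth hsum M hHM ha hfull
      apply Helper93.SL_le_of_all_tv
      intro u ψ hψ
      obtain ⟨b, hub, hb⟩ := h.tv_eq_tvh u ψ hψ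
      rw [hb]
      exact hall u b hub

end Cfsg.Agent.Helper57.S6UB
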