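import Cfsg.Agent.Helper81.Blocks
import Cfsg.Agent.Helper79.Basic
import Cfsg.Agent.Helper80.CharIrr

/-!
CALL S0998 (helper79), piece DEC: `θ θ̄'` is a character; its multiplicities are natural numbers
and are computed by the inner product.
-/

set_option autoImplicit false
open Cfsg
open scoped ComplexConjugate

universe u

namespace Cfsg.Agent.Helper57

/-- DEC -/
theorem s998_dec {G : Type u} [Group G] [Fintype G] (θ θ' : Cfsg.IrrCharacter G) :
    ∃ c : Cfsg.IrrCharacter G → ℕ,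
      (∀ g : G, (θ : G → ℂ) g * conj ((θ' : G → ℂ) g)
        = ∑ᶠ χ : Cfsg.IrrCharacter G, (c χ : ℂ) * (χ : G → ℂ) g) ∧
      (∀ χ : Cfsg.IrrCharacter G,
        ∑ g : G, (θ : G → ℂ) g * conj ((θ' : G → ℂ) g) * conj ((χ : G → ℂ) g)
          = (Nat.card G : ℂ) * (c χ : ℂ)) := by
  classical
  letI := Fintype.ofFinite (Cfsg.IrrCharacter G)
  have hchar : IsCharacter G ((θ : G → ℂ) * fun g => conj ((θ' : G → ℂ) g)) :=
    Helper79.isCharacter_mul (Helper79.irr_isCharacter θ)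
      (Helper79.isCharacter_conj (Helper79.irr_isCharacter θ'))
  obtain ⟨n, ρ, hρ⟩ := hchar
  obtain ⟨m, hm⟩ := Helper81.exists_mult_of_mem_natSpanIrr (Helper81.character_mem_natSpanIrr ρ)
  rw [hρ] at hm
  have hpt : ∀ g : G, (θ : G → ℂ) g * conj ((θ' : G → ℂ) g)
      = ∑ χ : Cfsg.IrrCharacter G, (m χ : ℂ) * (χ : G → ℂ) g := by
    intro g
    have := congrFun hm g
    simp only [Finset.sum_apply, Pi.mul_apply, Pi.smul_apply, smul_eq_mul] at this
    exact this
  refine ⟨m, ?_, ?_⟩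
  · intro g
    rw [finsum_eq_sum_of_fintype]
    exact hpt g
  · intro χ
    have h1 : ∀ g : G, (θ : G → ℂ) g * conj ((θ' : G → ℂ) g) * conj ((χ : G → ℂ) g)
        = ∑ ψ : Cfsg.IrrCharacter G, (m ψ : ℂ) * ((ψ : G → ℂ) g * conj ((χ : G → ℂ) g)) := by
      intro g
      rw [hpt g, Finset.sum_mul]
      exact Finset.sum_congr rfl (fun ψ _ => by ring)
    rw [Finset.sum_congr rfl (fun g _ => h1 g), Finset.sum_comm]
    have h2 : ∀ ψ : Cfsg.IrrCharacter G,
        ∑ g : G, (m ψ : ℂ) * ((ψ : G → ℂ) g * conj ((χ : G → ℂ) g))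
          = if ψ = χ then (m χ : ℂ) * (Fintype.card G : ℂ) else 0 := by
      intro ψ
      rw [← Finset.mul_sum, Helper80.irr_orthogonality_conj]
      split_ifs with h
      · rw [h]
      · rw [mul_zero]
    rw [Finset.sum_congr rfl (fun ψ _ => h2 ψ), Finset.sum_ite_eq' Finset.univ χ]
    simp [Nat.card_eq_fintype_card, mul_comm]

end Cfsg.Agent.Helper57
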