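import Mathlib

/-!
CALL S0998 (helper79), piece NB3C: the degrees of the non-exceptional characters in the case
`e + r = p`, `e = q ^ c`.  Pure arithmetic.
-/

set_option autoImplicit false

namespace Cfsg.Agent.Helper57

/-- a divisor of `p * r * q ^ b` prime to `p` is `q ^ j` or `r * q ^ j`. -/
theorem s998_nb3c_shape (d p q r b : ℕ) (hp : p.Prime) (hq : q.Prime) (hr : r.Prime)
    (hnd : ¬ p ∣ d) (hd : d ∣ p * r * q ^ b) : ∃ j : ℕ, d = q ^ j ∨ d = r * q ^ j := by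
  have hcop : Nat.Coprime d p := ((Nat.Prime.coprime_iff_not_dvd hp).mpr hnd).symm
  have h1 : d ∣ r * q ^ b := by
    rw [mul_assoc] at hd
    exact hcop.dvd_of_dvd_mul_left hd
  obtain ⟨y, z, hy, hz, rfl⟩ := (Nat.dvd_mul).mp h1
  obtain ⟨j, -, rfl⟩ := (Nat.dvd_prime_pow hq).mp hz
  rcases (Nat.dvd_prime hr).mp hy with rfl | rfl
  · exact ⟨j, Or.inl (by rw [one_mul])⟩
  · exact ⟨j, Or.inr rfl⟩

theorem s998_nb3c_not_dvd (d p : ℕ) (s : ℤ) (hp : p.Prime) (hs : s = 1 ∨ s = -1)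
    (h : (d : ℤ) ≡ s [ZMOD p]) : ¬ p ∣ d := by
  intro hpd
  have h1 : (p : ℤ) ∣ s - d := (Int.modEq_iff_dvd).mp h
  have h2 : (p : ℤ) ∣ (d : ℤ) := Int.natCast_dvd_natCast.mpr hpd
  have h3 : (p : ℤ) ∣ s := by
    have := dvd_add h1 h2
    simpa using this
  have h4 : (p : ℤ) ∣ 1 := by
    rcases hs with rfl | rfl
    · exact h3
    · simpa using h3
  have h5 : p ∣ 1 := by exact_mod_cast h4
  have := Nat.le_of_dvd one_pos h5
  have := hp.one_lt
  omega

/-- NB3C -/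
theorem s998_nb3_class {ι : Type*} (X1 X2 : Finset ι) (d : ι → ℕ) (p q r b e c h : ℕ)
    (hp : p.Prime) (hq : q.Prime) (hr : r.Prime) (hpq : p ≠ q) (hpr : p ≠ r) (hqr : q ≠ r)
    (hr3 : 3 ≤ r) (he3 : 3 ≤ e) (hep : e + r = p) (hc1 : 1 ≤ c) (hch : c < h)
    (hec : e = q ^ c) (hph : p ∣ q ^ h + 1)
    (hneg : ∀ j : ℕ, p ∣ q ^ j + 1 → ∃ m : ℕ, j = h + 2 * h * m)
    (hpos : ∀ j : ℕ, p ∣ q ^ j - 1 → ∃ m : ℕ, j = 2 * h * m)
    (hd1 : ∀ χ ∈ X1, ((d χ : ℤ) ≡ 1 [ZMOD p]) ∧ 2 ≤ d χ ∧ d χ ∣ p * r * q ^ b)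
    (hd2 : ∀ χ ∈ X2, ((d χ : ℤ) ≡ -1 [ZMOD p]) ∧ 2 ≤ d χ ∧ d χ ∣ p * r * q ^ b)
    (hle1 : ∀ χ ∈ X1, d χ ≤ r ^ 2) (hle2 : ∀ χ ∈ X2, d χ ≤ r ^ 2) :
    (∀ χ ∈ X1, d χ = r * q ^ (h - c)) ∧ (∀ χ ∈ X2, d χ = q ^ h) := by
  have hq2 : 2 ≤ q := hq.two_le
  have hq1 : 1 ≤ q := by omega
  -- `q ^ h ≥ r + 2`
  have hQ : r + 2 ≤ q ^ h := by
    have := Nat.le_of_dvd (by positivity) hph
    omega
  have hQ1 : 1 ≤ q ^ h := by omega
  -- `r ≡ - q ^ c`
  have hrz : (r : ℤ) = (p : ℤ) - (q : ℤ) ^ c := by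
    have : (e : ℤ) + r = p := by exact_mod_cast hep
    have h2 : (e : ℤ) = (q : ℤ) ^ c := by exact_mod_cast hec
    linarith
  have hsq : ∀ j : ℕ, 2 * h ≤ j → (r + 2) ^ 2 ≤ q ^ j := by
    intro j hj
    calc (r + 2) ^ 2 ≤ (q ^ h) ^ 2 := Nat.pow_le_pow_left hQ 2
      _ = q ^ (2 * h) := by rw [← pow_mul, mul_comm]
      _ ≤ q ^ j := Nat.pow_le_pow_right hq1 hj
  have hm1 : ∀ m : ℕ, m ≠ 0 → 2 * h ≤ 2 * h * m := by
    intro m hm
    have : 1 ≤ m := Nat.one_le_iff_ne_zero.mpr hm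
    nlinarith
  refine ⟨fun χ hχ => ?_, fun χ hχ => ?_⟩
  · obtain ⟨hmod, h2, hdvd⟩ := hd1 χ hχ
    have hle := hle1 χ hχ
    have hnd := s998_nb3c_not_dvd (d χ) p 1 hp (Or.inl rfl) hmod
    obtain ⟨j, hj | hj⟩ := s998_nb3c_shape (d χ) p q r b hp hq hr hnd hdvd
    · -- `d = q ^ j`, `q ^ j ≡ 1`
      exfalso
      have h1 : (p : ℤ) ∣ 1 - (d χ : ℤ) := (Int.modEq_iff_dvd).mp hmod
      have h3 : p ∣ q ^ j - 1 := by
        have hpos' : 1 ≤ q ^ j := Nat.one_le_pow _ _ (by omega)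
        have : (p : ℤ) ∣ ((q ^ j - 1 : ℕ) : ℤ) := by
          rw [Nat.cast_sub hpos']
          have : (p : ℤ) ∣ -(1 - (d χ : ℤ)) := (dvd_neg).mpr h1
          rw [hj] at this
          push_cast at this ⊢
          convert this using 1
          ring
        exact_mod_cast this
      obtain ⟨m, hm⟩ := hpos j h3
      have hm0 : m ≠ 0 := by
        rintro rfl
        rw [hm] at hj
        simp at hj
        omega
      have := hsq j (by rw [hm]; exact hm1 m hm0)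
      rw [← hj] at this
      nlinarith
    · -- `d = r * q ^ j`, `q ^ (c + j) ≡ -1`
      have h1 : (p : ℤ) ∣ 1 - (d χ : ℤ) := (Int.modEq_iff_dvd).mp hmod
      have h3 : p ∣ q ^ (c + j) + 1 := by
        have : (p : ℤ) ∣ ((q ^ (c + j) + 1 : ℕ) : ℤ) := by
          rw [hj] at h1
          push_cast at h1 ⊢
          rw [hrz] at h1
          have h4 : (p : ℤ) ∣ (p : ℤ) * (q : ℤ) ^ j := dvd_mul_right _ _
          have := Int.dvd_add h1 h4
          convert this using 1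
          ring
        exact_mod_cast this
      obtain ⟨m, hm⟩ := hneg (c + j) h3
      rcases Nat.eq_zero_or_pos m with rfl | hmpos
      · have : j = h - c := by omega
        rw [hj, this]
      · exfalso
        have h5 := hm1 m (by omega)
        have := hsq j (by omega)
        rw [hj] at hle
        nlinarith
  · obtain ⟨hmod, h2, hdvd⟩ := hd2 χ hχ
    have hle := hle2 χ hχ
    have hnd := s998_nb3c_not_dvd (d χ) p (-1) hp (Or.inr rfl) hmod
    obtain ⟨j, hj | hj⟩ := s998_nb3c_shape (d χ) p q r b hp hq hr hnd hdvd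
    · -- `d = q ^ j`, `q ^ j ≡ -1`
      have h1 : (p : ℤ) ∣ -1 - (d χ : ℤ) := (Int.modEq_iff_dvd).mp hmod
      have h3 : p ∣ q ^ j + 1 := by
        have : (p : ℤ) ∣ ((q ^ j + 1 : ℕ) : ℤ) := by
          have : (p : ℤ) ∣ -(-1 - (d χ : ℤ)) := (dvd_neg).mpr h1
          rw [hj] at this
          push_cast at this ⊢
          convert this using 1
          ring
        exact_mod_cast this
      obtain ⟨m, hm⟩ := hneg j h3
      rcases Nat.eq_zero_or_pos m with rfl | hmpos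
      · have : j = h := by omega
        rw [hj, this]
      · exfalso
        have h5 := hm1 m (by omega)
        have := hsq j (by omega)
        rw [← hj] at this
        nlinarith
    · -- `d = r * q ^ j`, `q ^ (c + j) ≡ 1`
      exfalso
      have h1 : (p : ℤ) ∣ -1 - (d χ : ℤ) := (Int.modEq_iff_dvd).mp hmod
      have h3 : p ∣ q ^ (c + j) - 1 := by
        have hpos' : 1 ≤ q ^ (c + j) := Nat.one_le_pow _ _ (by omega)
        have : (p : ℤ) ∣ ((q ^ (c + j) - 1 : ℕ) : ℤ) := by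
          rw [Nat.cast_sub hpos']
          rw [hj] at h1
          push_cast at h1 ⊢
          rw [hrz] at h1
          have h4 : (p : ℤ) ∣ (p : ℤ) * (q : ℤ) ^ j := dvd_mul_right _ _
          have := Int.dvd_add h1 h4
          convert this using 1
          ring
        exact_mod_cast this
      obtain ⟨m, hm⟩ := hpos (c + j) h3
      have hm0 : m ≠ 0 := by
        rintro rfl
        omega
      have h5 := hm1 m hm0
      have h6 : h + 1 ≤ j := by omega
      have h7 : q ^ (h + 1) ≤ q ^ j := Nat.pow_le_pow_right hq1 h6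
      have h8 : q ^ (h + 1) = q ^ h * q := pow_succ q h
      have h9 : 2 * (r + 2) ≤ q ^ j := by
        calc 2 * (r + 2) ≤ q * q ^ h := Nat.mul_le_mul hq2 hQ
          _ = q ^ (h + 1) := by rw [h8, mul_comm]
          _ ≤ q ^ j := h7
      rw [hj] at hle
      nlinarith

end Cfsg.Agent.Helper57
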