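import Cfsg.Agent.Helper64.UCDefs

/-!
# CALL S2100 / S2398 (helper64), pieces S1, S2A, S2B (doubles): the shapes with one or two
terms, everything commuting (pure computations in `E`)
-/

set_option autoImplicit false
set_option linter.unusedSimpArgs false

namespace Cfsg.Agent.Helper57.STUS12

open Cfsg Cfsg.Lie Cfsg.Agent.Helper36 Cfsg.Agent.Helper64.UC

section

variable {K : Type*} [Field K] {E : Type*} [Group E]

theorem s12_zero (y : ℕ → K → E) (hy : ∀ (r : ℕ) (t u : K), y r t * y r u = y r (t + u)) (k : ℕ) :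
    y k 0 = 1 := by
  have := hy k 0 0
  rw [add_zero] at this
  exact mul_eq_left.mp this

theorem s12_inv (y : ℕ → K → E) (hy : ∀ (r : ℕ) (t u : K), y r t * y r u = y r (t + u)) (k : ℕ)
    (v : K) : (y k v)⁻¹ = y k (-v) := by
  apply inv_eq_of_mul_eq_one_right
  rw [hy, add_neg_cancel, s12_zero y hy]

/-- PIECE S1: one term `(k; 1, 1)`. -/
theorem s1_add (D : ChevalleyDatum) (y : ℕ → K → E)
    (hy : ∀ (r : ℕ) (t u : K), y r t * y r u = y r (t + u)) {r s k : ℕ}
    (hsig : sig D r s = [(k, 1, 1)])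
    (c : ∀ t u : K, y k u * y s t = y s t * y k u) :
    ∀ t u u' : K, y s u * sW y (D.commWord K r s t u) *
        (y s u' * sW y (D.commWord K r s t u')) =
      y s (u + u') * sW y (D.commWord K r s t (u + u')) := by
  obtain ⟨C1, hct⟩ : ∃ C1 : ℤ, D.commTerms r s = [(k, C1, 1, 1)] := by
    unfold sig at hsig
    generalize D.commTerms r s = l at hsig
    match l, hsig with
    | [], h => simp at h
    | [(p1, C1, i1, j1)], h =>
      simp only [List.map_cons, List.map_nil, List.cons.injEq, Prod.mk.injEq, and_true] at h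
      obtain ⟨rfl, rfl, rfl⟩ := h
      exact ⟨C1, rfl⟩
    | _ :: _ :: _, h => simp at h
  have hw : ∀ t u : K, sW y (D.commWord K r s t u) = y k ((C1 : K) * (-t) ^ 1 * u ^ 1) := by
    intro t u
    rw [ChevalleyDatum.commWord, hct]
    simp only [List.map_cons, List.map_nil, sW_cons, sW_nil, mul_one]
  intro t u u'
  rw [hw, hw, hw]
  have aS' : ∀ t u (z : E), y s t * (y s u * z) = y s (t + u) * z := fun t u z => by
    rw [← mul_assoc, hy]
  have aK' : ∀ t u (z : E), y k t * (y k u * z) = y k (t + u) * z := fun t u z => by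
    rw [← mul_assoc, hy]
  have c' : ∀ t u (z : E), y k u * (y s t * z) = y s t * (y k u * z) := fun t u z => by
    rw [← mul_assoc, c, mul_assoc]
  simp only [mul_assoc, hy, aS', aK', c, c']
  congr 2
  ring

/-- PIECE S2A: terms `(k₁; 1, 1), (k₂; 2, 1)`, everything commutes. -/
theorem s2a_add (D : ChevalleyDatum) (y : ℕ → K → E)
    (hy : ∀ (r : ℕ) (t u : K), y r t * y r u = y r (t + u)) {r s k1 k2 : ℕ}
    (hsig : sig D r s = [(k1, 1, 1), (k2, 2, 1)])
    (c1 : ∀ t u : K, y k1 u * y s t = y s t * y k1 u)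
    (c2 : ∀ t u : K, y k2 u * y s t = y s t * y k2 u)
    (c3 : ∀ t u : K, y k2 u * y k1 t = y k1 t * y k2 u) :
    ∀ t u u' : K, y s u * sW y (D.commWord K r s t u) *
        (y s u' * sW y (D.commWord K r s t u')) =
      y s (u + u') * sW y (D.commWord K r s t (u + u')) := by
  obtain ⟨C1, C2, hct⟩ : ∃ C1 C2 : ℤ, D.commTerms r s = [(k1, C1, 1, 1), (k2, C2, 2, 1)] := by
    unfold sig at hsig
    generalize D.commTerms r s = l at hsig
    match l, hsig with
    | [], h => simp at h
    | [_], h => simp at h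
    | [(p1, C1, i1, j1), (p2, C2, i2, j2)], h =>
      simp only [List.map_cons, List.map_nil, List.cons.injEq, Prod.mk.injEq, and_true] at h
      obtain ⟨⟨rfl, rfl, rfl⟩, ⟨rfl, rfl, rfl⟩⟩ := h
      exact ⟨C1, C2, rfl⟩
    | _ :: _ :: _ :: _, h => simp at h
  have hw : ∀ t u : K, sW y (D.commWord K r s t u) =
      y k1 ((C1 : K) * (-t) ^ 1 * u ^ 1) * y k2 ((C2 : K) * (-t) ^ 2 * u ^ 1) := by
    intro t u
    rw [ChevalleyDatum.commWord, hct]
    simp only [List.map_cons, List.map_nil, sW_cons, sW_nil, mul_one]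
  intro t u u'
  rw [hw, hw, hw]
  have aS' : ∀ t u (z : E), y s t * (y s u * z) = y s (t + u) * z := fun t u z => by
    rw [← mul_assoc, hy]
  have a1' : ∀ t u (z : E), y k1 t * (y k1 u * z) = y k1 (t + u) * z := fun t u z => by
    rw [← mul_assoc, hy]
  have a2' : ∀ t u (z : E), y k2 t * (y k2 u * z) = y k2 (t + u) * z := fun t u z => by
    rw [← mul_assoc, hy]
  have c1' : ∀ t u (z : E), y k1 u * (y s t * z) = y s t * (y k1 u * z) := fun t u z => by
    rw [← mul_assoc, c1, mul_assoc]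
  have c2' : ∀ t u (z : E), y k2 u * (y s t * z) = y s t * (y k2 u * z) := fun t u z => by
    rw [← mul_assoc, c2, mul_assoc]
  have c3' : ∀ t u (z : E), y k2 u * (y k1 t * z) = y k1 t * (y k2 u * z) := fun t u z => by
    rw [← mul_assoc, c3, mul_assoc]
  -- the rules may overlap when some of the roots coincide; fix the order s < k1 < k2
  simp only [mul_assoc, hy, aS', a1', a2', c1, c1', c2, c2', c3, c3']
  congr 2
  · ring_nf
  · congr 1
    ring

/-- PIECE S2B: terms `(k₁; 1, 1), (k₂; 1, 2)`, everything commutes (`t` version). -/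
theorem s2b_add (D : ChevalleyDatum) (y : ℕ → K → E)
    (hy : ∀ (r : ℕ) (t u : K), y r t * y r u = y r (t + u)) {r s k1 k2 : ℕ}
    (hsig : sig D r s = [(k1, 1, 1), (k2, 1, 2)])
    (c1 : ∀ t u : K, y k1 u * y r t = y r t * y k1 u)
    (c2 : ∀ t u : K, y k2 u * y r t = y r t * y k2 u)
    (c3 : ∀ t u : K, y k2 u * y k1 t = y k1 t * y k2 u) :
    ∀ t t' u : K, y r t * (sW y (D.commWord K r s t u))⁻¹ *
        (y r t' * (sW y (D.commWord K r s t' u))⁻¹) =
      y r (t + t') * (sW y (D.commWord K r s (t + t') u))⁻¹ := by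
  obtain ⟨C1, C2, hct⟩ : ∃ C1 C2 : ℤ, D.commTerms r s = [(k1, C1, 1, 1), (k2, C2, 1, 2)] := by
    unfold sig at hsig
    generalize D.commTerms r s = l at hsig
    match l, hsig with
    | [], h => simp at h
    | [_], h => simp at h
    | [(p1, C1, i1, j1), (p2, C2, i2, j2)], h =>
      simp only [List.map_cons, List.map_nil, List.cons.injEq, Prod.mk.injEq, and_true] at h
      obtain ⟨⟨rfl, rfl, rfl⟩, ⟨rfl, rfl, rfl⟩⟩ := h
      exact ⟨C1, C2, rfl⟩
    | _ :: _ :: _ :: _, h => simp at h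
  have hw : ∀ t u : K, (sW y (D.commWord K r s t u))⁻¹ =
      y k2 (-((C2 : K) * (-t) ^ 1 * u ^ 2)) * y k1 (-((C1 : K) * (-t) ^ 1 * u ^ 1)) := by
    intro t u
    rw [ChevalleyDatum.commWord, hct]
    simp only [List.map_cons, List.map_nil, sW_cons, sW_nil, mul_one, mul_inv_rev, s12_inv y hy]
  intro t t' u
  rw [hw, hw, hw]
  have aR' : ∀ t u (z : E), y r t * (y r u * z) = y r (t + u) * z := fun t u z => by
    rw [← mul_assoc, hy]
  have a1' : ∀ t u (z : E), y k1 t * (y k1 u * z) = y k1 (t + u) * z := fun t u z => by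
    rw [← mul_assoc, hy]
  have a2' : ∀ t u (z : E), y k2 t * (y k2 u * z) = y k2 (t + u) * z := fun t u z => by
    rw [← mul_assoc, hy]
  have c1' : ∀ t u (z : E), y k1 u * (y r t * z) = y r t * (y k1 u * z) := fun t u z => by
    rw [← mul_assoc, c1, mul_assoc]
  have c2' : ∀ t u (z : E), y k2 u * (y r t * z) = y r t * (y k2 u * z) := fun t u z => by
    rw [← mul_assoc, c2, mul_assoc]
  have c3' : ∀ t u (z : E), y k2 u * (y k1 t * z) = y k1 t * (y k2 u * z) := fun t u z => by
    rw [← mul_assoc, c3, mul_assoc]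
  simp only [mul_assoc, hy, aR', a1', a2', c1, c1', c2, c2', c3, c3']
  congr 2
  · ring_nf
  · congr 1
    ring

end

end Cfsg.Agent.Helper57.STUS12
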