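import Cfsg.Agent.Helper64.UCDefs

/-!
# CALL S2100 / S2398 (helper64), piece S4B (double): the shape `(1,1), (1,2), (1,3), (2,3)`,
`t` version (pure computation in `E`)
-/

set_option autoImplicit false
set_option linter.unusedSimpArgs false

namespace Cfsg.Agent.Helper57.STUS4B

open Cfsg Cfsg.Lie Cfsg.Agent.Helper36 Cfsg.Agent.Helper64.UC

section

variable {K : Type*} [Field K] {E : Type*} [Group E]

theorem s4b_core (X Y1 Y2 Y3 Y4 : K → E) (N M : K)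
    (aX : ∀ t u, X t * X u = X (t + u)) (a1 : ∀ t u, Y1 t * Y1 u = Y1 (t + u))
    (a2 : ∀ t u, Y2 t * Y2 u = Y2 (t + u)) (a3 : ∀ t u, Y3 t * Y3 u = Y3 (t + u))
    (a4 : ∀ t u, Y4 t * Y4 u = Y4 (t + u))
    (cN : ∀ t u : K, Y3 u * X t = X t * Y3 u * Y4 (N * (-t) * u))
    (cM : ∀ t u : K, Y2 u * Y1 t = Y1 t * Y2 u * Y4 (M * (-t) * u))
    (c1 : ∀ t u : K, Y1 u * X t = X t * Y1 u)
    (c2 : ∀ t u : K, Y2 u * X t = X t * Y2 u)
    (c4 : ∀ t u : K, Y4 u * X t = X t * Y4 u)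
    (c13 : ∀ t u : K, Y3 u * Y1 t = Y1 t * Y3 u)
    (c14 : ∀ t u : K, Y4 u * Y1 t = Y1 t * Y4 u)
    (c23 : ∀ t u : K, Y3 u * Y2 t = Y2 t * Y3 u)
    (c24 : ∀ t u : K, Y4 u * Y2 t = Y2 t * Y4 u)
    (c34 : ∀ t u : K, Y4 u * Y3 t = Y3 t * Y4 u)
    (t t' a b c d a' b' c' d' d'' : K) :
    X t * (Y4 d * Y3 c * Y2 b * Y1 a) * (X t' * (Y4 d' * Y3 c' * Y2 b' * Y1 a')) =
      X (t + t') * (Y4 d'' * Y3 (c + c') * Y2 (b + b') * Y1 (a + a')) *
        Y4 (d + N * (-t') * c + M * a * b' + d' - d'') := by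
  -- three-term versions of the rules
  have aX' : ∀ t u (z : E), X t * (X u * z) = X (t + u) * z := fun t u z => by
    rw [← mul_assoc, aX]
  have a1' : ∀ t u (z : E), Y1 t * (Y1 u * z) = Y1 (t + u) * z := fun t u z => by
    rw [← mul_assoc, a1]
  have a2' : ∀ t u (z : E), Y2 t * (Y2 u * z) = Y2 (t + u) * z := fun t u z => by
    rw [← mul_assoc, a2]
  have a3' : ∀ t u (z : E), Y3 t * (Y3 u * z) = Y3 (t + u) * z := fun t u z => by
    rw [← mul_assoc, a3]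
  have a4' : ∀ t u (z : E), Y4 t * (Y4 u * z) = Y4 (t + u) * z := fun t u z => by
    rw [← mul_assoc, a4]
  have cN' : ∀ t u (z : E), Y3 u * (X t * z) = X t * (Y3 u * (Y4 (N * (-t) * u) * z)) :=
    fun t u z => by rw [← mul_assoc, cN]; simp only [mul_assoc]
  have c1' : ∀ t u (z : E), Y1 u * (X t * z) = X t * (Y1 u * z) := fun t u z => by
    rw [← mul_assoc, c1, mul_assoc]
  have c2' : ∀ t u (z : E), Y2 u * (X t * z) = X t * (Y2 u * z) := fun t u z => by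
    rw [← mul_assoc, c2, mul_assoc]
  have c4' : ∀ t u (z : E), Y4 u * (X t * z) = X t * (Y4 u * z) := fun t u z => by
    rw [← mul_assoc, c4, mul_assoc]
  -- order: X < Y3 < Y2 < Y1 < Y4
  have d13 : ∀ t u : K, Y1 t * Y3 u = Y3 u * Y1 t := fun t u => (c13 t u).symm
  have d13' : ∀ t u (z : E), Y1 t * (Y3 u * z) = Y3 u * (Y1 t * z) := fun t u z => by
    rw [← mul_assoc, d13, mul_assoc]
  have d23 : ∀ t u : K, Y2 t * Y3 u = Y3 u * Y2 t := fun t u => (c23 t u).symm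
  have d23' : ∀ t u (z : E), Y2 t * (Y3 u * z) = Y3 u * (Y2 t * z) := fun t u z => by
    rw [← mul_assoc, d23, mul_assoc]
  have c34' : ∀ t u (z : E), Y4 u * (Y3 t * z) = Y3 t * (Y4 u * z) := fun t u z => by
    rw [← mul_assoc, c34, mul_assoc]
  have c24' : ∀ t u (z : E), Y4 u * (Y2 t * z) = Y2 t * (Y4 u * z) := fun t u z => by
    rw [← mul_assoc, c24, mul_assoc]
  have c14' : ∀ t u (z : E), Y4 u * (Y1 t * z) = Y1 t * (Y4 u * z) := fun t u z => by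
    rw [← mul_assoc, c14, mul_assoc]
  have h40 : Y4 0 = 1 := by
    have := a4 0 0
    rw [add_zero] at this
    exact mul_eq_left.mp this
  have dM : ∀ t u : K, Y1 t * Y2 u = Y2 u * (Y1 t * Y4 (M * t * u)) := by
    intro t u
    have h := cM t u
    have e : Y1 t * Y2 u = Y2 u * Y1 t * (Y4 (M * (-t) * u))⁻¹ := by
      rw [h, mul_inv_cancel_right]
    have e2 : (Y4 (M * (-t) * u))⁻¹ = Y4 (M * t * u) := by
      apply inv_eq_of_mul_eq_one_right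
      rw [a4, ← h40]
      congr 1
      ring
    rw [e, e2, mul_assoc]
  have dM' : ∀ t u (z : E), Y1 t * (Y2 u * z) = Y2 u * (Y1 t * (Y4 (M * t * u) * z)) :=
    fun t u z => by rw [← mul_assoc, dM]; simp only [mul_assoc]
  simp only [mul_assoc, aX, aX', a1, a1', a2, a2', a3, a3', a4, a4', cN, cN', c1, c1', c2, c2', c4, c4',
    d13, d13', d23, d23', c34, c34', c24, c24', c14, c14', dM, dM']
  congr 5
  ring

/-- PIECE S4B: terms `(k₁; 1, 1), (k₂; 1, 2), (k₃; 1, 3), (k₄; 2, 3)` (`t` version). -/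
theorem s4b_res (D : ChevalleyDatum) (y : ℕ → K → E)
    (hy : ∀ (r : ℕ) (t u : K), y r t * y r u = y r (t + u)) {r s k1 k2 k3 k4 : ℕ}
    (hsig : sig D r s = [(k1, 1, 1), (k2, 1, 2), (k3, 1, 3), (k4, 2, 3)]) (N M : K)
    (cN : ∀ t u : K, y k3 u * y r t = y r t * y k3 u * y k4 (N * (-t) * u))
    (cM : ∀ t u : K, y k2 u * y k1 t = y k1 t * y k2 u * y k4 (M * (-t) * u))
    (c1 : ∀ t u : K, y k1 u * y r t = y r t * y k1 u)
    (c2 : ∀ t u : K, y k2 u * y r t = y r t * y k2 u)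
    (c4 : ∀ t u : K, y k4 u * y r t = y r t * y k4 u)
    (c13 : ∀ t u : K, y k3 u * y k1 t = y k1 t * y k3 u)
    (c14 : ∀ t u : K, y k4 u * y k1 t = y k1 t * y k4 u)
    (c23 : ∀ t u : K, y k3 u * y k2 t = y k2 t * y k3 u)
    (c24 : ∀ t u : K, y k4 u * y k2 t = y k2 t * y k4 u)
    (c34 : ∀ t u : K, y k4 u * y k3 t = y k3 t * y k4 u) :
    ∀ t t' u : K, ∃ P : K, y r t * (sW y (D.commWord K r s t u))⁻¹ *
        (y r t' * (sW y (D.commWord K r s t' u))⁻¹) =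
      y r (t + t') * (sW y (D.commWord K r s (t + t') u))⁻¹ * y k4 P := by
  obtain ⟨C1, C2, C3, C4, hct⟩ : ∃ C1 C2 C3 C4 : ℤ, D.commTerms r s =
      [(k1, C1, 1, 1), (k2, C2, 1, 2), (k3, C3, 1, 3), (k4, C4, 2, 3)] := by
    unfold sig at hsig
    generalize D.commTerms r s = l at hsig
    match l, hsig with
    | [], h => simp at h
    | [_], h => simp at h
    | [_, _], h => simp at h
    | [_, _, _], h => simp at h
    | [(p1, C1, i1, j1), (p2, C2, i2, j2), (p3, C3, i3, j3), (p4, C4, i4, j4)], h =>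
      simp only [List.map_cons, List.map_nil, List.cons.injEq, Prod.mk.injEq, and_true] at h
      obtain ⟨⟨rfl, rfl, rfl⟩, ⟨rfl, rfl, rfl⟩, ⟨rfl, rfl, rfl⟩, ⟨rfl, rfl, rfl⟩⟩ := h
      exact ⟨C1, C2, C3, C4, rfl⟩
    | _ :: _ :: _ :: _ :: _ :: _, h => simp at h
  have h0 : ∀ k, y k 0 = 1 := by
    intro k
    have := hy k 0 0
    rw [add_zero] at this
    exact mul_eq_left.mp this
  have hinv : ∀ k v, (y k v)⁻¹ = y k (-v) := by
    intro k v
    apply inv_eq_of_mul_eq_one_right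
    rw [hy, add_neg_cancel, h0]
  have hw : ∀ t u : K, (sW y (D.commWord K r s t u))⁻¹ =
      y k4 (-((C4 : K) * (-t) ^ 2 * u ^ 3)) * y k3 (-((C3 : K) * (-t) ^ 1 * u ^ 3)) *
        y k2 (-((C2 : K) * (-t) ^ 1 * u ^ 2)) * y k1 (-((C1 : K) * (-t) ^ 1 * u ^ 1)) := by
    intro t u
    rw [ChevalleyDatum.commWord, hct]
    simp only [List.map_cons, List.map_nil, sW_cons, sW_nil, mul_one, mul_inv_rev, hinv, mul_assoc]
  intro t t' u
  have e3 : -((C3 : K) * (-(t + t')) ^ 1 * u ^ 3) =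
      -((C3 : K) * (-t) ^ 1 * u ^ 3) + -((C3 : K) * (-t') ^ 1 * u ^ 3) := by ring
  have e2 : -((C2 : K) * (-(t + t')) ^ 1 * u ^ 2) =
      -((C2 : K) * (-t) ^ 1 * u ^ 2) + -((C2 : K) * (-t') ^ 1 * u ^ 2) := by ring
  have e1 : -((C1 : K) * (-(t + t')) ^ 1 * u ^ 1) =
      -((C1 : K) * (-t) ^ 1 * u ^ 1) + -((C1 : K) * (-t') ^ 1 * u ^ 1) := by ring
  have key := s4b_core (y r) (y k1) (y k2) (y k3) (y k4) N M (hy r) (hy k1) (hy k2) (hy k3) (hy k4)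
    cN cM c1 c2 c4 c13 c14 c23 c24 c34 t t'
    (-((C1 : K) * (-t) ^ 1 * u ^ 1)) (-((C2 : K) * (-t) ^ 1 * u ^ 2))
    (-((C3 : K) * (-t) ^ 1 * u ^ 3)) (-((C4 : K) * (-t) ^ 2 * u ^ 3))
    (-((C1 : K) * (-t') ^ 1 * u ^ 1)) (-((C2 : K) * (-t') ^ 1 * u ^ 2))
    (-((C3 : K) * (-t') ^ 1 * u ^ 3)) (-((C4 : K) * (-t') ^ 2 * u ^ 3))
    (-((C4 : K) * (-(t + t')) ^ 2 * u ^ 3))
  apply Exists.intro
  rw [hw, hw, hw, e3, e2, e1]
  exact key

end

end Cfsg.Agent.Helper57.STUS4B
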