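import Mathlib
import Cfsg.Agent.Helper97.TMDefs

set_option autoImplicit false

/-!
Piece L5 of CALL S2415 (helper97): a subspace containing `p'` and stable under
`E(p, w1) * E(p', w2)` contains `p`, `w1`, `w2`.
-/

universe u

namespace Cfsg.Agent.Helper57

open Cfsg Matrix Cfsg.Agent.Helper45 Cfsg.Agent.Helper98 Cfsg.Agent.Helper97.TM

section generic

variable {ι : Type} [Fintype ι] [DecidableEq ι] {F : Type u} [Field F]
  (Q : QuadraticForm F (ι → F))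

/-- L5 -/
theorem tm_span_pair (p p' w1 w2 : ι → F) (hp : Q p = 0) (hp' : Q p' = 0)
    (hpp : QuadraticMap.polar ⇑Q p p' = 1)
    (h1 : QuadraticMap.polar ⇑Q p w1 = 0) (h1' : QuadraticMap.polar ⇑Q p' w1 = 0)
    (h2 : QuadraticMap.polar ⇑Q p w2 = 0) (h2' : QuadraticMap.polar ⇑Q p' w2 = 0)
    (hN : Q w1 ≠ 0) (hκ : QuadraticMap.polar ⇑Q w1 w2 ≠ 4)
    (T : Submodule F (ι → F)) (hT : p' ∈ T)
    (hst : ∀ v ∈ T, mv ⇑Q (eichO Q p w1 hp h1 * eichO Q p' w2 hp' h2') v ∈ T) :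
    p ∈ T ∧ w1 ∈ T ∧ w2 ∈ T := by
  obtain ⟨N1, hN1⟩ : ∃ N1 : F, N1 = Q w1 := ⟨_, rfl⟩
  obtain ⟨N2, hN2⟩ : ∃ N2 : F, N2 = Q w2 := ⟨_, rfl⟩
  obtain ⟨β, hβ⟩ : ∃ β : F, β = QuadraticMap.polar ⇑Q w1 w2 := ⟨_, rfl⟩
  rw [← hN1] at hN
  rw [← hβ] at hκ
  have tpp : QuadraticMap.polar ⇑Q p p = 0 := by
    rw [QuadraticMap.polar_self, hp, smul_zero]
  have tp'p' : QuadraticMap.polar ⇑Q p' p' = 0 := by
    rw [QuadraticMap.polar_self, hp', smul_zero]
  have tp'p : QuadraticMap.polar ⇑Q p' p = 1 := by rw [QuadraticMap.polar_comm, hpp]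
  have tw1p : QuadraticMap.polar ⇑Q w1 p = 0 := by rw [QuadraticMap.polar_comm, h1]
  have tw1p' : QuadraticMap.polar ⇑Q w1 p' = 0 := by rw [QuadraticMap.polar_comm, h1']
  have tw2p : QuadraticMap.polar ⇑Q w2 p = 0 := by rw [QuadraticMap.polar_comm, h2]
  have tw2p' : QuadraticMap.polar ⇑Q w2 p' = 0 := by rw [QuadraticMap.polar_comm, h2']
  have tw1w1 : QuadraticMap.polar ⇑Q w1 w1 = 2 * N1 := by
    rw [hN1, two_mul, QuadraticMap.polar_self, two_smul]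
  have tw2w2 : QuadraticMap.polar ⇑Q w2 w2 = 2 * N2 := by
    rw [hN2, two_mul, QuadraticMap.polar_self, two_smul]
  have tw2w1 : QuadraticMap.polar ⇑Q w2 w1 = β := by rw [QuadraticMap.polar_comm, hβ]
  have tw1w2 : QuadraticMap.polar ⇑Q w1 w2 = β := hβ.symm
  have hpol : ∀ (y : ι → F) (α α' γ1 γ2 : F),
      QuadraticMap.polar ⇑Q y (α • p + α' • p' + γ1 • w1 + γ2 • w2) =
        α * QuadraticMap.polar ⇑Q y p + α' * QuadraticMap.polar ⇑Q y p' +
          γ1 * QuadraticMap.polar ⇑Q y w1 + γ2 * QuadraticMap.polar ⇑Q y w2 := by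
    intro y α α' γ1 γ2
    simp only [QuadraticMap.polar_add_right, QuadraticMap.polar_smul_right, smul_eq_mul]
  have hE2 : ∀ α α' γ1 γ2 : F,
      mv ⇑Q (eichO Q p' w2 hp' h2') (α • p + α' • p' + γ1 • w1 + γ2 • w2) =
        α • p + (α' + (β * γ1 + 2 * N2 * γ2 - N2 * α)) • p' + γ1 • w1 + (γ2 - α) • w2 := by
    intro α α' γ1 γ2
    rw [mv_eichO]
    unfold Helper44.eich
    simp only [hpol, tw2p, tw2p', tw2w1, tw2w2, tp'p, tp'p', h1', h2', ← hN2]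
    module
  have hE1 : ∀ α α' γ1 γ2 : F,
      mv ⇑Q (eichO Q p w1 hp h1) (α • p + α' • p' + γ1 • w1 + γ2 • w2) =
        (α + (2 * N1 * γ1 + β * γ2 - N1 * α')) • p + α' • p' + (γ1 - α') • w1 + γ2 • w2 := by
    intro α α' γ1 γ2
    rw [mv_eichO]
    unfold Helper44.eich
    simp only [hpol, tw1p, tw1p', tw1w1, tw1w2, tpp, hpp, h1, h2, ← hN1]
    module
  have hG : ∀ α α' γ1 γ2 : F,
      mv ⇑Q (eichO Q p w1 hp h1 * eichO Q p' w2 hp' h2') (α • p + α' • p' + γ1 • w1 + γ2 • w2) =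
        (α + (2 * N1 * γ1 + β * (γ2 - α) - N1 * (α' + (β * γ1 + 2 * N2 * γ2 - N2 * α)))) • p +
          (α' + (β * γ1 + 2 * N2 * γ2 - N2 * α)) • p' +
          (γ1 - (α' + (β * γ1 + 2 * N2 * γ2 - N2 * α))) • w1 + (γ2 - α) • w2 := by
    intro α α' γ1 γ2
    rw [mv_mul, hE2, hE1]
  -- step 1
  have e0 : (0 : F) • p + (1 : F) • p' + (0 : F) • w1 + (0 : F) • w2 = p' := by module
  have g0 := hG 0 1 0 0
  rw [e0] at g0
  have hs1 : N1 • p + w1 ∈ T := by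
    have h := T.sub_mem hT (hst p' hT)
    rw [g0] at h
    convert h using 1
    module
  -- step 2
  have e1 : N1 • p + (0 : F) • p' + (1 : F) • w1 + (0 : F) • w2 = N1 • p + w1 := by module
  have g1 := hG N1 0 1 0
  rw [e1] at g1
  have hs2' : N1 • ((2 - β) • p - w2) ∈ T := by
    have h := T.sub_mem (T.sub_mem (hst _ hs1) (T.smul_mem (β - N1 * N2) hT))
      (T.smul_mem (1 - β + N1 * N2) hs1)
    rw [g1] at h
    convert h using 1
    module
  have hs2 : (2 - β) • p - w2 ∈ T := by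
    have h := T.smul_mem N1⁻¹ hs2'
    rwa [inv_smul_smul₀ hN] at h
  -- step 3
  have e2 : (2 - β) • p + (0 : F) • p' + (0 : F) • w1 + (-1 : F) • w2 = (2 - β) • p - w2 := by
    module
  have g2 := hG (2 - β) 0 0 (-1)
  rw [e2] at g2
  have hp4 : (β - 4) • p ∈ T := by
    have h := T.sub_mem (T.add_mem (T.sub_mem (hst _ hs2) (T.smul_mem (N2 * (β - 4)) hT))
      (T.smul_mem (N2 * (β - 4)) hs1)) (T.smul_mem (3 - β) hs2)
    rw [g2] at h
    convert h using 1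
    module
  have hβ4 : β - 4 ≠ 0 := sub_ne_zero.mpr hκ
  have hpT : p ∈ T := by
    have h := T.smul_mem (β - 4)⁻¹ hp4
    rwa [inv_smul_smul₀ hβ4] at h
  refine ⟨hpT, ?_, ?_⟩
  · have h := T.sub_mem hs1 (T.smul_mem N1 hpT)
    convert h using 1
    module
  · have h := T.sub_mem (T.smul_mem (2 - β) hpT) hs2
    convert h using 1
    module

end generic

end Cfsg.Agent.Helper57
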