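import Mathlib

/-!
# 2-transitivity of coset actions (seat helper57)

* `two_pretransitive_of_stabilizer`: the action of `G` on `G ⧸ H` is 2-pretransitive as soon as `H` moves one
  coset to every coset other than `H` itself;
* `two_pretransitive_map`: transport of 2-pretransitivity of a coset action along a group isomorphism.
-/

set_option autoImplicit false

namespace Cfsg.Agent.Helper57

/-- If `H` moves a fixed coset `x0` to every coset other than `H`, then `G` is 2-pretransitive on `G ⧸ H`. -/
theorem two_pretransitive_of_stabilizer {G : Type*} [Group G] (H : Subgroup G) (x0 : G ⧸ H)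
    (htr : ∀ y : G ⧸ H, y ≠ ((1 : G) : G ⧸ H) → ∃ h ∈ H, h • x0 = y) :
    MulAction.IsMultiplyPretransitive G (G ⧸ H) 2 := by
  rw [MulAction.is_two_pretransitive_iff]
  intro a b c d hab hcd
  induction a using QuotientGroup.induction_on with
  | H g1 =>
  induction c using QuotientGroup.induction_on with
  | H g2 =>
  have hb : g1⁻¹ • b ≠ ((1 : G) : G ⧸ H) := by
    intro h
    apply hab
    have : b = g1 • ((1 : G) : G ⧸ H) := by rw [← h, smul_inv_smul]
    rw [this, MulAction.Quotient.smul_mk, smul_eq_mul, mul_one]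
  have hd : g2⁻¹ • d ≠ ((1 : G) : G ⧸ H) := by
    intro h
    apply hcd
    have : d = g2 • ((1 : G) : G ⧸ H) := by rw [← h, smul_inv_smul]
    rw [this, MulAction.Quotient.smul_mk, smul_eq_mul, mul_one]
  obtain ⟨h1, hh1, e1⟩ := htr _ hb
  obtain ⟨h2, hh2, e2⟩ := htr _ hd
  refine ⟨g2 * h2 * h1⁻¹ * g1⁻¹, ?_, ?_⟩
  · rw [MulAction.Quotient.smul_mk, smul_eq_mul]
    apply QuotientGroup.eq.2
    have : (g2 * h2 * h1⁻¹ * g1⁻¹ * g1)⁻¹ * g2 = h1 * h2⁻¹ := by group
    rw [this]
    exact H.mul_mem hh1 (H.inv_mem hh2)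
  · have hb' : b = g1 • h1 • x0 := by rw [e1, smul_inv_smul]
    have hd' : d = g2 • h2 • x0 := by rw [e2, smul_inv_smul]
    rw [hb', hd']
    simp only [mul_smul, inv_smul_smul]

/-- 2-pretransitivity of a coset action is invariant under group isomorphisms. -/
theorem two_pretransitive_map {G G' : Type*} [Group G] [Group G'] (e : G ≃* G') (H : Subgroup G)
    (h : MulAction.IsMultiplyPretransitive G (G ⧸ H) 2) :
    MulAction.IsMultiplyPretransitive G' (G' ⧸ H.map (e : G →* G')) 2 := by
  rw [MulAction.is_two_pretransitive_iff] at h ⊢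
  have key : ∀ x y : G, ((e x : G') : G' ⧸ H.map (e : G →* G')) = (e y : G') ↔
      ((x : G ⧸ H) = y) := by
    intro x y
    rw [QuotientGroup.eq, QuotientGroup.eq, ← map_inv, ← map_mul]
    constructor
    · rintro ⟨z, hz, hze⟩
      have : z = x⁻¹ * y := e.injective hze
      rwa [← this]
    · intro hz
      exact ⟨_, hz, rfl⟩
  intro a b c d hab hcd
  induction a using QuotientGroup.induction_on with
  | H a =>
  induction b using QuotientGroup.induction_on with
  | H b =>
  induction c using QuotientGroup.induction_on with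
  | H c =>
  induction d using QuotientGroup.induction_on with
  | H d =>
  obtain ⟨a, rfl⟩ := e.surjective a
  obtain ⟨b, rfl⟩ := e.surjective b
  obtain ⟨c, rfl⟩ := e.surjective c
  obtain ⟨d, rfl⟩ := e.surjective d
  have hab' : ((a : G ⧸ H)) ≠ b := fun h => hab ((key a b).2 h)
  have hcd' : ((c : G ⧸ H)) ≠ d := fun h => hcd ((key c d).2 h)
  obtain ⟨g, hg1, hg2⟩ := h hab' hcd'
  refine ⟨e g, ?_, ?_⟩
  · rw [MulAction.Quotient.smul_mk, smul_eq_mul, ← map_mul]
    rw [MulAction.Quotient.smul_mk, smul_eq_mul] at hg1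
    exact (key _ _).2 hg1
  · rw [MulAction.Quotient.smul_mk, smul_eq_mul, ← map_mul]
    rw [MulAction.Quotient.smul_mk, smul_eq_mul] at hg2
    exact (key _ _).2 hg2

end Cfsg.Agent.Helper57
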